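import Cfsg.Agent.R11.CQD
import Cfsg.Agent.SporChar.HexTau

/-! The sextet parabolic on the even cocode: inclusions, normalisers and commutators. -/

set_option autoImplicit false
set_option maxRecDepth 100000

namespace Cfsg.Lib.R11

open Subgroup Cfsg.Lib.Trans Cfsg.Lib.Gold Cfsg.Lib.Spor Cfsg.Lib.Spor.MP Cfsg.Lib.SporChar
  Cfsg.Lib.SporChar.J4B
open scoped commutatorElement

universe u

namespace CQ

/-- `q` is one of the `eP k`. -/
def inE (q : ℕ) : Bool := force q fun q => !allLT 64 fun k => !Nat.beq q (eP k)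

theorem inE_iff {q : ℕ} : inE q = true ↔ ∃ k < 64, q = eP k := by
  simp [inE, ← Bool.not_eq_true, allLT_iff]

/-- The packed permutation `p` preserves `U` and normalises the hexacode group. -/
def nb (p : ℕ) : Bool := force p fun p => allLT 7 (fun i => Nat.blt (ak p (Nat.pow 2 i)) 128) &&
  allLT 6 fun i => inE (pconj p (eP (Nat.pow 2 i)))

/-- `[p, 2^i]` has coordinate `< m` for all `i < n`. -/
def cb (n m p : ℕ) : Bool :=
  force p fun p => allLT n fun i => Nat.blt (Nat.xor (ak p (Nat.pow 2 i)) (Nat.pow 2 i)) m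

variable {G : Type u} [Group G] {V : Subgroup G} {v : Finset GolayPt → G}
  {ρ : G → Equiv.Perm GolayPt} (c : Coc V v ρ)
include c

theorem ak_xor {n : G} (hn : n ∈ Ns V) {p : ℕ} (r : Rep (ρ n) p) {a b : ℕ} (ha : a < 2048)
    (hb : b < 2048) : ak p (a ^^^ b) = ak p a ^^^ ak p b := by
  have h1 := conj_w c hn r ha
  have h2 := conj_w c hn r hb
  have h3 := conj_w c hn r (Nat.xor_lt_two_pow (n := 11) ha hb)
  refine w_inj c h3.2 (Nat.xor_lt_two_pow (n := 11) h1.2 h2.2) ?_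
  rw [← h3.1, w_xor c, w_xor c, ← h1.1, ← h2.1]; group

theorem ak_zero {n : G} (hn : n ∈ Ns V) {p : ℕ} (r : Rep (ρ n) p) : ak p 0 = 0 := by
  have := ak_xor c hn r (a := 0) (b := 0) (by norm_num) (by norm_num)
  rwa [Nat.xor_self, Nat.xor_self] at this

theorem cb_spec {n : G} (hn : n ∈ Ns V) {p : ℕ} (r : Rep (ρ n) p) {l m : ℕ} (hl : l ≤ 11)
    (h : cb l (2 ^ m) p = true) : ∀ k < 2 ^ l, ak p k ^^^ k < 2 ^ m := by
  have hp : 2 ^ l ≤ 2048 := Nat.pow_le_pow_right (n := 2) (by norm_num) hl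
  refine xor_induction (by rw [ak_zero c hn r]; positivity)
    (fun i hi => Nat.blt_eq.mp (allLT_iff.1 h i hi)) fun a ha b hb h1 h2 => ?_
  have := Nat.xor_lt_two_pow h1 h2
  rwa [ak_xor c hn r (by omega) (by omega), Nat.xor_assoc, Nat.xor_comm a b, ← Nat.xor_assoc _ b,
    Nat.xor_comm _ a, ← Nat.xor_assoc]

variable [Finite G]

theorem nrm {n : G} {p : ℕ} (hn : n ∈ Ns V) (r : Rep (ρ n) p) (h : nb p = true) :
    n ∈ Ns (UU c) ⊓ Ns V ⊓ Ns (RR c) := by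
  obtain ⟨h1, h2⟩ := Bool.and_eq_true_iff.1 h
  have a1 : ∀ k < 2 ^ 7, ak p k < 2 ^ 7 := xor_induction (by rw [ak_zero c hn r]; positivity)
    (fun i hi => Nat.blt_eq.mp (allLT_iff.1 h1 i hi)) fun a ha b hb h1 h2 => by
      rw [ak_xor c hn r (by omega) (by omega)]; exact Nat.xor_lt_two_pow h1 h2
  have a2 : ∀ j < 2 ^ 6, ∃ k < 64, Rep (ρ n * toPerm (eP j) * (ρ n)⁻¹) (eP k) := by
    refine xor_induction ⟨0, by norm_num, ?_⟩ (fun i hi => ?_) fun a ha b hb h1 h2 => ?_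
    · rw [e_zero, rep_one.toPerm_eq, mul_one, mul_inv_cancel]; exact rep_one
    · obtain ⟨k, hk, e⟩ := inE_iff.1 (allLT_iff.1 h2 i hi)
      exact ⟨k, hk, e ▸ r.conj (rep_of_isM24 (is_e _ (Nat.pow_lt_pow_right (by norm_num) hi)))⟩
    · obtain ⟨k, hk, e1⟩ := h1
      obtain ⟨l, hl, e2⟩ := h2
      refine ⟨_, Nat.xor_lt_two_pow (n := 6) hk hl, ?_⟩
      rw [← e_mul k hk l hl, ← e_mul a ha b hb,
        ((rep_of_isM24 (is_e a ha)).mul (rep_of_isM24 (is_e b hb))).toPerm_eq]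
      convert e1.mul e2 using 1; group
  refine ⟨⟨mem_normalizer_fintype ?_, hn⟩, mem_normalizer_fintype ?_⟩
  · rintro _ ⟨k, hk, rfl⟩
    exact ⟨_, a1 k hk, (conj_w c hn r (by omega)).1.symm⟩
  · rintro g ⟨hg, j, hj, rg⟩
    obtain ⟨k, hk, e⟩ := a2 j hj
    exact ⟨mul_mem (mul_mem hn hg) (inv_mem hn), k, hk, by
      rwa [c.ρ_conj hn hg, ← rg.toPerm_eq]⟩

omit [Finite G] in
theorem z1 : w v 1 ≠ 1 := fun e =>
  one_ne_zero (w_inj c (by norm_num) (by norm_num) (e.trans (w_zero c).symm))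

theorem zU : w v 1 ∈ UU c := ⟨1, by norm_num, rfl⟩

theorem UV : UU c ≤ V := by
  rintro _ ⟨k, hk, rfl⟩; exact w_mem c (by omega)

theorem VR : V ≤ RR c := fun g hg =>
  ⟨le_normalizer hg, 0, by norm_num, by rw [c.ρ_V hg, e_zero]; exact rep_one⟩

theorem RT : RR c ≤ TT c := fun g ⟨hg, j, hj, r⟩ =>
  ⟨hg, j, hj, 0, by norm_num, by rw [r.toPerm_eq, d_zero, rep_one.toPerm_eq, mul_one]⟩

theorem T_dec {t : G} (ht : t ∈ TT c) :
    ∃ r ∈ RR c, ∃ d ∈ Ns V, ∃ i < 16, Rep (ρ d) (dP i) ∧ t = r * d := by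
  obtain ⟨h, j, hj, i, hi, e⟩ := ht
  obtain ⟨d, hd, rd⟩ := lift c (is_d i hi)
  refine ⟨t * d⁻¹, ⟨mul_mem h (inv_mem hd), j, hj, ?_⟩, d, hd, i, hi, rd, by group⟩
  rw [c.ρ_mul _ h _ (inv_mem hd), c.ρ_inv hd, e, rd.toPerm_eq, mul_inv_cancel_right]
  exact rep_of_isM24 (is_e j hj)

omit [Finite G] in
theorem cen_z {n : G} {p : ℕ} (hn : n ∈ Ns V) (r : Rep (ρ n) p) (h : ak p 1 = 1) :
    n ∈ C1 (w v 1) := by
  have := (conj_w c hn r (k := 1) (by norm_num)).1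
  rw [h, mul_inv_eq_iff_eq_mul] at this
  exact mem_centralizer_singleton_iff.2 this

theorem Tz : TT c ≤ C1 (w v 1) := fun t ht => by
  obtain ⟨r, ⟨hr, j, hj, rr⟩, d, hd, i, hi, rd, rfl⟩ := T_dec c ht
  exact mul_mem (cen_z c hr rr ((by decide +kernel : ∀ j < 64, ak (eP j) 1 = 1) j hj))
    (cen_z c hd rd ((by decide +kernel : ∀ i < 16, ak (dP i) 1 = 1) i hi))

omit [Finite G] in
theorem xz {x : G} (hx : IsX V ρ x) : x ∈ C1 (w v 1) := cen_z c hx.mem hx.rep (by decide +kernel)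

theorem TN : TT c ≤ Ns (UU c) ⊓ Ns V ⊓ Ns (RR c) := fun t ht => by
  obtain ⟨r, ⟨hr, j, hj, rr⟩, d, hd, i, hi, rd, rfl⟩ := T_dec c ht
  exact mul_mem (nrm c hr rr ((by decide +kernel : ∀ j < 64, nb (eP j) = true) j hj))
    (nrm c hd rd ((by decide +kernel : ∀ i < 16, nb (dP i) = true) i hi))

theorem xN {x : G} (hx : IsX V ρ x) : x ∈ Ns (UU c) ⊓ Ns V ⊓ Ns (RR c) :=
  nrm c hx.mem hx.rep (by decide +kernel)

theorem comm_U {n : G} {p : ℕ} (hn : n ∈ Ns V) (r : Rep (ρ n) p) (h : cb 11 (2 ^ 7) p = true) :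
    ∀ a ∈ V, ⁅n, a⁆ ∈ UU c := fun a ha => by
  obtain ⟨k, hk, rfl⟩ := w_surj c ha
  exact ⟨_, cb_spec c hn r le_rfl h k hk, (comm_w c hn r hk).1.symm⟩

theorem cVR : ∀ r ∈ RR c, ∀ a ∈ V, ⁅r, a⁆ ∈ UU c := fun _ ⟨hr, j, hj, rr⟩ =>
  comm_U c hr rr ((by decide +kernel : ∀ j < 64, cb 11 (2 ^ 7) (eP j) = true) j hj)

theorem cUR : ∀ r ∈ RR c, ∀ a ∈ UU c, ⁅r, a⁆ ∈ zpowers (w v 1) := by
  rintro r ⟨hr, j, hj, rr⟩ _ ⟨k, hk, rfl⟩
  have h := comm_w c hr rr (k := k) (by omega)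
  rw [h.1, w_zp c h.2.2]
  exact cb_spec c hr rr (l := 7) (m := 1) (by norm_num)
    ((by decide +kernel : ∀ j < 64, cb 7 (2 ^ 1) (eP j) = true) j hj) k hk

theorem xV {x : G} (hx : IsX V ρ x) : ∀ a ∈ V, ⁅x, a⁆ ∈ UU c :=
  comm_U c hx.mem hx.rep (by decide +kernel)

theorem xU {x : G} (hx : IsX V ρ x) :
    ∀ a ∈ UU c, ⁅x, a⁆ ∈ zpowers (w v 1) → a ∈ zpowers (w v 1) := by
  rintro _ ⟨k, hk, rfl⟩
  have h := comm_w c hx.mem hx.rep (k := k) (by omega)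
  rw [h.1, w_zp c h.2.2, w_zp c (by omega)]
  exact (by decide +kernel : ∀ k < 128, ak r3A k ^^^ k < 2 → k < 2) k hk

theorem xR {x : G} (hx : IsX V ρ x) : ∀ r ∈ RR c, (r * x) ^ 3 ∈ V := by
  rintro r ⟨hr, j, hj, rr⟩
  have h := mul_mem hr hx.mem
  rw [← c.ρ_eq_one _ (pow_mem h 3), c.ρ_pow h, c.ρ_mul _ hr _ hx.mem]
  exact ((rr.mul hx.rep).pow 3).eq_of_peq rep_one ((by decide +kernel :
    ∀ j < 64, force (pmul (eP j) r3A) (fun p => peq (ppow p 3) pid) = true) j hj)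

theorem Tx {x : G} (hx : IsX V ρ x) : ∀ t ∈ TT c, NX x (RR c) t := fun t ht => by
  obtain ⟨r, hr, d, hd, i, hi, rd, rfl⟩ := T_dec c ht
  have hN := (mem_normalizer_iff.1 (xN c hx).2 r⁻¹).1 (inv_mem hr)
  have hN' := (mem_normalizer_iff.1 (inv_mem (xN c hx).2) r⁻¹).1 (inv_mem hr)
  have hc := mul_mem (mul_mem hd hx.mem) (inv_mem hd)
  rcases (by decide +kernel : ∀ i < 16, peq (pconj (dP i) r3A) r3A = true ∨
    peq (pconj (dP i) r3A) (pinv r3A) = true) i hi with e | e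
  · have := VR c ((c.ρ_eq_iff hc hx.mem).1 (by
      rw [c.ρ_conj hd hx.mem]; exact (rd.conj hx.rep).eq_of_peq hx.rep e))
    left; convert mul_mem (mul_mem hr this) hN using 1; group
  · have := VR c ((c.ρ_eq_iff hc (inv_mem hx.mem)).1 (by
      rw [c.ρ_conj hd hx.mem, c.ρ_inv hx.mem]; exact (rd.conj hx.rep).eq_of_peq hx.rep.inv e))
    right; convert mul_mem (mul_mem hr this) hN' using 1; group

omit [Finite G] in
theorem fix_w {n : G} {p k : ℕ} (hn : n ∈ Ns V) (r : Rep (ρ n) p) (hk : k < 2048)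
    (h : n * w v k = w v k * n) : ak p k = k := by
  have h1 := conj_w c hn r hk
  exact w_inj c h1.2 hk (by rw [← h1.1, h, mul_inv_cancel_right])

theorem cenU : ∀ r ∈ RR c, (∀ a ∈ UU c, r * a = a * r) → r ∈ V := by
  rintro r ⟨hr, j, hj, rr⟩ h
  obtain rfl : j = 0 := (by decide +kernel : ∀ j < 64, (∀ i < 7, ak (eP j) (2 ^ i) = 2 ^ i) → j = 0)
    j hj fun i hi => by
      have : 2 ^ i < 2 ^ 7 := Nat.pow_lt_pow_right (by norm_num) hi
      exact fix_w c hr rr (by omega) (h _ ⟨_, this, rfl⟩)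
  exact (c.ρ_eq_one r hr).1 (rr.unique (e_zero ▸ rep_one))

theorem cenR : ∀ a ∈ UU c, (∀ r ∈ RR c, r * a = a * r) → a ∈ zpowers (w v 1) := by
  rintro _ ⟨k, hk, rfl⟩ h
  rw [w_zp c (by omega)]
  refine (by decide +kernel : ∀ k < 128, (∀ i < 6, ak (eP (2 ^ i)) k = k) → k < 2) k hk
    fun i hi => ?_
  have h1 : 2 ^ i < 2 ^ 6 := Nat.pow_lt_pow_right (by norm_num) hi
  obtain ⟨n, hn, r⟩ := lift c (is_e _ h1)
  exact fix_w c hn r (by omega) (h n ⟨hn, _, h1, r⟩)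

end CQ

end Cfsg.Lib.R11
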