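import Cfsg.Agent.R11.CQD

/-! The sextet parabolic of a group `2¹¹.M₂₄` on the even cocode: squares in `R` and stabilisers. -/

set_option autoImplicit false
set_option maxRecDepth 100000

namespace Cfsg.Lib.R11.CQ

open Subgroup Cfsg.Lib.Trans Cfsg.Lib.Gold Cfsg.Lib.Spor Cfsg.Lib.Spor.MP Cfsg.Lib.SporChar
  Cfsg.Lib.SporChar.J4B
open scoped commutatorElement

universe u

variable {G : Type u} [Group G]

namespace Q2

theorem xind {P : ℕ → Prop} {n : ℕ} (h0 : P 0) (h1 : ∀ j < n, P (2 ^ j))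
    (h2 : ∀ a < 2 ^ n, ∀ b < 2 ^ n, P a → P b → P (a ^^^ b)) : ∀ m < 2 ^ n, P m := by
  suffices ∀ k ≤ n, ∀ m < 2 ^ k, P m from this n le_rfl
  intro k hk
  induction k with
  | zero => intro m hm; obtain rfl : m = 0 := by simpa using hm
            exact h0
  | succ k ih =>
    intro m hm
    have hle : 2 ^ (k + 1) ≤ 2 ^ n := Nat.pow_le_pow_right (by norm_num) hk
    by_cases h : m < 2 ^ k
    · exact ih (by omega) m h
    · have h3 : m ^^^ 2 ^ k < 2 ^ k := by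
        refine Nat.lt_pow_two_of_testBit _ fun i hi => ?_
        rw [Nat.testBit_xor, Nat.testBit_two_pow]
        rcases hi.eq_or_lt with rfl | hi
        · rw [Nat.testBit_of_two_pow_le_and_two_pow_add_one_gt (by omega) hm]; simp
        · rw [Nat.testBit_lt_two_pow (hm.trans_le (Nat.pow_le_pow_right (by norm_num) hi))]
          simp [hi.ne]
      have := h2 _ (by omega) _ (by omega) (ih (by omega) _ h3) (h1 k hk)
      simpa using this

/-- The matrix of a permutation on the coordinates. -/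
def ml (p : ℕ) : List ℕ := [ak p 1, ak p 2, ak p 4, ak p 8, ak p 16, ak p 32, ak p 64, ak p 128,
  ak p 256, ak p 512, ak p 1024]

/-- Evaluate the matrix first. -/
def fl (p : ℕ) (F : List ℕ → Bool) : Bool :=
  force (ak p 1) fun a0 => force (ak p 2) fun a1 => force (ak p 4) fun a2 =>
  force (ak p 8) fun a3 => force (ak p 16) fun a4 => force (ak p 32) fun a5 =>
  force (ak p 64) fun a6 => force (ak p 128) fun a7 => force (ak p 256) fun a8 =>
  force (ak p 512) fun a9 => force (ak p 1024) fun a10 =>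
    F [a0, a1, a2, a3, a4, a5, a6, a7, a8, a9, a10]

theorem fl_eq (p : ℕ) (F : List ℕ → Bool) : fl p F = F (ml p) := rfl

/-- The check for squares. -/
def c1 (j : ℕ) : Bool := force (eP j) fun e => force (gP j) fun g =>
  isM24 g && peq (pmul g e) (pmul e g) && fl e fun A => fl g fun B => allLT 2048 fun s =>
    force (xorComb A s) fun t => Nat.blt (Nat.xor t s) 128 && (!Nat.beq t s || Nat.blt s 128 ||
      force (xorComb B s) fun s1 => Nat.blt s1 128 || force (xorComb B s1) fun s2 =>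
        Nat.blt s2 128 || Nat.blt (xorComb B s2) 128)

/-- The check for the normalising elements. -/
def c2 (e p : ℕ) : Bool :=
  isM24 p && peq (pmul p e) (pmul e p) &&
    (peq (pconj p r3A) r3A || peq (pmul (pconj p r3A) r3A) pid) &&
    allLT 6 fun i => force (pconj p (eP (Nat.pow 2 i))) fun q => !allLT 64 fun k => !peq q (eP k)

/-- The check for stabilisers. -/
def c3 (j : ℕ) : Bool := force (eP j) fun e => force (aP j) fun a => force (bP j) fun b =>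
  c2 e a && c2 e b && fl a fun A => fl b fun B => allLT 128 fun k =>
    force (xorComb A k) fun s => force (xorComb B k) fun t => Nat.blt s 128 && Nat.blt t 128 &&
      (Nat.blt k 2 || !Nat.blt (Nat.xor s k) 2 || !Nat.blt (Nat.xor t k) 2)

theorem ck1 : allLT 63 (fun j => c1 (Nat.succ j)) = true := by decide +kernel

theorem ck3 : allLT 63 (fun j => c3 (Nat.succ j)) = true := by decide +kernel

variable {V : Subgroup G} {v : Finset GolayPt → G} {ρ : G → Equiv.Perm GolayPt} (c : Coc V v ρ)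
include c

theorem lin {n : G} (hn : n ∈ Ns V) {p : ℕ} (h : Rep (ρ n) p) :
    ∀ k < 2 ^ 11, ak p k = xorComb (ml p) k := by
  refine xind ?_ (fun j hj => ?_) fun a ha b hb e1 e2 => ?_
  · have k := conj_w c hn h (k := 0) (by norm_num)
    rw [xorComb_zero]
    exact w_inj c k.2 (by norm_num) (by rw [← k.1, w_zero c, mul_one, mul_inv_cancel])
  · interval_cases j <;> simp [ml, xorComb_cons, xorComb_zero, Nat.testBit]
  · have k1 := conj_w c hn h ha
    have k2 := conj_w c hn h hb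
    have k3 := conj_w c hn h (Nat.xor_lt_two_pow ha hb)
    rw [xorComb_xor, ← e1, ← e2]
    exact w_inj c k3.2 (Nat.xor_lt_two_pow (n := 11) k1.2 k2.2) (by
      rw [← k3.1, w_xor c, w_xor c, ← k1.1, ← k2.1]; group)

theorem cm {n r : G} (hn : n ∈ Ns V) (hr : r ∈ Ns V) (h : Commute (ρ n) (ρ r)) :
    n * r * n⁻¹ * r⁻¹ ∈ V :=
  (c.ρ_eq_iff (mul_mem (mul_mem hn hr) (inv_mem hn)) hr).1 (by
    rw [c.ρ_conj hn hr, h.eq, mul_inv_cancel_right])

theorem zero {r : G} (hr : r ∈ Ns V) (h : Rep (ρ r) (eP 0)) : r ∈ V :=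
  (c.ρ_eq_one r hr).1 (h.unique (e_zero ▸ rep_one))

variable [Finite G]

theorem VR : V ≤ RR c := fun g hg =>
  ⟨le_normalizer hg, 0, by norm_num, by rw [c.ρ_V hg, e_zero]; exact rep_one⟩

theorem nrm {x : G} (hx : IsX V ρ x) {r : G} (hr : r ∈ Ns V) {e p : ℕ} (he : Rep (ρ r) e)
    (h : c2 e p = true) (hU : ∀ k < 128, xorComb (ml p) k < 128) :
    ∃ n ∈ Ns (UU c) ⊓ Ns V ⊓ Ns (RR c), NX x (RR c) n ∧ ⁅n, r⁆ ∈ V ∧ Rep (ρ n) p := by
  simp only [c2, Bool.and_eq_true, Bool.or_eq_true, allLT_iff, force_eq, Bool.not_eq_true',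
    ← Bool.not_eq_true, not_forall, not_not] at h
  obtain ⟨⟨⟨h1, h2⟩, h3⟩, h4⟩ := h
  obtain ⟨n, hn, rn⟩ := lift c h1
  have k : ∀ i < 2 ^ 6, ∃ k < 64, ρ n * toPerm (eP i) * (ρ n)⁻¹ = toPerm (eP k) := by
    refine xind ⟨0, by norm_num, ?_⟩ (fun i hi => ?_) ?_
    · rw [e_zero, rep_one.toPerm_eq, mul_one, mul_inv_cancel]
    · obtain ⟨k, hk, e1⟩ := h4 i hi
      exact ⟨k, hk, (rn.conj (rep_of_isM24 (is_e _ (Nat.pow_lt_pow_right (by norm_num) hi :
        2 ^ i < 2 ^ 6)))).eq_of_peq (rep_of_isM24 (is_e k hk)) e1⟩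
    · rintro a ha b hb ⟨k, hk, e1⟩ ⟨l, hl, e2⟩
      refine ⟨_, Nat.xor_lt_two_pow (n := 6) hk hl, ?_⟩
      rw [← e_mul a ha b hb, ← e_mul k hk l hl,
        ((rep_of_isM24 (is_e a ha)).mul (rep_of_isM24 (is_e b hb))).toPerm_eq,
        ((rep_of_isM24 (is_e k hk)).mul (rep_of_isM24 (is_e l hl))).toPerm_eq, ← e1, ← e2]
      group
  have hc := mul_mem (mul_mem hn hx.mem) (inv_mem hn)
  have rc : Rep (ρ (n * x * n⁻¹)) (pconj p r3A) := by rw [c.ρ_conj hn hx.mem]; exact rn.conj hx.rep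
  refine ⟨n, ⟨⟨mem_normalizer_fintype ?_, hn⟩, mem_normalizer_fintype ?_⟩, ?_,
    cm c hn hr ((rn.mul he).eq_of_peq (he.mul rn) h2), rn⟩
  · rintro _ ⟨k, hk, rfl⟩
    exact ⟨_, hU k hk, by
      rw [← lin c hn rn k (by omega), (conj_w c hn rn (by omega)).1]⟩
  · rintro g ⟨hg, i, hi, rg⟩
    obtain ⟨l, hl, e1⟩ := k i hi
    exact ⟨mul_mem (mul_mem hn hg) (inv_mem hn), l, hl, by
      rw [c.ρ_conj hn hg, ← rg.toPerm_eq, e1]; exact rep_of_isM24 (is_e l hl)⟩
  · rcases h3 with h3 | h3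
    · exact .inl (VR c ((c.ρ_eq_iff hc hx.mem).1 (rc.eq_of_peq hx.rep h3)))
    · exact .inr (VR c ((c.ρ_eq_one _ (mul_mem hc hx.mem)).1 (by
        rw [c.ρ_mul _ hc _ hx.mem]; exact (rc.mul hx.rep).eq_of_peq rep_one h3)))

end Q2

open Q2

variable {V : Subgroup G} {v : Finset GolayPt → G} {ρ : G → Equiv.Perm GolayPt} (c : Coc V v ρ)
  [Finite G]

theorem sqR : ∀ r ∈ RR c, r * r ∈ UU c := by
  rintro r ⟨hr, j, hj, re⟩
  rcases j with _ | j
  · rw [c.sqV r (zero c hr re)]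
    exact one_mem _
  have h := allLT_iff.1 ck1 j (by omega)
  simp only [c1, force_eq, fl_eq, Bool.and_eq_true, Bool.or_eq_true, allLT_iff, Nat.blt_eq,
    Bool.not_eq_true', Nat.succ_eq_add_one, Nat.xor_eq] at h
  obtain ⟨⟨h1, h2⟩, h3⟩ := h
  obtain ⟨n, hn, rn⟩ := lift c h1
  have cn : Commute (ρ n) (ρ r) := (rn.mul re).eq_of_peq (re.mul rn) h2
  have key : ∀ m ∈ Ns V, Commute (ρ m) (ρ r) → m * (r * r) * m⁻¹ ∈ UU c → r * r ∈ UU c := by
    intro m hm hc hu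
    obtain ⟨k, hk, e⟩ := w_surj c (cm c hm hr hc)
    obtain ⟨-, e1, e2⟩ := comm_w c hr re hk
    have e3 : ⁅w v k, r⁆ ∈ UU c := by
      rw [e1, w_U c e2, lin c hr re k hk]
      exact (h3 k hk).1
    have e4 : m * (r * r) * m⁻¹ = ⁅w v k, r⁆ * (r * r) := by
      rw [commutatorElement_def, c.invV (w_mem c hk), e]; group
    exact (mul_mem_cancel_left e3).1 (e4 ▸ hu)
  obtain ⟨s, hs, e⟩ := w_surj c (zero c (mul_mem hr hr) (by
    rw [c.ρ_mul r hr r hr, ← Nat.xor_self (j + 1), ← e_mul _ hj _ hj]; exact re.mul re))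
  have k0 := conj_w c hr re hs
  have k1 := conj_w c hn rn hs
  have k2 := conj_w c hn rn k1.2
  have k3 := conj_w c hn rn k2.2
  have f0 : ak (eP (j + 1)) s = s := w_inj c k0.2 hs (by rw [← k0.1, e]; group)
  have h4 := (h3 s hs).2
  rw [← lin c hr re s hs, ← lin c hn rn s hs, ← lin c hn rn _ k1.2, ← lin c hn rn _ k2.2, f0] at h4
  have m2 := c.ρ_mul n hn n hn
  have m3 := c.ρ_mul n hn _ (mul_mem hn hn)
  rcases h4 with (h4 | h4) | h4 | h4 | h4
  · simp at h4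
  · exact e ▸ (w_U c hs).2 h4
  · exact key n hn cn (by rw [← e, k1.1]; exact (w_U c k1.2).2 h4)
  · refine key (n * n) (mul_mem hn hn) (m2 ▸ cn.mul_left cn) ?_
    rw [← e, show n * n * w v s * (n * n)⁻¹ = n * (n * w v s * n⁻¹) * n⁻¹ by group, k1.1, k2.1]
    exact (w_U c k2.2).2 h4
  · refine key (n * (n * n)) (mul_mem hn (mul_mem hn hn))
      (m3 ▸ m2 ▸ cn.mul_left (cn.mul_left cn)) ?_
    rw [← e, show n * (n * n) * w v s * (n * (n * n))⁻¹ = n * (n * (n * w v s * n⁻¹) * n⁻¹) * n⁻¹ by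
      group, k1.1, k2.1, k3.1]
    exact (w_U c k3.2).2 h4

theorem st {x : G} (hx : IsX V ρ x) : ∀ r ∈ RR c, r ∉ V → ∀ a ∈ UU c,
    (∀ n ∈ Ns (UU c) ⊓ Ns V ⊓ Ns (RR c), NX x (RR c) n → ⁅n, r⁆ ∈ V → ⁅n, a⁆ ∈ zpowers (w v 1)) →
    a ∈ zpowers (w v 1) := by
  rintro r ⟨hr, j, hj, re⟩ hV _ ⟨k, hk, rfl⟩ H
  rcases j with _ | j
  · exact absurd (zero c hr re) hV
  have h := allLT_iff.1 ck3 j (by omega)
  simp only [c3, force_eq, fl_eq, Bool.and_eq_true, Bool.or_eq_true, allLT_iff, Nat.blt_eq,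
    Bool.not_eq_true', ← Bool.not_eq_true, Nat.succ_eq_add_one, Nat.xor_eq] at h
  obtain ⟨⟨h1, h2⟩, h3⟩ := h
  have hk' : k < 2048 := by omega
  obtain ⟨n, n1, n2, n3, rn⟩ := nrm c hx hr re h1 fun k hk => (h3 k hk).1.1
  obtain ⟨m, m1, m2, m3, rm⟩ := nrm c hx hr re h2 fun k hk => (h3 k hk).1.2
  have e1 := H n n1 n2 n3
  have e2 := H m m1 m2 m3
  rw [(comm_w c n1.1.2 rn hk').1, w_zp c (comm_w c n1.1.2 rn hk').2.2, lin c n1.1.2 rn k hk'] at e1
  rw [(comm_w c m1.1.2 rm hk').1, w_zp c (comm_w c m1.1.2 rm hk').2.2, lin c m1.1.2 rm k hk'] at e2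
  rcases (h3 k hk).2 with (h4 | h4) | h4
  exacts [(w_zp c hk').2 h4, absurd e1 h4, absurd e2 h4]

end Cfsg.Lib.R11.CQ
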