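import Cfsg.Agent.R11.CQD

/-! The sextet parabolic of `2¹¹.M₂₄`: orders, the Sylow subgroup and the covering bounds. -/

set_option autoImplicit false
set_option maxRecDepth 100000

namespace Cfsg.Lib.R11

open Subgroup Cfsg.Lib.Trans Cfsg.Lib.Gold Cfsg.Lib.Spor Cfsg.Lib.Spor.MP Cfsg.Lib.SporChar
  Cfsg.Lib.SporChar.J4B
open scoped commutatorElement

universe u

variable {G : Type u} [Group G]

namespace CQ

namespace CQ3

theorem cov_of {n k : ℕ} (F : ℕ → Bool) (f : ℕ → G) {K : Subgroup G} {A : G → Prop}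
    (hk : countLT n F ≤ k) (h : ∀ a, A a → ∃ i < n, F i = true ∧ a⁻¹ * f i ∈ K) : Cov k K A := by
  classical
  refine ⟨((Finset.range n).filter fun i => F i = true).image f,
    Finset.card_image_le.trans (countLT_eq n F ▸ hk), fun a ha => ?_⟩
  obtain ⟨i, hi, h1, h2⟩ := h a ha
  exact ⟨f i, Finset.mem_image_of_mem _ (Finset.mem_filter.2 ⟨Finset.mem_range.2 hi, h1⟩), h2⟩

/-- The coordinate of a commutator. -/
def dl (p k : ℕ) : ℕ := Nat.xor (ak p k) k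

theorem dl_eq (p k : ℕ) : dl p k = ak p k ^^^ k := rfl

theorem f1 : ∀ j < 64, ∀ k < 128, dl (eP j) k < 2 := fun j hj k hk => by
  have := allLT_iff.1 (by decide +kernel : allLT 64 (fun j => force (eP j) fun p =>
    allLT 128 fun k => Nat.blt (dl p k) 2) = true) j hj
  rw [force_eq] at this
  simpa [Nat.blt_eq] using allLT_iff.1 this k hk

theorem f2 : ∀ i < 16, ∀ k < 128, ak (dP i) k < 128 := fun i hi k hk => by
  have := allLT_iff.1 (by decide +kernel : allLT 16 (fun j => force (dP j) fun p =>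
    allLT 128 fun k => Nat.blt (ak p k) 128) = true) i hi
  rw [force_eq] at this
  simpa [Nat.blt_eq] using allLT_iff.1 this k hk

theorem f3 : ∀ j < 64, ∀ m < 16, dl (eP j) (128 * m) < 128 := fun j hj k hk => by
  have := allLT_iff.1 (by decide +kernel : allLT 64 (fun j => force (eP j) fun p =>
    allLT 16 fun k => Nat.blt (dl p (128 * k)) 128) = true) j hj
  rw [force_eq] at this
  simpa [Nat.blt_eq] using allLT_iff.1 this k hk

theorem fA : ∀ m < 16, m ≠ 0 → countLT 64 (fun j => Nat.blt (dl (eP j) (128 * m)) 2) ≤ 4 := by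
  decide +kernel

theorem fR : ∀ j < 64, j ≠ 0 → countLT 16 (fun m => Nat.blt (dl (eP j) (128 * m)) 2) ≤ 2 := by
  decide +kernel

theorem fT : countLT 16 (fun i => !allLT 64 fun j => !peq (pmul (dP i) (dP i)) (eP j)) ≤ 12 := by
  decide +kernel

theorem fE : ∀ i < 16, i ≠ 0 →
    countLT 64 (fun j => peq (pmul (eP j) (dP i)) (pmul (dP i) (eP j))) ≤ 16 := by
  decide +kernel

theorem fU : ∀ i < 16, i ≠ 0 → countLT 128 (fun k => Nat.blt (dl (dP i) k) 2) ≤ 32 := by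
  decide +kernel

theorem fV : ∀ i < 16, i ≠ 0 → countLT 16 (fun m => Nat.blt (dl (dP i) (128 * m)) 128) ≤ 8 := by
  decide +kernel

theorem fV' : ∀ i < 8, i ≠ 0 → countLT 16 (fun m => Nat.blt (dl (dP i) (128 * m)) 128) ≤ 4 := by
  decide +kernel

theorem fX : ∀ i < 16, 8 ≤ i → ∀ j < 64, force (pmul (pconj (pmul (eP j) (dP i)) r3A) (pinv r3A))
    (fun p => peq (pmul p p) pid) = false := by
  decide +kernel

theorem fI : ∀ j < 64, ∀ i < 16, ∀ l < 16, peq (pmul (eP j) (dP i)) (dP l) = true →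
    j = 0 ∧ i = l := fun j hj i hi l hl h => by
  have := allLT_iff.1 (allLT_iff.1 (by decide +kernel : allLT 64 (fun j => allLT 16 fun i =>
    force (pmul (eP j) (dP i)) fun p => allLT 16 fun l =>
      !peq p (dP l) || Nat.beq j 0 && Nat.beq i l) = true) j hj) i hi
  rw [force_eq] at this
  simpa [h] using allLT_iff.1 this l hl

theorem split : ∀ k < 2048, k = 128 * (k / 128) ^^^ k % 128 ∧ k ^^^ 128 * (k / 128) < 128 := by
  decide +kernel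

theorem xlt {a b n : ℕ} (h1 : a ^^^ b < 2 ^ n) (h2 : b < 2 ^ n) : a < 2 ^ n := by
  have := Nat.xor_lt_two_pow h1 h2
  rwa [Nat.xor_assoc, Nat.xor_self, Nat.xor_zero] at this

theorem re {j : ℕ} (hj : j < 64) : Rep (toPerm (eP j)) (eP j) := rep_of_isM24 (is_e j hj)

theorem rd {i : ℕ} (hi : i < 16) : Rep (toPerm (dP i)) (dP i) := rep_of_isM24 (is_d i hi)

theorem ee {a b : ℕ} (ha : a < 64) (hb : b < 64) :
    toPerm (eP a) * toPerm (eP b) = toPerm (eP (a ^^^ b)) := by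
  rw [← e_mul a ha b hb, ((re ha).mul (re hb)).toPerm_eq]

theorem e0 : toPerm (eP 0) = 1 := by rw [e_zero, rep_one.toPerm_eq]

theorem d0 : toPerm (dP 0) = 1 := by rw [d_zero, rep_one.toPerm_eq]

theorem ed_inj {a b i l : ℕ} (ha : a < 64) (hb : b < 64) (hi : i < 16) (hl : l < 16)
    (e : toPerm (eP a) * toPerm (dP i) = toPerm (eP b) * toPerm (dP l)) : a = b ∧ i = l := by
  have h : b ^^^ a < 64 := Nat.xor_lt_two_pow (n := 6) hb ha
  have e' : toPerm (eP (b ^^^ a)) * toPerm (dP i) = toPerm (dP l) := by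
    rw [← ee hb ha, mul_assoc, e, ← mul_assoc, ee hb hb, Nat.xor_self, e0, one_mul]
  have := fI _ h i hi l hl ((((re h).mul (rd hi)).eq_iff (rd hl)).1 e')
  exact ⟨(Nat.xor_eq_zero_iff.1 this.1).symm, this.2⟩

variable {V : Subgroup G} {v : Finset GolayPt → G} {ρ : G → Equiv.Perm GolayPt} (c : Coc V v ρ)
include c

theorem ak_lt {p k : ℕ} (hp : isM24 p = true) (hk : k < 2048) : ak p k < 2048 := by
  obtain ⟨n, hn, r⟩ : ∃ n ∈ Ns V, Rep (ρ n) p := by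
    obtain ⟨n, hn, e⟩ := c.ρ_surj _ (toPerm_mem_M24 hp)
    exact ⟨n, hn, e ▸ rep_of_isM24 hp⟩
  exact (conj_w c hn r hk).2

variable [Finite G]

theorem dl_xor {p k l : ℕ} (hp : isM24 p = true) (hk : k < 2048) (hl : l < 2048) :
    dl p (k ^^^ l) = dl p k ^^^ dl p l := by
  obtain ⟨n, hn, r⟩ := lift c hp
  have h := Nat.xor_lt_two_pow (n := 11) hk hl
  have h1 := conj_w c hn r hk
  have h2 := conj_w c hn r hl
  have h3 := conj_w c hn r h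
  have : ak p (k ^^^ l) = ak p k ^^^ ak p l := by
    refine w_inj c h3.2 (Nat.xor_lt_two_pow (n := 11) h1.2 h2.2) ?_
    rw [← h3.1, w_xor c, w_xor c, ← h1.1, ← h2.1]; group
  rw [dl_eq, dl_eq, dl_eq, this]
  ac_rfl

theorem dl_mul {p q k : ℕ} (hp : isM24 p = true) (hq : isM24 q = true) (hk : k < 2048) :
    dl (pmul p q) k = dl q k ^^^ dl p (ak q k) := by
  obtain ⟨n, hn, r⟩ := lift c hp
  obtain ⟨m, hm, s⟩ := lift c hq
  have h1 := conj_w c hm s hk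
  have h2 := conj_w c hn r h1.2
  have h3 := conj_w c (mul_mem hn hm) (c.ρ_mul n hn m hm ▸ r.mul s) hk
  have : ak (pmul p q) k = ak p (ak q k) := by
    refine w_inj c h3.2 h2.2 ?_
    rw [← h3.1, ← h2.1, ← h1.1]; group
  rw [dl_eq, dl_eq, dl_eq, this, Nat.xor_comm (ak q k) k, Nat.xor_assoc,
    Nat.xor_comm (ak p (ak q k)) (ak q k), ← Nat.xor_assoc (ak q k), Nat.xor_self, Nat.zero_xor,
    Nat.xor_comm]

theorem dl_split {p k : ℕ} (hp : isM24 p = true) (hk : k < 2048) :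
    dl p k = dl p (128 * (k / 128)) ^^^ dl p (k % 128) := by
  rw [← dl_xor c hp (by omega) (by omega), ← (split k hk).1]

theorem f4 {j k : ℕ} (hj : j < 64) (hk : k < 2048) : dl (eP j) k < 128 := by
  rw [dl_split c (is_e j hj) hk]
  exact Nat.xor_lt_two_pow (n := 7) (f3 j hj _ (by omega))
    ((f1 j hj _ (by omega)).trans (by norm_num))

theorem repU {k : ℕ} (hk : k < 2048) : (w v k)⁻¹ * w v (128 * (k / 128)) ∈ UU c := by
  rw [c.invV (w_mem c hk), ← w_xor c]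
  exact ⟨_, (split k hk).2, rfl⟩

omit [Finite G] in
theorem repV {a b : G} (ha : a ∈ Ns V) (hb : b ∈ Ns V) {p : ℕ} (h1 : Rep (ρ a) p)
    (h2 : Rep (ρ b) p) : a⁻¹ * b ∈ V := by
  rw [← c.ρ_eq_one _ (mul_mem (inv_mem ha) hb), c.ρ_mul _ (inv_mem ha) _ hb, c.ρ_inv ha,
    h1.unique h2, inv_mul_cancel]

theorem exE : ∃ E : ℕ → G, ∀ j < 64, E j ∈ Ns V ∧ Rep (ρ (E j)) (eP j) := by
  choose! E hE using fun j (hj : j < 64) => lift c (is_e j hj)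
  exact ⟨E, hE⟩

theorem exD : ∃ D : ℕ → G, ∀ i < 16, D i ∈ Ns V ∧ Rep (ρ (D i)) (dP i) := by
  choose! E hE using fun j (hj : j < 16) => lift c (is_d j hj)
  exact ⟨E, hE⟩

theorem out {t : G} (ht : t ∈ TT c) (h : t ∉ RR c) : t ∈ Ns V ∧ ∃ j < 64, ∃ i < 16, i ≠ 0 ∧
    ρ t = toPerm (eP j) * toPerm (dP i) ∧ Rep (ρ t) (pmul (eP j) (dP i)) := by
  obtain ⟨hn, j, hj, i, hi, e⟩ := ht
  refine ⟨hn, j, hj, i, hi, ?_, e, e ▸ (re hj).mul (rd hi)⟩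
  rintro rfl
  exact h ⟨hn, j, hj, by rw [e, d0, mul_one]; exact re hj⟩

theorem VR : V ≤ RR c := fun g hg =>
  ⟨le_normalizer hg, 0, by norm_num, by rw [c.ρ_V hg, e_zero]; exact rep_one⟩

theorem RT : RR c ≤ TT c := fun g ⟨hg, j, hj, r⟩ =>
  ⟨hg, j, hj, 0, by norm_num, by rw [d0, mul_one, r.toPerm_eq]⟩

omit [Finite G] in
theorem card_of {ι : Type} {K : Subgroup G} (hK : K ≤ Ns V) (hV : V ≤ K)
    (f : ι → Equiv.Perm GolayPt) (inj : Function.Injective f)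
    (h : ∀ σ, (∃ k ∈ K, ρ k = σ) ↔ ∃ i, f i = σ) : Nat.card K = 2 ^ 11 * Nat.card ι := by
  rw [c.card_le K hK, inf_eq_right.2 hV, c.cardV]
  congr 1
  symm
  refine Nat.card_eq_of_bijective (fun i => ⟨f i, (c.mem_map_hom hK).2 ((h _).2 ⟨i, rfl⟩)⟩)
    ⟨fun a b e => inj (congrArg Subtype.val e), fun ⟨σ, hσ⟩ => ?_⟩
  obtain ⟨i, rfl⟩ := (h σ).1 ((c.mem_map_hom hK).1 hσ)
  exact ⟨i, rfl⟩

theorem bVk {t : G} (hn : t ∈ Ns V) {i j b : ℕ} (hj : j < 64) (hi : i < 16)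
    (r : Rep (ρ t) (pmul (eP j) (dP i)))
    (hb : countLT 16 (fun m => Nat.blt (dl (dP i) (128 * m)) 128) ≤ b) :
    Cov b (UU c) fun a => a ∈ V ∧ ⁅a, t⁆ ∈ UU c := by
  refine cov_of _ (fun m => w v (128 * m)) hb ?_
  rintro _ ⟨ha, h⟩
  obtain ⟨k, hk, rfl⟩ := w_surj c ha
  have h1 := comm_w c hn r hk
  rw [h1.2.1, w_U c h1.2.2, ← dl_eq, dl_mul c (is_e j hj) (is_d i hi) hk] at h
  have h2 := xlt (n := 7) h (f4 c hj (ak_lt c (is_d i hi) hk))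
  rw [dl_split c (is_d i hi) hk] at h2
  have h3 : dl (dP i) (k % 128) < 2 ^ 7 :=
    Nat.xor_lt_two_pow (n := 7) (f2 i hi _ (by omega)) (by omega)
  exact ⟨k / 128, by omega, Nat.blt_eq.mpr (xlt h2 h3), repU c hk⟩

end CQ3

open CQ3

variable {V : Subgroup G} {v : Finset GolayPt → G} {ρ : G → Equiv.Perm GolayPt} (c : Coc V v ρ)
  [Finite G]
include c

theorem cU : Nat.card (UU c) = 2 ^ 7 := by
  rw [show 2 ^ 7 = Nat.card (Fin 128) by simp]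
  symm
  refine Nat.card_eq_of_bijective (fun i => ⟨w v i, i, i.2, rfl⟩)
    ⟨fun a b e => Fin.ext (w_inj c (by omega) (by omega) (congrArg Subtype.val e)), ?_⟩
  rintro ⟨_, k, hk, rfl⟩
  exact ⟨⟨k, hk⟩, rfl⟩

theorem cR : Nat.card (RR c) = 2 ^ 17 := by
  rw [card_of c (K := RR c) (fun _ h => h.1) (CQ3.VR c)
    (fun j : Fin 64 => toPerm (eP j)) (fun a b e =>
    Fin.ext (ed_inj a.2 b.2 (i := 0) (l := 0) (by norm_num) (by norm_num) (by
      rw [show toPerm (eP a) = toPerm (eP b) from e])).1) fun σ => ⟨?_, ?_⟩]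
  · simp
  · rintro ⟨k, ⟨-, j, hj, r⟩, rfl⟩
    exact ⟨⟨j, hj⟩, r.toPerm_eq⟩
  · rintro ⟨j, rfl⟩
    obtain ⟨n, hn, r⟩ := lift c (is_e j j.2)
    exact ⟨n, ⟨hn, j, j.2, r⟩, r.toPerm_eq.symm⟩

theorem cT : Nat.card (TT c) = 2 ^ 21 := by
  rw [card_of c (K := TT c) (fun _ h => h.1) ((CQ3.VR c).trans (CQ3.RT c))
    (fun j : Fin 64 × Fin 16 => toPerm (eP j.1) * toPerm (dP j.2)) (fun a b e =>
      have := ed_inj a.1.2 b.1.2 a.2.2 b.2.2 e
      Prod.ext (Fin.ext this.1) (Fin.ext this.2)) fun σ => ⟨?_, ?_⟩]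
  · simp
  · rintro ⟨k, ⟨-, j, hj, i, hi, r⟩, rfl⟩
    exact ⟨(⟨j, hj⟩, ⟨i, hi⟩), r.symm⟩
  · rintro ⟨⟨j, i⟩, rfl⟩
    obtain ⟨n, hn, r⟩ := lift c (is_e j j.2)
    obtain ⟨m, hm, s⟩ := lift c (is_d i i.2)
    have e : ρ (n * m) = toPerm (eP j) * toPerm (dP i) := by
      rw [c.ρ_mul n hn m hm, r.toPerm_eq, s.toPerm_eq]
    exact ⟨n * m, ⟨mul_mem hn hm, j, j.2, i, i.2, e⟩, e⟩

theorem sylN : IsSylowIn 2 (TT c) (Ns V) := by
  have h : TT c ≤ Ns V := fun _ h => h.1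
  have h1 := card_mul_relIndex h
  rw [cT c, c.cardN] at h1
  exact ⟨h, IsPGroup.of_card (cT c), by omega⟩

theorem bE0 : Cov 64 V fun r => r ∈ RR c := by
  obtain ⟨E, hE⟩ := exE c
  refine cov_of (n := 64) (fun _ => true) E (by decide +kernel) ?_
  rintro a ⟨ha, j, hj, r⟩
  exact ⟨j, hj, rfl, repV c ha (hE j hj).1 r (hE j hj).2⟩

theorem bV0 : Cov 16 (UU c) fun a => a ∈ V := by
  refine cov_of (n := 16) (fun _ => true) (fun m => w v (128 * m)) (by decide +kernel) ?_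
  intro a ha
  obtain ⟨k, hk, rfl⟩ := w_surj c ha
  exact ⟨k / 128, by omega, rfl, repU c hk⟩

theorem bA : ∀ a ∈ V, a ∉ UU c → Cov 4 V fun r => r ∈ RR c ∧ ⁅r, a⁆ ∈ zpowers (w v 1) := by
  intro a ha hU
  obtain ⟨k, hk, rfl⟩ := w_surj c ha
  rw [w_U c hk] at hU
  obtain ⟨E, hE⟩ := exE c
  refine cov_of _ E (fA (k / 128) (by omega) (by omega)) ?_
  rintro r ⟨⟨hr, j, hj, s⟩, h⟩
  have h1 := comm_w c hr s hk
  rw [h1.1, w_zp c h1.2.2, ← dl_eq, dl_split c (is_e j hj) hk] at h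
  exact ⟨j, hj, Nat.blt_eq.mpr (xlt (n := 1) h (f1 j hj _ (by omega))),
    repV c hr (hE j hj).1 s (hE j hj).2⟩

theorem bR : ∀ r ∈ RR c, r ∉ V → Cov 2 (UU c) fun a => a ∈ V ∧ ⁅r, a⁆ ∈ zpowers (w v 1) := by
  rintro r ⟨hr, j, hj, s⟩ hV
  have j0 : j ≠ 0 := by
    rintro rfl
    exact hV ((c.ρ_eq_one r hr).1 (by rw [← s.toPerm_eq, e0]))
  refine cov_of _ (fun m => w v (128 * m)) (fR j hj j0) ?_
  rintro _ ⟨ha, h⟩
  obtain ⟨k, hk, rfl⟩ := w_surj c ha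
  have h1 := comm_w c hr s hk
  rw [h1.1, w_zp c h1.2.2, ← dl_eq, dl_split c (is_e j hj) hk] at h
  exact ⟨k / 128, by omega, Nat.blt_eq.mpr (xlt (n := 1) h (f1 j hj _ (by omega))), repU c hk⟩

theorem bT : Cov 12 (RR c) fun t => t ∈ TT c ∧ t * t ∈ RR c := by
  obtain ⟨D, hD⟩ := exD c
  refine cov_of _ (fun i => (D i)⁻¹) fT ?_
  rintro t ⟨ht, h⟩
  obtain ⟨hn, j, hj, i, hi, e⟩ := inv_mem ht
  obtain ⟨-, l, hl, r⟩ := inv_mem h
  obtain ⟨k, hk, e1⟩ := d_e i hi j hj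
  have hm := (hD i hi).1
  refine ⟨i, hi, ?_, mul_mem hn (inv_mem hm), j, hj, ?_⟩
  · have h1 : j ^^^ k < 64 := Nat.xor_lt_two_pow (n := 6) hj hk
    have h2 : (j ^^^ k) ^^^ l < 64 := Nat.xor_lt_two_pow (n := 6) h1 hl
    have e2 : toPerm (dP i) * toPerm (dP i) = toPerm (eP ((j ^^^ k) ^^^ l)) := by
      have e3 : toPerm (eP k) = toPerm (dP i) * toPerm (eP j) * (toPerm (dP i))⁻¹ := by
        rw [← e1, ((rd hi).conj (re hj)).toPerm_eq]
      have e4 : toPerm (eP l) = toPerm (eP (j ^^^ k)) * (toPerm (dP i) * toPerm (dP i)) := by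
        rw [r.toPerm_eq, mul_inv_rev, c.ρ_mul _ hn _ hn, e, ← ee hj hk, e3]; group
      rw [← ee h1 hl, e4, ← mul_assoc, ee h1 h1, Nat.xor_self, e0, one_mul]
    have := (((rd hi).mul (rd hi)).eq_iff (re h2)).1 e2
    rw [Bool.not_eq_true', ← Bool.not_eq_true, allLT_iff]
    intro h3
    simpa [this] using h3 _ h2
  · rw [c.ρ_mul _ hn _ (inv_mem hm), c.ρ_inv hm, e, ← (hD i hi).2.toPerm_eq, mul_inv_cancel_right]
    exact re hj

theorem bE : ∀ t ∈ TT c, t ∉ RR c → Cov 16 V fun r => r ∈ RR c ∧ ⁅r, t⁆ ∈ V := by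
  intro t ht hR
  obtain ⟨hn, j, hj, i, hi, i0, e, -⟩ := out c ht hR
  obtain ⟨E, hE⟩ := exE c
  refine cov_of _ E (fE i hi i0) ?_
  rintro r ⟨⟨hr, l, hl, s⟩, h⟩
  refine ⟨l, hl, (((re hl).mul (rd hi)).eq_iff ((rd hi).mul (re hl))).1 ?_,
    repV c hr (hE l hl).1 s (hE l hl).2⟩
  have h1 : ρ (r * t) = ρ (t * r) := by
    rw [c.ρ_eq_iff (mul_mem hr hn) (mul_mem hn hr), mul_inv_rev, ← mul_assoc]
    exact h
  rw [c.ρ_mul _ hr _ hn, c.ρ_mul _ hn _ hr, e, ← s.toPerm_eq, ← mul_assoc, ee hl hj, Nat.xor_comm,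
    ← ee hj hl, mul_assoc, mul_assoc] at h1
  exact mul_left_cancel h1

theorem bU : ∀ t ∈ TT c, t ∉ RR c → Cov 32 ⊥ fun a => a ∈ UU c ∧ ⁅a, t⁆ ∈ zpowers (w v 1) := by
  intro t ht hR
  obtain ⟨hn, j, hj, i, hi, i0, -, r⟩ := out c ht hR
  refine cov_of _ (w v) (fU i hi i0) ?_
  rintro _ ⟨⟨k, hk, rfl⟩, h⟩
  have hk' : k < 2048 := by omega
  have h1 := comm_w c hn r hk'
  rw [h1.2.1, w_zp c h1.2.2, ← dl_eq, dl_mul c (is_e j hj) (is_d i hi) hk'] at h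
  exact ⟨k, hk, Nat.blt_eq.mpr (xlt (n := 1) h (f1 j hj _ (f2 i hi k hk))), by
    rw [inv_mul_cancel]; exact one_mem _⟩

theorem bV : ∀ t ∈ TT c, t ∉ RR c → Cov 8 (UU c) fun a => a ∈ V ∧ ⁅a, t⁆ ∈ UU c := by
  intro t ht hR
  obtain ⟨hn, j, hj, i, hi, i0, -, r⟩ := out c ht hR
  exact bVk c hn hj hi r (fV i hi i0)

theorem bV' {x : G} (hx : IsX V ρ x) : ∀ t ∈ TT c, t ∉ RR c → t * x * t⁻¹ * x⁻¹ ∈ RR c →
    Cov 4 (UU c) fun a => a ∈ V ∧ ⁅a, t⁆ ∈ UU c := by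
  rintro t ht hR ⟨-, l, hl, s⟩
  obtain ⟨hn, j, hj, i, hi, i0, -, r⟩ := out c ht hR
  refine bVk c hn hj hi r (fV' i ?_ i0)
  by_contra h8
  have h1 := fX i hi (by omega) j hj
  have h2 : Rep (ρ (t * x * t⁻¹ * x⁻¹)) (pmul (pconj (pmul (eP j) (dP i)) r3A) (pinv r3A)) := by
    rw [c.ρ_mul _ (mul_mem (mul_mem hn hx.mem) (inv_mem hn)) _ (inv_mem hx.mem),
      c.ρ_conj hn hx.mem, c.ρ_inv hx.mem]
    exact (r.conj hx.rep).mul hx.rep.inv
  rw [force_eq] at h1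
  exact (h2.mul h2).ne_of_peq rep_one h1 (by rw [← s.toPerm_eq, ee hl hl, Nat.xor_self, e0])

end CQ

end Cfsg.Lib.R11
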