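import Cfsg.Agent.R11.CQD
import Cfsg.Agent.SporChar.J4PDefs

/-! The action of the sextet group on the six columns. -/

set_option autoImplicit false
set_option maxRecDepth 100000

namespace Cfsg.Lib.R11.CQ

open Subgroup Cfsg.Lib.Spor Cfsg.Lib.Spor.MP Cfsg.Lib.SporChar Cfsg.Lib.SporChar.J4P Equiv
open scoped Pointwise

/-- The column of a point. -/
def cl (p : GolayPt) : Fin 6 :=
  [0, 1, 2, 3, 3, 4, 2, 1, 2, 0, 2, 1, 0, 4, 4, 1, 3, 4, 5, 0, 5, 5, 3, 5].getD (ptIdx p) 0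

/-- The fixed point of `r3A` in a column. -/
def bp (i : Fin 6) : GolayPt := idxPt ([0, 1, 2, 3, 13, 23].getD i 0)

/-- The mask of a column. -/
def cm (i : Fin 6) : ℕ := colM.getD i 0

theorem cl_bp : ∀ i, cl (bp i) = i := by decide +kernel

theorem mem_cm : ∀ p i, p ∈ maskSet (cm i) ↔ cl p = i := by decide +kernel

/-- The sextet group. -/
def KS : Subgroup (Perm GolayPt) :=
  R10.CA.mkSub (fun σ => σ ∈ M24 ∧ ∀ p q, cl p = cl q → cl (σ p) = cl (σ q))
    ⟨one_mem _, fun _ _ h => h⟩ fun _ _ a b => ⟨mul_mem a.1 b.1, fun p q h => a.2 _ _ (b.2 p q h)⟩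

/-- The action on the columns. -/
def kap : KS →* Perm (Fin 6) :=
  MonoidHom.toHomPerm
    { toFun := fun σ i => cl (σ.1 (bp i))
      map_one' := funext cl_bp
      map_mul' := fun a _ => funext fun _ => a.2.2 _ _ (cl_bp _).symm }

theorem kap_apply (σ : KS) (i : Fin 6) : kap σ i = cl (σ.1 (bp i)) := rfl

theorem kap_cl (σ : KS) (p : GolayPt) : kap σ (cl p) = cl (σ.1 p) := σ.2.2 _ _ (cl_bp _)

theorem sext : sextetOf (maskSet 528897) = Finset.univ.image fun i => maskSet (cm i) := by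
  refine (Finset.eq_of_subset_of_card_le (fun t ht => ?_) ?_).symm
  · obtain ⟨i, -, rfl⟩ := Finset.mem_image.1 ht
    rw [mem_sextetOf, card_maskSet, ← maskSet_xor]
    exact ⟨by revert i; decide +kernel, maskSet_mem_golaySets (by revert i; decide +kernel)⟩
  · rw [card_sextetOf (by rw [card_maskSet]; decide +kernel), Finset.card_image_of_injective]
    · rfl
    · intro i j e
      have e' : maskSet (cm i) = maskSet (cm j) := e
      exact (cl_bp i).symm.trans ((mem_cm _ j).1 (e' ▸ (mem_cm _ i).2 (cl_bp i)))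

theorem mem_KS {σ : Perm GolayPt} (hσ : σ ∈ M24)
    (h : symmDiff (σ • maskSet 528897) (maskSet 528897) ∈ golaySets) : σ ∈ KS := by
  refine ⟨hσ, fun p q e => ?_⟩
  have h1 : σ • maskSet (cm (cl p)) ∈ sextetOf (maskSet 528897) := by
    rw [← sextetOf_eq_of_symmDiff_mem h, ← smul_sextetOf hσ, sext]
    exact Finset.smul_mem_smul_finset (Finset.mem_image_of_mem _ (Finset.mem_univ _))
  rw [sext] at h1
  obtain ⟨i, -, h2⟩ := Finset.mem_image.1 h1
  rw [(mem_cm _ i).1 (h2 ▸ apply_mem_perm_smul_finset.2 ((mem_cm p _).2 rfl)),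
    (mem_cm _ i).1 (h2 ▸ apply_mem_perm_smul_finset.2 ((mem_cm q _).2 e.symm))]

/-- Test for membership in the sextet group. -/
def ks (p : ℕ) : Bool := isM24 p && Nat.beq (synd (apM p 528897)) (synd 528897)

theorem ks_mem {p : ℕ} (h : ks p = true) : Rep (toPerm p) p ∧ toPerm p ∈ KS := by
  rw [ks, Bool.and_eq_true, Nat.beq_eq] at h
  have r := rep_of_isM24 h.1
  refine ⟨r, mem_KS (toPerm_mem_M24 h.1) ?_⟩
  rw [r.smul_maskSet]
  exact (symmDiff_maskSet_mem_iff (r.apM_lt _) (by norm_num)).2 h.2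

theorem r3 : Rep (toPerm r3A) r3A := inSub_r3A.rep

theorem kap_ker {σ : KS} (h : kap σ = 1) :
    ∃ j < 64, ∃ m < 3, σ.1 = toPerm (eP j) * toPerm r3A ^ m := by
  have h1 : FixC σ.1 := fun c hc => by
    obtain ⟨i, rfl⟩ := (by decide : ∀ c ∈ colM, ∃ i, cm i = c) c hc
    ext p
    have := kap_cl σ⁻¹ p
    rw [map_inv, h] at this
    rw [mem_perm_smul_finset, mem_cm, mem_cm]
    exact Eq.congr_left this.symm
  have r := rep_pack σ.1
  have := srch_inv (Ls := colM) (leaf := fun q => !fixC q || !allLT 64 fun j => allLT 3 fun m =>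
    !peq q (pmul (eP j) (ppow r3A m))) (by decide +kernel) σ.2.1 h1
  rw [(fixC_iff r).2 h1] at this
  simp only [Bool.not_true, Bool.false_or, Bool.not_eq_true', ← Bool.not_eq_true, allLT_iff,
    not_forall, not_not] at this
  obtain ⟨j, hj, m, hm, e⟩ := this
  exact ⟨j, hj, m, hm, r.eq_of_peq ((rep_of_isM24 (is_e j hj)).mul (r3.pow m)) e⟩

theorem ks_e : ∀ j < 64, ks (eP j) = true := by decide +kernel

theorem kap_eq {σ : KS} {p : ℕ} (r : Rep σ.1 p) {π : Perm (Fin 6)}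
    (h : ∀ i, cl (idxPt (ap p (ptIdx (bp i)))) = π i) : kap σ = π :=
  Perm.ext fun i => by rw [kap_apply, r.apply, h]

theorem kap_e {σ : KS} {j : ℕ} (hj : j < 64) (r : Rep σ.1 (eP j)) : kap σ = 1 :=
  kap_eq r (by clear r; revert j; decide +kernel)

theorem kap_x {σ : KS} (r : Rep σ.1 r3A) : kap σ = 1 := kap_eq r (by decide +kernel)

/-- Lifts of the adjacent transpositions. -/
def sw (i : Fin 5) : ℕ := [984815236210785284474902464532940801,
  961450375382535455138506865050223680, 969202056781860934635753244362607648,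
  978205905600333181674125866675111968, 545766190296861263077001136183543840].getD i 0

theorem kap_surj (π : Perm (Fin 6)) : ∃ σ : KS, kap σ = π ∧
    ((σ.1 * toPerm r3A * σ.1⁻¹ = toPerm r3A ∧ Perm.sign π = 1) ∨
      (σ.1 * toPerm r3A * σ.1⁻¹ = (toPerm r3A)⁻¹ ∧ Perm.sign π = -1)) := by
  have h := (Perm.mclosure_swap_castSucc_succ 5).ge (Submonoid.mem_top π)
  induction h using Submonoid.closure_induction with
  | mem _ h =>
    obtain ⟨i, rfl⟩ := h
    obtain ⟨r, h⟩ := ks_mem (p := sw i) (by revert i; decide +kernel)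
    exact ⟨⟨_, h⟩, kap_eq r (by clear r h; revert i; decide +kernel), .inr ⟨(r.conj r3).eq_of_peq
      r3.inv (by clear r h; revert i; decide +kernel), Perm.sign_swap Fin.castSucc_lt_succ.ne⟩⟩
  | one => exact ⟨1, map_one _, .inl ⟨by simp, map_one _⟩⟩
  | mul a b _ _ ha hb =>
    obtain ⟨σ, rfl, h1⟩ := ha
    obtain ⟨τ, rfl, h2⟩ := hb
    refine ⟨σ * τ, map_mul _ _ _, ?_⟩
    have e : (σ * τ).1 * toPerm r3A * (σ * τ).1⁻¹ = σ.1 * (τ.1 * toPerm r3A * τ.1⁻¹) * σ.1⁻¹ := by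
      rw [coe_mul]; group
    rw [e, map_mul]
    rcases h1 with ⟨a1, a2⟩ | ⟨a1, a2⟩ <;> rcases h2 with ⟨b1, b2⟩ | ⟨b1, b2⟩ <;>
      simp [a1, a2, b1, b2, ← conj_inv]

theorem not_inv {j m : ℕ} (hj : j < 64) (hm : m < 3) : toPerm (eP j) * toPerm r3A ^ m * toPerm r3A *
    (toPerm (eP j) * toPerm r3A ^ m)⁻¹ ≠ (toPerm r3A)⁻¹ :=
  (((rep_of_isM24 (is_e j hj)).mul (r3.pow m)).conj r3).ne_of_peq r3.inv
    ((by decide +kernel : ∀ j < 64, ∀ m < 3,
      peq (pconj (pmul (eP j) (ppow r3A m)) r3A) (pinv r3A) = false) j hj m hm)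

theorem kap_even {σ : KS} (h : σ.1 * toPerm r3A * σ.1⁻¹ = toPerm r3A) : Perm.sign (kap σ) = 1 := by
  obtain ⟨τ, h1, ⟨-, h2⟩ | ⟨h2, -⟩⟩ := kap_surj (kap σ)
  · exact h2
  obtain ⟨j, hj, m, hm, e⟩ := kap_ker (σ := τ * σ⁻¹) (by rw [map_mul, map_inv, h1, mul_inv_cancel])
  refine absurd ?_ (not_inv hj hm)
  rw [← e, ← h2, coe_mul, coe_inv]
  nth_rw 1 [← h]
  group

theorem kap_odd {σ : KS} (h : σ.1 * toPerm r3A * σ.1⁻¹ = (toPerm r3A)⁻¹) :
    Perm.sign (kap σ) = -1 := by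
  obtain ⟨τ, h1, ⟨h2, -⟩ | ⟨-, h2⟩⟩ := kap_surj (kap σ)
  swap
  · exact h2
  obtain ⟨j, hj, m, hm, e⟩ := kap_ker (σ := σ * τ⁻¹) (by rw [map_mul, map_inv, h1, mul_inv_cancel])
  refine absurd ?_ (not_inv hj hm)
  rw [← e, ← h, coe_mul, coe_inv]
  nth_rw 1 [← h2]
  group

theorem kap_bp {σ : KS} (h : σ.1 * toPerm r3A * σ.1⁻¹ = toPerm r3A) (i : Fin 6) :
    σ.1 (bp i) = bp (kap σ i) := by
  have k : ∀ p, idxPt (ap r3A (ptIdx p)) = p ↔ p = bp (cl p) := by decide +kernel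
  refine (k _).1 ?_
  rw [← r3.apply, ← Perm.mul_apply, ← mul_inv_eq_iff_eq_mul.1 h, Perm.mul_apply, r3.apply,
    (k _).2 (by rw [cl_bp])]

end Cfsg.Lib.R11.CQ
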