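import Cfsg.Agent.R11.ModD
import Cfsg.Agent.Spor.M24Order
import Cfsg.Agent.Perm.MultiBasic
import Cfsg.Agent.S0367

/-! The 2-central involutions of `2¹¹.M₂₄`: octads and sextets. -/

set_option autoImplicit false
set_option linter.unusedSectionVars false

namespace Cfsg.Lib.R11

open Subgroup Cfsg.Lib.Spor Cfsg.Lib.SporChar
open scoped Pointwise

variable {G : Type*} [Group G] [Finite G] {V : Subgroup G} {v : Finset GolayPt → G}
  {ρ : G → Equiv.Perm GolayPt}

/-- The hypothesis on the cores of the centralizers of 2-central involutions of `N(V)`. -/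
def HO (V : Subgroup G) : Prop :=
  ∀ T : Sylow 2 ↥(normalizer (V : Set G)), ∀ s : ↥(normalizer (V : Set G)),
    s ∈ (T : Subgroup ↥(normalizer (V : Set G))) → orderOf s = 2 →
      (∀ y ∈ (T : Subgroup ↥(normalizer (V : Set G))), y * s = s * y) →
        pPrimeCore 2 ↥(centralizer ({(s : G)} : Set G)) = ⊥

omit [Finite G] in
theorem HO_eq_1' : type_of% @HO.eq_1 := @HO.eq_1

theorem Core.fix {P X : Type*} [Group P] (hP : IsPGroup 2 P) (π : P →* Equiv.Perm GolayPt)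
    [MulAction (Equiv.Perm GolayPt) X] (Ω : Set X) (hΩ : ∀ p, ∀ ω ∈ Ω, π p • ω ∈ Ω)
    (ho : ¬ 2 ∣ Ω.ncard) : ∃ ω ∈ Ω, ∀ p, π p • ω = ω := by
  let _ : MulAction P X := MulAction.compHom X π
  let S : SubMulAction P X := ⟨Ω, fun p _ h => hΩ p _ h⟩
  obtain ⟨ω, h⟩ := hP.nonempty_fixed_point_of_prime_not_dvd_card S ho
  exact ⟨ω, ω.2, fun p => congrArg Subtype.val (h p)⟩

theorem Core.gen (hO : HO V) (sq : ∀ a ∈ V, a * a = 1) {d : G} (dV : d ∈ V) (d1 : d ≠ 1)
    (fx : ∀ T : Sylow 2 ↥(normalizer (V : Set G)), ∃ n ∈ normalizer (V : Set G),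
      ∀ t ∈ (T : Subgroup ↥(normalizer (V : Set G))), (t : G) * (n⁻¹ * d * n) * (t : G)⁻¹ =
        n⁻¹ * d * n) : pPrimeCore 2 ↥(centralizer ({d} : Set G)) = ⊥ := by
  obtain ⟨T⟩ : Nonempty (Sylow 2 ↥(normalizer (V : Set G))) := inferInstance
  obtain ⟨n, hn, e⟩ := fx T
  have h2 : IsPGroup 2 (V.subgroupOf (normalizer (V : Set G))) := fun a =>
    ⟨1, Subtype.ext (Subtype.ext (by simpa [_root_.sq] using sq _ a.2))⟩
  let s : normalizer (V : Set G) := ⟨d, le_normalizer dV⟩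
  refine hO ((⟨n, hn⟩ : normalizer (V : Set G)) • T) s ?_ ?_ fun y hy => ?_
  · exact h2.le_sylow_of_normal _ (show s ∈ V.subgroupOf _ from dV)
  · exact orderOf_eq_prime (Subtype.ext (by simpa [_root_.sq] using sq d dV))
      fun h => d1 (congrArg Subtype.val h)
  · rw [Sylow.smul_def, Sylow.pointwise_smul_def, mem_pointwise_smul_iff_inv_smul_mem] at hy
    have := e _ hy
    simp only [MulAut.smul_def, MulAut.conj_inv_apply, Subgroup.coe_mul, Subgroup.coe_inv] at this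
    apply Subtype.ext
    change (y : G) * d = d * y
    calc (y : G) * d = n * (n⁻¹ * y * n * (n⁻¹ * d * n) * (n⁻¹ * y * n)⁻¹) * n⁻¹ * y := by group
      _ = d * y := by rw [this]; group

/-- The action of a subgroup of `N(V)` on the 24 points. -/
def Core.hom (ρ : G → Equiv.Perm GolayPt) (T : Subgroup ↥(normalizer (V : Set G)))
    (m : ∀ a ∈ normalizer (V : Set G), ∀ b ∈ normalizer (V : Set G), ρ (a * b) = ρ a * ρ b) :
    T →* Equiv.Perm GolayPt :=
  MonoidHom.mk' (fun t => ρ t) fun a b => m _ a.1.2 _ b.1.2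

omit [Finite G] in
theorem Core.hom_eq_1' : type_of% @Core.hom.eq_1 := @Core.hom.eq_1

theorem Cod.core (h : Cod V v ρ) (hO : HO V) :
    ∀ A ∈ octads, pPrimeCore 2 ↥(centralizer ({v A} : Set G)) = ⊥ := fun A hA => by
  have v0 : v ∅ = 1 := (h.eq_one _ empty_mem_golaySets).2 (Or.inl rfl)
  refine Core.gen hO (fun a ha => ?_) ((h.mem _).2 ⟨A, hA.1, rfl⟩) (fun e => ?_) fun T => ?_
  · obtain ⟨B, -, rfl⟩ := (h.mem a).1 ha
    rw [← h.mul, symmDiff_self, Finset.bot_eq_empty, v0]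
  · have := hA.2
    rcases (h.eq_one A hA.1).1 e with rfl | rfl <;> exact absurd this (by decide)
  obtain ⟨B, hB, e⟩ := Core.fix T.isPGroup' (Core.hom ρ T h.ρ_mul) octads
    (fun p ω hω => smul_mem_octads (h.ρ_mem _) hω) (by rw [ncard_octads]; decide)
  obtain ⟨g, hg⟩ := Cfsg.Agent.S0367.result B A hB hA
  obtain ⟨n, hn, en⟩ := h.ρ_surj g g.2
  refine ⟨n, hn, fun t ht => ?_⟩
  have k : n⁻¹ * v A * n = v B := by
    rw [← hg, show g • B = ρ n • B by rw [en]; rfl, ← h.conj n hn B hB.1]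
    group
  rw [k, h.conj _ t.2 B hB.1]
  exact congrArg v (e ⟨t, ht⟩)

theorem coc_core (h : Coc V v ρ) (hO : HO V) :
    ∀ A : Finset GolayPt, A.card = 4 → pPrimeCore 2 ↥(centralizer ({v A} : Set G)) = ⊥ :=
    fun A hA => by
  have ev : ∀ {B : Finset GolayPt}, B.card = 4 → Even B.card := fun e => by rw [e]; decide
  have v0 : v ∅ = 1 := (h.eq_one _ (by simp)).2 empty_mem_golaySets
  have sq : ∀ B, v B * v B = 1 := fun B => by rw [← h.mul, symmDiff_self, Finset.bot_eq_empty, v0]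
  refine Core.gen hO (fun a ha => ?_) ((h.mem _).2 ⟨A, ev hA, rfl⟩) (fun e => ?_) fun T => ?_
  · obtain ⟨B, -, rfl⟩ := (h.mem a).1 ha
    exact sq B
  · have := card_of_mem_golaySets ((h.eq_one A (ev hA)).1 e)
    omega
  obtain ⟨S, hS, e⟩ := Core.fix T.isPGroup' (Core.hom ρ T h.ρ_mul) sextets
    (fun p ω hω => smul_mem_sextets (h.ρ_mem _) hω) (by rw [ncard_sextets]; decide)
  obtain ⟨B, hB, rfl⟩ := mem_sextets_iff.1 hS
  obtain ⟨g, hg⟩ : ∃ g : M24, g • B = A := by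
    have := MP.M24_isMultiplyPretransitive (n := 4) (by decide)
    have := Set.powersetCard.isPretransitive_of_isMultiplyPretransitive M24 (α := GolayPt) (n := 4)
      this
    obtain ⟨g, hg⟩ := this.exists_smul_eq ⟨B, hB⟩ ⟨A, hA⟩
    exact ⟨g, congrArg Subtype.val hg⟩
  obtain ⟨n, hn, en⟩ := h.ρ_surj g g.2
  refine ⟨n, hn, fun t ht => ?_⟩
  have k : n⁻¹ * v A * n = v B := by
    rw [← hg, show g • B = ρ n • B by rw [en]; rfl, ← h.conj n hn B (ev hB)]
    group
  rw [k, h.conj _ t.2 B (ev hB)]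
  have e1 : ρ t • sextetOf B = sextetOf B := e ⟨t, ht⟩
  rw [smul_sextetOf (h.ρ_mem _)] at e1
  have c : (ρ t • B).card = 4 := by rw [card_perm_smul_finset, hB]
  have m := (mem_sextetOf.1 (e1 ▸ self_mem_sextetOf c)).2
  have := (h.eq_one _ (even_card_of_mem_golaySets m)).2 m
  rw [h.mul] at this
  exact (mul_left_cancel (this.trans (sq B).symm))

end Cfsg.Lib.R11
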