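import Cfsg.Agent.Gold.Defs
import Cfsg.Agent.SporChar.HexJ
import Cfsg.Agent.Trans.TransferTools

/-! Transfer in the centralizer of the involution of a `Hex` configuration. -/

set_option autoImplicit false

namespace Cfsg.Lib.R11

open Subgroup Cfsg.Lib.Local Cfsg.Lib.Solv Cfsg.Lib.Gold Cfsg.Lib.SporChar Cfsg.Lib.Spor Equiv
open scoped Pointwise commutatorElement

variable {G : Type*} [Group G] {z x : G} {Q B Y : Subgroup G} {hx : G → Perm (Fin 6)}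
  {L : Fin 6 → Subgroup G} {Φ : ℕ → G}

/-- Every element of `Q` commutes with its image under `s`. -/
def Iso (Q : Subgroup G) (s : G) : Prop := ∀ a ∈ Q, ⁅a, s * a * s⁻¹⁆ = 1

theorem cj_inv {k u v : G} (e : k * u * k⁻¹ = v) : k * u⁻¹ * k⁻¹ = v⁻¹ := by rw [← e]; group

theorem cj_symm {k u v : G} (e : k * u * k⁻¹ = v) : k⁻¹ * v * k = u := by rw [← e]; group

theorem cjn (pre : PreLX Q z) {g q : G} (hg : g ∈ C1 z) (hq : q ∈ Q) : g * q * g⁻¹ ∈ Q :=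
  (mem_normalizer_iff.1 (pre.norm hg) q).1 hq

theorem cm_zp (pre : PreLX Q z) {a w : G} (ha : a ∈ Q) (hw : w ∈ zpowers z) : ⁅a, w⁆ = 1 :=
  commutatorElement_eq_one_iff_mul_comm.2 (pre.comm_of_mem hw ha)

theorem cm_cj (pre : PreLX Q z) {a q b : G} (ha : a ∈ Q) (hq : q ∈ Q) (hb : b ∈ Q) :
    ⁅a, q * b * q⁻¹⁆ = ⁅a, b⁆ := by
  rw [show q * b * q⁻¹ = (q * b * q⁻¹ * b⁻¹) * b by group,
    pre.comm_mul_right (pre.zpowers_le (pre.comm_mem hq hb)) hb ha,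
    cm_zp pre ha (pre.comm_mem hq hb), one_mul]

theorem Iso.conj (pre : PreLX Q z) {s c : G} (hc : c ∈ C1 z) (h : Iso Q s) :
    Iso Q (c * s * c⁻¹) := fun a ha => by
  have h1 : c⁻¹ * a * c ∈ Q := by simpa using cjn pre (inv_mem hc) ha
  have := congrArg (fun g => c * g * c⁻¹) (h _ h1)
  simp only [commutatorElement_def] at this ⊢
  rw [show (1 : G) = c * 1 * c⁻¹ by group, ← this]; group

theorem Iso.mul (pre : PreLX Q z) {s q : G} (hs : s ∈ C1 z) (hq : q ∈ Q) (h : Iso Q s) :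
    Iso Q (q * s) := fun a ha => by
  rw [show q * s * a * (q * s)⁻¹ = q * (s * a * s⁻¹) * q⁻¹ by group,
    cm_cj pre ha hq (cjn pre hs ha), h a ha]

theorem phi_mul (pre : PreLX Q z) {s a b : G} (hs : s ∈ C1 z) (s2 : s * s ∈ Q) (ha : a ∈ Q)
    (hb : b ∈ Q) : ⁅a * b, s * (a * b) * s⁻¹⁆ = ⁅a, s * a * s⁻¹⁆ * ⁅b, s * b * s⁻¹⁆ := by
  have a' := cjn pre hs ha
  have b' := cjn pre hs hb
  have e : ⁅a, s * b * s⁻¹⁆ = ⁅b, s * a * s⁻¹⁆ := by
    rw [← pre.comm_conj (pre.norm hs) ha b', show s * (s * b * s⁻¹) * s⁻¹ =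
      (s * s) * b * (s * s)⁻¹ by group, cm_cj pre a' s2 hb, pre.comm_symm a' hb]
  rw [show s * (a * b) * s⁻¹ = (s * a * s⁻¹) * (s * b * s⁻¹) by group,
    pre.comm_mul_left ha hb (mul_mem a' b'), pre.comm_mul_right a' b' ha,
    pre.comm_mul_right a' b' hb, e, mul_assoc, ← mul_assoc ⁅b, s * a * s⁻¹⁆,
    pre.mul_self_of_mem (pre.commutator_mem hb a'), one_mul]

theorem iso_of_comm (f : FpfX z x Q) {s : G} (hs : s ∈ C1 z) (s2 : s * s ∈ Q)
    (e : s * x * s⁻¹ = x) : Iso Q s := fun a ha => by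
  have pre := f.pre
  have c : s * x = x * s := mul_inv_eq_iff_eq_mul.1 e
  have a' := cjn pre hs ha
  have k : ∀ y ∈ C1 z, s * y = y * s → ⁅y * a * y⁻¹, s * (y * a * y⁻¹) * s⁻¹⁆ = ⁅a, s * a * s⁻¹⁆ :=
    fun y hy c => by
      rw [← pre.comm_conj (pre.norm hy) ha a', show s * (y * a * y⁻¹) * s⁻¹ =
        (s * y) * a * (s * y)⁻¹ by group, c]
      congr 1; group
  have k2 := k x⁻¹ (inv_mem f.xH) (by rw [mul_inv_eq_iff_eq_mul, mul_assoc, c]; group)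
  rw [inv_inv] at k2
  have n := f.norm3 ha
  have := phi_mul pre hs s2 (mul_mem ha (f.cj_mem ha)) (f.cj_mem' ha)
  rw [phi_mul pre hs s2 ha (f.cj_mem ha), k x f.xH c, k2,
    pre.mul_self_of_mem (pre.commutator_mem ha a'), one_mul,
    pre.conj_eq_of_mem (pre.norm hs) n] at this
  rw [← this]; exact commutatorElement_self _

theorem iso_even (h : Hex z x Q B Y hx) {s : G} (hs : s ∈ Y) (s2 : s * s ∈ Q)
    (e : Perm.sign (hx s) = 1) : Iso Q s := by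
  obtain ⟨q, hq, k, hk, hkx, rfl⟩ := h.fac s hs
  rw [h.hx_mul q (h.QY hq) k hk, h.hxQ hq, one_mul] at e
  refine Iso.mul h.pre (h.YH hk) hq (iso_of_comm h.fpf (h.YH hk) ?_
    (hkx.resolve_right fun e' => by rw [h.odd k hk e'] at e; exact absurd e (by decide)))
  rw [show k * k = (q * (k * q * k⁻¹))⁻¹ * (q * k * (q * k)) by group]
  exact mul_mem (inv_mem (mul_mem hq (cjn h.pre (h.YH hk) hq))) s2

variable [Finite G]

omit [Finite G] in
theorem ker_cent (h : Hex z x Q B Y hx) {n : G} (hn : n ∈ Y) (h1 : hx n = 1)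
    (e : n * x * n⁻¹ = x) : ∃ b ∈ B, ∃ u ∈ zpowers x, n = b * u := by
  obtain ⟨m, hm, u, hu, rfl⟩ := (mem_sup_of_le_normalizer (zpowers_le.2 h.x_normQB)).1
    ((h.hx_ker n hn).1 h1)
  obtain ⟨q, hq, b, hb, rfl⟩ := h.mem_QB.1 hm
  have c : u * x * u⁻¹ = x := by
    obtain ⟨i, rfl⟩ := hu; group
  have c2 : b * x * b⁻¹ = x := by rw [← h.Bx b hb]; group
  have : q * x * q⁻¹ = x := by
    rw [show q * b * u * x * (q * b * u)⁻¹ = q * (b * (u * x * u⁻¹) * b⁻¹) * q⁻¹ by group, c,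
      c2] at e
    exact e
  have hz := h.fix q hq (mul_inv_eq_iff_eq_mul.1 this).symm
  exact ⟨q * b, mul_mem (zpowers_le.2 h.zB hz) hb, u, hu, rfl⟩

theorem nb_act (h : Frame z x Q B Y hx L Φ) {b k : G} (hb : b ∈ B) (hk : k ∈ Y)
    (hn : k ∈ normalizer (B : Set G)) {σ : Perm (Fin 6)} (e : hx k = σ) (F : ℕ → ℕ)
    (hF : ∀ s < 16, (s = 0 ∧ F s = 0) ∨ ∃ i j : Fin 6, i ≠ j ∧ s = sp i ^^^ sp j ∧
      F s = sp (σ i) ^^^ sp (σ j)) {s : ℕ} (h1 : NB Q Φ b s) : NB Q Φ (k * b * k⁻¹) (F s) := by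
  rcases hF s h1.1 with ⟨rfl, e0⟩ | ⟨i, j, hij, rfl, e1⟩
  · rw [e0, h.pre.conj_eq_of_mem (h.toHex.Y_norm hk) (h.nb_zero.1 h1)]; exact h1
  · rw [e1, ← e]; exact h.nb_conj hb hk hn hij h1

/-- The transposition on `B/⟨z⟩`. -/
def F1 (s : ℕ) : ℕ := xorComb [1, 3, 5, 9] s

/-- The three-cycle on `B/⟨z⟩`. -/
def F2 (s : ℕ) : ℕ := xorComb [1, 4, 8, 2] s

theorem F1_spec : ∀ s < 16, (s = 0 ∧ F1 s = 0) ∨ ∃ i j : Fin 6, i ≠ j ∧ s = sp i ^^^ sp j ∧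
    F1 s = sp (swap (0 : Fin 6) 1 i) ^^^ sp (swap (0 : Fin 6) 1 j) := by decide +kernel

theorem F2_spec : ∀ s < 16, (s = 0 ∧ F2 s = 0) ∨ ∃ i j : Fin 6, i ≠ j ∧ s = sp i ^^^ sp j ∧
    F2 s = sp ((swap (2 : Fin 6) 4 * swap 2 3 : Perm (Fin 6)) i) ^^^
      sp ((swap (2 : Fin 6) 4 * swap 2 3 : Perm (Fin 6)) j) := by decide +kernel

theorem F_dec : ∀ a < 16, ∀ s < 16, F1 a = a → F2 a = s ^^^ F1 s ^^^ a →
    ∃ r < 16, r ^^^ F1 r ^^^ a = 0 := by decide +kernel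

omit [Finite G] in
theorem inv_zp {k u : G} (e : k * x * k⁻¹ = x⁻¹) (hu : u ∈ zpowers x) : k * u * k⁻¹ = u⁻¹ := by
  obtain ⟨i, rfl⟩ := hu
  simp only
  rw [← conj_zpow, e, inv_zpow]

theorem exists_t (h : Frame z x Q B Y hx L Φ) : ∃ t ∈ Y, t * x * t⁻¹ = x⁻¹ ∧
    hx t = swap 0 1 ∧ t * t ∈ zpowers z := by
  have H := h.toHex
  obtain ⟨k, hk, hkx, e⟩ := H.exists_K (swap 0 1)
  replace hkx : k * x * k⁻¹ = x⁻¹ := hkx.resolve_left fun e' => by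
    have := H.even k hk e'; rw [e] at this; exact absurd this (by decide)
  have kx' : k * x⁻¹ * k⁻¹ = x := (cj_inv hkx).trans (inv_inv x)
  have nk := H.normB k hk (Or.inr hkx)
  have cB : ∀ b ∈ B, k * b * k⁻¹ ∈ B := fun b hb => (mem_normalizer_iff.1 nk b).1 hb
  have cu : ∀ b ∈ B, ∀ u ∈ zpowers x, u * b = b * u := fun b hb u ⟨i, e⟩ =>
    e ▸ ((show Commute x b from H.Bx b hb).zpow_left i).eq
  obtain ⟨b0, hb0, u, hu, e0⟩ := ker_cent H (mul_mem hk hk)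
    (by rw [H.hx_mul k hk k hk, e]; decide)
    (by rw [show k * k * x * (k * k)⁻¹ = k * (k * x * k⁻¹) * k⁻¹ by group, hkx, kx'])
  have u1 : u = 1 := by
    have e1 : k * b0 * k⁻¹ * u⁻¹ = b0 * u := by
      rw [← inv_zp hkx hu, show k * b0 * k⁻¹ * (k * u * k⁻¹) = k * (b0 * u) * k⁻¹ by group, ← e0]
      group
    have e2 : u * u ∈ B := by
      rw [show u * u = b0⁻¹ * (b0 * u) * u by group, ← e1]
      simpa [mul_assoc] using mul_mem (inv_mem hb0) (cB _ hb0)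
    have e3 : u ^ 3 = 1 := by
      obtain ⟨i, rfl⟩ := hu
      simp only
      rw [← zpow_natCast, ← zpow_mul, mul_comm, zpow_mul, zpow_natCast, ← H.x3, pow_orderOf_eq_one,
        one_zpow]
    rw [show u = (u * u * (u * u)) * (u ^ 3)⁻¹ by group, H.sqB _ e2, e3]; simp
  rw [u1, mul_one] at e0
  obtain ⟨r, hr, hrx, er⟩ := H.exists_C (σ := swap 2 4 * swap 2 3) (by decide)
  have rx' : r⁻¹ * x⁻¹ * r = x⁻¹ := cj_symm (cj_inv hrx)
  obtain ⟨b, hb, w, hw, e1⟩ := ker_cent H (n := r * k * r⁻¹ * k⁻¹)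
    (mul_mem (mul_mem (mul_mem hr hk) (inv_mem hr)) (inv_mem hk))
    (by rw [H.hx_mul _ (mul_mem (mul_mem hr hk) (inv_mem hr)) _ (inv_mem hk),
      H.hx_mul _ (mul_mem hr hk) _ (inv_mem hr), H.hx_mul _ hr _ hk, H.hx_inv hr, H.hx_inv hk, e, er]
        decide)
    (by
      rw [show r * k * r⁻¹ * k⁻¹ * x * (r * k * r⁻¹ * k⁻¹)⁻¹ =
        r * (k * (r⁻¹ * (k⁻¹ * x * k) * r) * k⁻¹) * r⁻¹ by group, cj_symm kx', rx', kx', hrx])
  have e2 : r * b0 * r⁻¹ = b * (k * b * k⁻¹) * b0 := by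
    have a1 : r * k * r⁻¹ = b * w * k := by rw [← e1]; group
    rw [← e0, show r * (k * k) * r⁻¹ = (r * k * r⁻¹) * (r * k * r⁻¹) by group, a1,
      show b * w * k * (b * w * k) = b * (w * (k * b * k⁻¹)) * (k * w * k⁻¹) * (k * k) by group,
      cu _ (cB b hb) w hw, inv_zp hkx hw]
    group
  obtain ⟨a, ha⟩ := h.nb_ex hb0
  obtain ⟨s, hs⟩ := h.nb_ex hb
  have sq : ∀ c ∈ B, ∀ s, NB Q Φ c s → NB Q Φ (c * (k * c * k⁻¹) * b0) (s ^^^ F1 s ^^^ a) :=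
    fun c hc s hs => h.nb_mul (mul_mem hc (cB c hc)) hb0
      (h.nb_mul hc (cB c hc) hs (nb_act h hc hk nk e F1 F1_spec hs)) ha
  have a1 := nb_act h hb0 hk nk e F1 F1_spec ha
  rw [show k * b0 * k⁻¹ = b0 by rw [← e0]; group] at a1
  have a2 := nb_act h hb0 hr (H.normB r hr (Or.inl hrx)) er F2 F2_spec ha
  rw [e2] at a2
  obtain ⟨j, hj, ej⟩ := F_dec a ha.1 s hs.1 (h.nb_uniq a1 ha) (h.nb_uniq a2 (sq b hb s hs))
  obtain ⟨c, hc, hcj⟩ := h.nb_surj hj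
  have a3 := sq c hc j hcj
  rw [ej, h.nb_zero] at a3
  refine ⟨c * k, mul_mem (H.BY hc) hk, ?_, ?_, ?_⟩
  · rw [show c * k * x * (c * k)⁻¹ = c * (k * x * k⁻¹) * c⁻¹ by group, hkx,
      ← cu c hc _ (inv_mem (mem_zpowers x))]
    group
  · rw [H.hx_mul _ (H.BY hc) _ hk, H.hx_of_mem (mem_sup_left (mem_sup_right hc)), one_mul, e]
  · rw [show c * k * (c * k) = c * (k * c * k⁻¹) * (k * k) by group, e0]; exact a3

theorem t_dec : ∀ m < 128, inL (2 : Fin 6) m = true → zb m 17 = 0 → zb (xm (xm m)) (xt 17) = 0 →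
    m % 64 = 0 := by decide +kernel

theorem exists_out_t (h : Frame z x Q B Y hx L Φ) : ∃ t ∈ Y, t * x * t⁻¹ = x⁻¹ ∧ t * t ∈ Q ∧
    ¬ Iso Q t := by
  have H := h.toHex
  have pre := H.pre
  obtain ⟨t, ht, htx, e, t2⟩ := exists_t h
  obtain ⟨v, hv, hv6⟩ := h.nb_surj (s := 6) (by norm_num)
  have nt := H.normB t ht (Or.inr htx)
  have tv := (mem_normalizer_iff.1 nt v).1 hv
  by_contra hcon
  push Not at hcon
  have i1 := hcon t ht htx (pre.zpowers_le t2)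
  have i2 := hcon (t * v) (mul_mem ht (H.BY hv)) (by
    rw [show t * v * x * (t * v)⁻¹ = t * (v * x * v⁻¹) * t⁻¹ by group, ← H.Bx v hv,
      mul_inv_cancel_right, htx]) (by
    have := h.nb_mul (mul_mem tv (zpowers_le.2 H.zB t2)) hv (h.nb_mul tv (zpowers_le.2 H.zB t2)
      (nb_act h hv ht nt e F1 F1_spec hv6) (h.nb_zero.2 t2)) hv6
    rw [show F1 6 ^^^ 0 ^^^ 6 = 0 by decide, h.nb_zero] at this
    rw [show t * v * (t * v) = t * v * t⁻¹ * (t * t) * v by group]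
    exact pre.zpowers_le this)
  have key : ∀ a ∈ Q, a * (t * ⁅v, a⁆ * t⁻¹) = (t * ⁅v, a⁆ * t⁻¹) * a := fun a ha => by
    have := i2 a ha
    rw [show t * v * a * (t * v)⁻¹ = (t * ⁅v, a⁆ * t⁻¹) * (t * a * t⁻¹) by
      rw [commutatorElement_def]; group, pre.comm_mul_right (cjn pre (H.YH ht) (Hex.W_le (H.commB hv ha)))
      (cjn pre (H.YH ht) ha) ha, i1 a ha, mul_one] at this
    exact commutatorElement_eq_one_iff_mul_comm.1 this
  obtain ⟨a, ha, hτ⟩ := h.tau_surj (t := 17) (by norm_num)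
  have k1 := key a ha
  have k2 := key _ (H.fpf.cj_mem ha)
  rw [hv6.2 a ha 17 hτ, show Ns 6 17 = 96 by decide] at k1
  rw [hv6.2 _ (H.fpf.cj_mem ha) _ (h.tau_x hτ), show Ns 6 (xt 17) = xm 96 by decide] at k2
  have m2 : t * Φ 96 * t⁻¹ ∈ L 2 := by
    have := h.act t ht 2
    rw [e, show swap (0 : Fin 6) 1 2 = 2 by decide] at this
    rw [← this]
    exact smul_mem_pointwise_smul _ (MulAut.conj t) _ ((h.mem_L 2 (by norm_num)).2 (by decide))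
  obtain ⟨m, hm, em⟩ := h.Φ_surj _ ((h.xinv 2).le m2)
  have e3 : t * Φ (xm 96) * t⁻¹ = Φ (xm (xm m)) := by
    rw [← h.Φ_x, ← h.Φ_x, ← h.Φ_x, H.fpf.cj_cj, em, show t * (x * Φ 96 * x⁻¹) * t⁻¹ =
      (t * x * t⁻¹) * (t * Φ 96 * t⁻¹) * (t * x * t⁻¹)⁻¹ by group, htx, inv_inv]
  rw [← em] at k1 m2
  rw [e3] at k2
  have z0 := t_dec m hm ((h.mem_L 2 hm).1 m2) ((h.comm_tau hτ hm).1 k1)
    ((h.comm_tau (h.tau_x hτ) (xm_lt _ (xm_lt _ hm))).1 k2)
  have z1 := (h.mem_zp_iff hm).2 z0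
  rw [em] at z1
  have z2 := pre.conj_eq_of_mem (inv_mem (H.Y_norm ht)) z1
  rw [← z2, show t⁻¹ * (t * Φ 96 * t⁻¹) * t⁻¹⁻¹ = Φ 96 by group, h.mem_zp_iff (by norm_num)] at z1
  exact absurd z1 (by decide)

theorem hom_sign (h : Hex z x Q B Y hx) (ψ : Y →* ℤˣ) (hQ : ∀ y : Y, (y : G) ∈ Q → ψ y = 1)
    (h1 : ∃ y, ψ y ≠ 1) (y : Y) : ψ y = 1 ↔ Perm.sign (hx y) = 1 := by
  have hB : ∀ b (hb : b ∈ B), ψ ⟨b, h.BY hb⟩ = 1 := by
    have c : ∀ b (hb : b ∈ B), b ∉ zpowers z → ∀ b' (hb' : b' ∈ B), b' ∉ zpowers z →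
        ψ ⟨b', h.BY hb'⟩ = ψ ⟨b, h.BY hb⟩ := fun b hb n b' hb' n' => by
      obtain ⟨k, hk, -, e⟩ := h.trans b hb n b' hb' n'
      have : ψ (⟨k, hk⟩ * ⟨b, h.BY hb⟩ * ⟨k, hk⟩⁻¹) = ψ ⟨b, h.BY hb⟩ := by
        rw [map_mul, map_mul, map_inv, mul_right_comm, mul_inv_cancel, one_mul]
      rw [← this]
      rcases e with e | e
      · exact congrArg ψ (Subtype.ext e.symm)
      · rw [← mul_one (ψ _), ← hQ ⟨z, h.BY h.zB⟩ h.pre.mem, ← map_mul]
        exact congrArg ψ (Subtype.ext e.symm)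
    intro b hb
    by_cases n : b ∈ zpowers z
    · exact hQ _ (h.pre.zpowers_le n)
    have : ¬ B ≤ zpowers z ⊔ zpowers b := fun e => by
      have h1 := card_le_of_le e
      have h2 := card_sup_mul_card_inf_of_le_normalizer (N := zpowers z) (H := zpowers b)
        (zpowers_le.2 (centralizer_le_normalizer _ (by
          rw [centralizer_zpowers_eq_sing]; exact h.YH (h.BY hb))))
      have h3 : Nat.card (zpowers b) ≤ 2 := by
        rw [Nat.card_zpowers]; exact orderOf_le_of_pow_eq_one two_pos (by rw [sq, h.sqB b hb])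
      have h4 : 0 < Nat.card ↥(zpowers z ⊓ zpowers b) := Nat.card_pos
      rw [h.card_zp] at h2; rw [h.cardB] at h1
      nlinarith
    obtain ⟨d, hd, nd⟩ := SetLike.not_le_iff_exists.1 this
    have e1 := c b hb n d hd fun e => nd (mem_sup_left e)
    have e2 := c b hb n (d * b) (mul_mem hd hb) fun e => nd (by
      simpa using mul_mem (mem_sup_left e) (inv_mem (mem_sup_right (mem_zpowers b))))
    rw [show (⟨d * b, _⟩ : Y) = ⟨d, h.BY hd⟩ * ⟨b, h.BY hb⟩ from rfl, map_mul, e1] at e2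
    simpa [eq_comm] using e2
  have hk : h.hom.ker ≤ ψ.ker := fun y hy => by
    obtain ⟨m, hm, u, hu, e⟩ := (mem_sup_of_le_normalizer (zpowers_le.2 h.x_normQB)).1
      ((h.hx_ker y y.2).1 hy)
    obtain ⟨q, hq, b, hb, rfl⟩ := h.mem_QB.1 hm
    obtain ⟨i, rfl⟩ := hu
    have e3 : ψ ⟨x, h.xY⟩ = 1 := by
      have : ψ ⟨x, h.xY⟩ ^ 3 = 1 := by
        rw [← map_pow, ← ψ.map_one]
        exact congrArg ψ (Subtype.ext (by simpa [pow_succ] using h.fpf.cube))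
      rwa [pow_succ, Int.units_sq, one_mul] at this
    rw [MonoidHom.mem_ker, show y = ⟨q, h.QY hq⟩ * ⟨b, h.BY hb⟩ * ⟨x, h.xY⟩ ^ i from
      Subtype.ext e.symm, map_mul, map_mul, map_zpow, e3, hB b hb, hQ _ hq]
    simp
  have i2 : (ψ.ker.map h.hom).index = 2 := by
    rw [index_map, sup_eq_left.2 hk, MonoidHom.range_eq_top.2 h.hom_surj, index_top, mul_one,
      index_ker, show ψ.range = ⊤ from eq_top_iff.2 fun u _ => by
        obtain ⟨y, hy⟩ := h1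
        rcases Int.units_eq_one_or u with rfl | rfl
        exacts [one_mem _, ⟨y, (Int.units_eq_one_or _).resolve_left hy⟩], card_top]
    simp
  rw [← Perm.mem_alternatingGroup, ← Perm.eq_alternatingGroup_of_index_eq_two i2,
    ← MonoidHom.mem_ker]
  change _ ↔ y ∈ (ψ.ker.map h.hom).comap h.hom
  rw [comap_map_eq, sup_eq_left.2 hk]

theorem _root_.Cfsg.Lib.SporChar.Hex.tr (h : Hex z x Q B Y hx) : ∃ M : Subgroup G, Q ≤ M ∧
    M ≤ C1 z ∧ C1 z ≤ Ns M ∧ M.relIndex (C1 z) = 2 ∧ ∀ y ∈ Y, (y ∈ M ↔ Perm.sign (hx y) = 1) := by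
  obtain ⟨hx', L, Φ, hF⟩ := h.exists_frame
  obtain ⟨t, ht, htx, t2, nt⟩ := exists_out_t hF
  have pre := h.pre
  let Y' : Subgroup (C1 z) := Y.subgroupOf (C1 z)
  let φ : Y' →* ℤˣ := (Perm.sign.comp h.hom).comp (subgroupOfEquivOfLe h.YH).toMonoidHom
  have φe : ∀ y : Y', φ y = Perm.sign (hx y) := fun y => rfl
  have φQ : ∀ y : Y', ((y : C1 z) : G) ∈ Q → φ y = 1 := fun y hy => by rw [φe, h.hxQ hy, map_one]
  have cQ : ∀ a q : C1 z, (q : G) ∈ Q → ((a⁻¹ * q * a : C1 z) : G) ∈ Q := fun a q hq => by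
    simpa using cjn pre (inv_mem a.2) hq
  let τ := MonoidHom.transfer φ
  have τQ : ∀ q : C1 z, (q : G) ∈ Q → τ q = 1 := fun q hq => by
    have := Trans.transfer_eq_pow_of_conj φ ⟨q, h.QY hq⟩ fun k a ha => by
      rw [φQ _ (cQ a _ (pow_mem hq k)), φQ _ hq, one_pow]
    rw [φQ _ hq, one_pow] at this; exact this
  have τt : τ ⟨t, h.YH ht⟩ ≠ 1 := fun e => by
    obtain ⟨n, hn⟩ : ∃ n, orderOf (⟨t, h.YH ht⟩ : C1 z) = 2 ^ n := by
      obtain ⟨n, hn⟩ := pre.isPGroup ⟨_, t2⟩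
      refine (Nat.dvd_prime_pow Nat.prime_two (m := n + 1)).1 (orderOf_dvd_of_pow_eq_one
        (Subtype.ext ?_)) |>.imp fun _ => And.right
      simpa [pow_succ', pow_mul, sq] using congrArg Subtype.val hn
    obtain ⟨a, ha, e1, -⟩ := Trans.thompson_transfer φ
      (fun d => (Nat.not_even_iff_odd.2 h.oddIndex) (even_iff_two_dvd.2 d)) ⟨t, h.YH ht⟩ ⟨n, hn⟩
      (fun m hm m1 a ha => φQ _ (cQ a _ (by
        rw [hn, Nat.dvd_prime_pow Nat.prime_two] at hm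
        obtain ⟨_ | j, -, rfl⟩ := hm
        · exact absurd rfl m1
        · simpa [pow_succ', pow_mul, sq] using pow_mem t2 (2 ^ j)))) (-1) (by simp)
      (fun a ha => Int.units_eq_one_or _) e ⊥ IsPGroup.of_bot (fun r hr => by
        rw [mem_bot.1 hr]; simp)
    have := (iso_even h ha (by simpa [mul_assoc] using cjn pre (inv_mem a.2) t2) e1).conj pre a.2
    exact nt (by simpa [mul_assoc] using this)
  have ek : (τ.ker.map (C1 z).subtype).subgroupOf (C1 z) = τ.ker :=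
    comap_map_eq_self_of_injective (C1 z).subtype_injective _
  refine ⟨τ.ker.map (C1 z).subtype, fun q hq => ⟨⟨q, pre.le_cent hq⟩, τQ _ hq, rfl⟩,
    map_subtype_le _, ?_, ?_, fun y hy => ?_⟩
  · exact (normal_subgroupOf_iff_le_normalizer (map_subtype_le _)).1 (by rw [ek]; infer_instance)
  · rw [relIndex, ek, index_ker, show τ.range = ⊤ from
      eq_top_iff.2 fun u _ => by
        rcases Int.units_eq_one_or u with rfl | rfl
        exacts [one_mem _, ⟨_, (Int.units_eq_one_or _).resolve_left τt⟩], card_top]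
    simp
  · rw [← hom_sign h (τ.comp (inclusion h.YH)) (fun y hy => τQ _ hy) ⟨⟨t, ht⟩, τt⟩ ⟨y, hy⟩]
    exact ⟨fun ⟨c, hc, e⟩ => by
      rw [MonoidHom.comp_apply, show (inclusion h.YH) ⟨y, hy⟩ = c from Subtype.ext e.symm]
      exact hc,
      fun e => ⟨_, e, rfl⟩⟩

end Cfsg.Lib.R11
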