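import Cfsg.Agent.R11.E4
import Cfsg.Agent.J4T.PGA
import Cfsg.Agent.SporChar.HexNum
import Cfsg.Agent.Char.Burnside

/-! The centralizer modulo `Q` of a duad of a `Hex` configuration is solvable. -/

set_option autoImplicit false

namespace Cfsg.Lib.R11

open Subgroup Cfsg.Lib.Local Cfsg.Lib.Solv Cfsg.Lib.Solv.Count Cfsg.Lib.Gold Cfsg.Lib.SporChar
  Cfsg.Lib.Spor Equiv
open scoped Pointwise commutatorElement

variable {G : Type*} [Group G] [Finite G] {z x : G} {Q B Y : Subgroup G} {hx : G → Perm (Fin 6)}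
  {L : Fin 6 → Subgroup G} {Φ : ℕ → G}

theorem cnt_fix {g : G} {p : ℕ} (hp : p.Prime) (o : orderOf g = p) (P : G → Prop)
    (hP : ∀ a, P a → P (g * a * g⁻¹)) : cnt (fun a => P a ∧ a ∈ C1 g) ≡ cnt P [MOD p] := by
  rw [cnt_add P (· ∈ C1 g)]
  refine ((Nat.modEq_iff_dvd' (Nat.le_add_right _ _)).2 ?_)
  rw [Nat.add_sub_cancel_left]
  let _ : MulAction (zpowers g) G :=
    MulAction.compHom G ((MulAut.conj (G := G)).comp (zpowers g).subtype)
  refine dvd_cnt_of_dvd_index_stabilizer (A := zpowers g) _ (fun r a ha => ?_) fun a ha => ?_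
  · obtain ⟨r, hr⟩ := r
    obtain ⟨n, rfl⟩ := mem_powers_iff_mem_zpowers.2 hr
    change P (g ^ n * a * (g ^ n)⁻¹) ∧ g ^ n * a * (g ^ n)⁻¹ ∉ C1 g
    refine ⟨?_, fun e => ha.2 ?_⟩
    · induction n with
      | zero => simpa using ha.1
      | succ n ih =>
        rw [show g ^ (n + 1) * a * (g ^ (n + 1))⁻¹ = g * (g ^ n * a * (g ^ n)⁻¹) * g⁻¹ by group]
        exact hP _ (ih (pow_mem (mem_zpowers g) n))
    · have c : g ^ n ∈ C1 g := pow_mem (mem_centralizer_singleton_iff.2 rfl) n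
      simpa [mul_assoc] using mul_mem (mul_mem (inv_mem c) e) c
  · have := (MulAction.stabilizer (zpowers g) a).index_dvd_card
    rw [Nat.card_zpowers, o, Nat.dvd_prime hp] at this
    rcases this with e | e
    · have : g * a * g⁻¹ = a :=
        (index_eq_one.1 e ▸ mem_top _ : ⟨g, mem_zpowers g⟩ ∈ MulAction.stabilizer (zpowers g) a)
      exact absurd (mem_centralizer_singleton_iff.2 (mul_inv_eq_iff_eq_mul.1 this).symm) ha.2
    · rw [e]

theorem no_prime (pre : PreLX Q z) {D E : Subgroup G} (DQ : D ≤ Q) (hE : E = Q ⊓ Cs D) (ED : E ≤ D)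
    (sq : ∀ a ∈ E, a * a = 1) (cE : Nat.card E = 32) (cD : Nat.card D = 512)
    (c1 : cnt (fun a => a ∈ E ∧ ¬ IsConj z a) = 13) (c2 : cnt (fun a => a ∈ D ∧ a * a = 1) = 320)
    {g : G} (hg : g ∈ C1 z) (gD : g ∈ Gold.Ns D) {p : ℕ} (hp : p.Prime) (o : orderOf g = p) :
    p = 2 ∨ p = 3 := by
  by_contra hcon
  have np : ∀ a b, ¬ p ∣ 2 ^ a * 3 ^ b := fun a b e => hcon ((hp.dvd_mul.1 e).imp
    (fun e => (Nat.prime_dvd_prime_iff_eq hp Nat.prime_two).1 (hp.dvd_of_dvd_pow e))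
    fun e => (Nat.prime_dvd_prime_iff_eq hp Nat.prime_three).1 (hp.dvd_of_dvd_pow e))
  have nD : ∀ a ∈ D, g * a * g⁻¹ ∈ D := fun a ha => (mem_normalizer_iff.1 gD a).1 ha
  have nE : ∀ a ∈ E, g * a * g⁻¹ ∈ E := fun a ha => by
    rw [hE] at ha ⊢
    refine ⟨cjn pre hg ha.1, fun d hd => ?_⟩
    have := ha.2 _ ((mem_normalizer_iff''.1 gD d).1 hd)
    rw [show d = g * (g⁻¹ * d * g) * g⁻¹ by group, show g * (g⁻¹ * d * g) * g⁻¹ * (g * a * g⁻¹) =
      g * (g⁻¹ * d * g * a) * g⁻¹ by group, this]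
    group
  have zE : z ∈ E ⊓ C1 g := ⟨hE ▸ ⟨pre.mem, fun d hd => pre.central d (DQ hd)⟩, mem_cent_symm hg⟩
  have s1 : E ≤ C1 g := by
    have m1 : Nat.card ↥(E ⊓ C1 g) ≡ 32 [MOD p] := cE ▸ cnt_fix hp o (· ∈ E) nE
    have m2 := cnt_fix hp o (fun a => a ∈ E ∧ ¬ IsConj z a) fun a ha =>
      ⟨nE a ha.1, fun e => ha.2 (e.trans (isConj_iff.2 ⟨g, rfl⟩).symm)⟩
    have m3 : cnt (fun a => (a ∈ E ∧ ¬ IsConj z a) ∧ a ∈ C1 g) ≤ Nat.card ↥(E ⊓ C1 g) :=
      cnt_le (Q := (· ∈ E ⊓ C1 g)) fun a ha => ⟨ha.1.1, ha.2⟩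
    have m4 := orderOf_dvd_natCard _ zE
    obtain ⟨j, hj, e⟩ := (Nat.dvd_prime_pow Nat.prime_two (m := 5)).1
      (cE ▸ card_dvd_of_le (inf_le_left (a := E) (b := C1 g)))
    refine inf_eq_left.1 (eq_of_le_of_card_ge inf_le_left ?_)
    rw [c1] at m2; rw [pre.ord] at m4; rw [e] at m1 m3 m4; rw [cE, e]
    by_contra lt
    have d := (Nat.modEq_iff_dvd' (by omega)).1 m1
    have le : p ≤ 32 - 2 ^ j := Nat.le_of_dvd (by omega) d
    have n2 := np 1 0
    have n3 := np 0 1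
    unfold Nat.ModEq at m2
    interval_cases j
    · norm_num at m4
    · interval_cases p <;> first | omega | norm_num at hp
    · interval_cases p <;> first | omega | norm_num at hp
    · exact np 3 1 d
    · exact np 4 0 d
    · omega
  have EF : E ≤ D ⊓ C1 g := le_inf ED s1
  have s2 : D ≤ C1 g := by
    have m1 : Nat.card ↥(D ⊓ C1 g) ≡ 512 [MOD p] := cD ▸ cnt_fix hp o (· ∈ D) nD
    have m2 := cnt_fix hp o (fun a => a ∈ D ∧ a * a = 1) fun a ha => ⟨nD a ha.1, by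
      rw [show g * a * g⁻¹ * (g * a * g⁻¹) = g * (a * a) * g⁻¹ by group, ha.2]; group⟩
    rw [c2] at m2
    have m3 : Nat.card ↥(D ⊓ C1 g) ≤ 64 → False := fun le => by
      by_cases hw : ∃ w ∈ D ⊓ C1 g, w ∉ E ∧ w * w = 1
      · obtain ⟨w, hw, nw, w2⟩ := hw
        have i := (E.subgroupOf (D ⊓ C1 g)).card_mul_index
        rw [card_subgroupOf_of_le EF, cE] at i
        have i1 : (E.subgroupOf (D ⊓ C1 g)).index ≠ 1 := fun e =>
          nw (show (⟨w, hw⟩ : ↥(D ⊓ C1 g)) ∈ E.subgroupOf _ from index_eq_one.1 e ▸ mem_top _)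
        have i0 : 0 < Nat.card ↥(D ⊓ C1 g) := Nat.card_pos
        have i2 : (E.subgroupOf (D ⊓ C1 g)).index = 2 := by omega
        rw [cnt_congr (Q := (· ∈ D ⊓ C1 g)) fun a => ⟨fun h => ⟨h.1.1, h.2⟩, fun h => ⟨⟨h.1, by
          by_cases ha : a ∈ E
          · exact sq a ha
          have e : w * a ∈ E := (mul_mem_iff_of_index_two i2 (a := ⟨w, hw⟩) (b := ⟨a, h⟩)).2
            (iff_of_false nw ha)
          have c : w * (w * a) = w * a * w := (hE ▸ e).2 w hw.1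
          rw [← mul_assoc, w2, one_mul] at c
          have := sq _ e
          rwa [← mul_assoc, ← c] at this⟩, h.2⟩⟩,
          show cnt (· ∈ D ⊓ C1 g) = 64 from i.symm.trans (by rw [i2])] at m2
        exact np 8 0 ((Nat.modEq_iff_dvd' (by norm_num)).1 m2)
      · push Not at hw
        rw [cnt_congr (Q := (· ∈ E)) fun a => ⟨fun h => by_contra fun n => hw a ⟨h.1.1, h.2⟩ n h.1.2,
          fun h => ⟨⟨ED h, sq a h⟩, s1 h⟩⟩, show cnt (· ∈ E) = 32 from cE] at m2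
        exact np 5 2 ((Nat.modEq_iff_dvd' (by norm_num)).1 m2)
    obtain ⟨j, hj, e⟩ := (Nat.dvd_prime_pow Nat.prime_two (m := 9)).1
      (cD ▸ card_dvd_of_le (inf_le_left (a := D) (b := C1 g)))
    refine inf_eq_left.1 (eq_of_le_of_card_ge inf_le_left ?_)
    rw [e] at m1 m3; rw [cD, e]
    have : 7 ≤ j := by
      by_contra lt
      exact m3 (Nat.pow_le_pow_right two_pos (by omega : j ≤ 6))
    interval_cases j
    · exact (np 7 1 ((Nat.modEq_iff_dvd' (by norm_num)).1 m1)).elim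
    · exact (np 8 0 ((Nat.modEq_iff_dvd' (by norm_num)).1 m1)).elim
    · norm_num
  have s3 : g * g ∈ zpowers z := pre.cent fun a ha => by
    have e : g * a * g⁻¹ * a⁻¹ ∈ E := hE ▸ ⟨Q.mul_mem (cjn pre hg ha) (Q.inv_mem ha), fun d hd => by
      have := pre.comm_adjoint (pre.norm hg) ha (DQ hd)
      rw [mul_assoc g⁻¹, mem_centralizer_singleton_iff.1 (s2 hd)] at this
      simp only [inv_mul_cancel_left, mul_inv_cancel, commutatorElement_one_right] at this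
      exact (commutatorElement_eq_one_iff_mul_comm.1 this).symm⟩
    have c := mem_centralizer_singleton_iff.1 (s1 e)
    have := sq _ e
    rw [show g * g * a = g * (g * a * g⁻¹ * a⁻¹) * a * g by group, ← c,
      show g * a * g⁻¹ * a⁻¹ * g * a * g = g * a * g⁻¹ * a⁻¹ * (g * a * g⁻¹ * a⁻¹) * (a * (g * g)) by
        group, this, one_mul]
  refine np 2 0 (o ▸ orderOf_dvd_of_pow_eq_one ?_)
  rw [← pre.mul_self_of_mem s3]; simp [pow_succ, mul_assoc]

/-- The centre of the centralizer of the duad with coordinate `s`. -/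
def lb (s m : ℕ) : Bool := allLT 64 fun t => SporChar.Ns s t != 0 || zb m t == 0

theorem lb_dec : ∀ s < 16, s ≠ 0 → countLT 128 (lb s) = 32 ∧
    countLT 128 (fun m => lb s m && !FZ true true false true false true m) = 13 ∧
    (Finset.univ.filter fun t : Fin 64 => SporChar.Ns s t = 0 ∧ t.val ≠ 0).card = 3 := by decide +kernel

theorem half_dec : ∀ t < 64, t ≠ 0 → ∀ e ∈ [0, 64],
    countLT 128 (fun m => act t m ^^^ e ^^^ m == 0) = 64 := by decide +kernel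

theorem _root_.Cfsg.Lib.SporChar.Frame.sol (h : Frame z x Q B Y hx L Φ) {g : G}
    (hne : g * z * g⁻¹ ≠ z) (hc : g * z * g⁻¹ * z = z * (g * z * g⁻¹)) :
    ∀ b ∈ B, b ∉ zpowers z → ∀ C : Subgroup G,
      (∀ c, c ∈ C ↔ c ∈ centralizer ({z} : Set G) ∧ c * b * c⁻¹ * b⁻¹ ∈ Q) → Group.IsSolvable C := by
  intro b hb nb C hC
  have H := h.toHex
  have pre := H.pre
  obtain ⟨Ψ, hV, hz, -⟩ := h.exists_norm hne hc
  obtain ⟨s, hs⟩ := h.nb_ex hb
  obtain ⟨d1, d2, d3⟩ := lb_dec s hs.1 fun e => nb (h.nb_zero.1 (e ▸ hs))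
  have bH := H.YH (H.BY hb)
  have mD : ∀ q ∈ Q, ∀ t, Tau Φ q t → (q ∈ Q ⊓ C1 b ↔ SporChar.Ns s t = 0) := fun q hq t ht => by
    rw [← h.eq_one_iff (Ns_lt s hs.1 t ht.1), ← hs.2 q hq t ht,
      commutatorElement_eq_one_iff_mul_comm, Subgroup.mem_inf, mem_centralizer_singleton_iff,
      and_iff_right hq, eq_comm]
  have WD : hexW Q B ≤ Q ⊓ C1 b := fun w hw =>
    ⟨hw.1, mem_centralizer_singleton_iff.2 (hw.2 b hb).symm⟩
  have EW : Q ⊓ Cs (Q ⊓ C1 b) ≤ hexW Q B := fun a ha =>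
    H.mem_W_of_comm ha.1 fun w hw => ha.2 w (WD hw)
  have mE : ∀ m < 128, Φ m ∈ Q ⊓ Cs (Q ⊓ C1 b) ↔ lb s m = true := fun m hm => by
    simp only [lb, allLT_iff, Bool.or_eq_true, bne_iff_ne, beq_iff_eq]
    refine ⟨fun e t ht => or_iff_not_imp_left.2 fun n => ?_, fun e => ⟨(h.Φ_mem m).1, fun q hq => ?_⟩⟩
    · obtain ⟨q, hq, hτ⟩ := h.tau_surj ht
      exact (h.comm_tau hτ hm).1 (e.2 q ((mD q hq t hτ).2 (not_not.1 n)))
    · obtain ⟨t, hτ⟩ := h.tau_ex hq.1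
      exact (h.comm_tau hτ hm).2 ((e t hτ.1).resolve_left (not_not.2 ((mD q hq.1 t hτ).1 hq)))
  have cE : Nat.card ↥(Q ⊓ Cs (Q ⊓ C1 b)) = 32 := d1 ▸
    cnt_eq_countLT (P := (· ∈ Q ⊓ Cs (Q ⊓ C1 b))) (fun _ ha _ hb => h.inj' ha hb)
      (fun a ha => h.Φ_surj a (EW ha)) mE
  have cD : Nat.card ↥(Q ⊓ C1 b) = 512 := by
    have := pre.card_centralizer_mul (U := Q ⊓ C1 b)
      (pre.center_eq.le.trans (zpowers_le.2 (WD H.zW))) inf_le_left
    rw [pre.center_eq, H.card_zp, H.cardQ, cE] at this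
    omega
  have c2 : cnt (fun a => a ∈ Q ⊓ C1 b ∧ a * a = 1) = 320 := by
    have k := cnt_mul_eq_cnt_mul (fun a => (a ∈ Q ⊓ C1 b ∧ a * a = 1) ∧ a ∉ hexW Q B)
      (fun t : Fin 64 => SporChar.Ns s t = 0 ∧ t.val ≠ 0) (fun q t => Tau Φ q t) (c := 1) (d := 64)
      (fun q hq => by
        obtain ⟨t, hτ⟩ := h.tau_ex hq.1.1.1
        exact cnt_eq_one (a := ⟨t, hτ.1⟩) ⟨⟨(mD q hq.1.1.1 t hτ).1 hq.1.1, fun e =>
          hq.2 ((h.tau_zero hq.1.1.1).1 ((show t = 0 from e) ▸ hτ))⟩, hτ⟩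
          fun t' h3 => Fin.ext (h.tau_uniq h3.2 hτ))
      (fun t ht => by
        obtain ⟨q, hq, hτ⟩ := h.tau_surj t.2
        obtain ⟨e, he, q2⟩ : ∃ e ∈ [0, 64], q * q = Φ e := by
          rcases pre.mem_iff.1 (pre.sq_mem q hq) with e | e
          exacts [⟨0, by simp, e.trans h.Φ_zero.symm⟩, ⟨64, by simp, e.trans h.Φ_z.symm⟩]
        refine (cnt_eq_countLT (f := fun m => q * Φ m) (fun _ ha _ hb e => h.inj' ha hb
          (mul_left_cancel e)) (fun a ha => ?_) fun m hm => ?_).trans (half_dec t t.2 ht.2 e he)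
        · obtain ⟨m, hm, e⟩ := h.Φ_surj _ ((h.tau_W hq ha.1.1.1.1 hτ).1 ha.2)
          exact ⟨m, hm, by rw [e]; group⟩
        · have q' := mul_mem hq (h.Φ_mem m).1
          have τ' := (h.tau_W hq q' hτ).2 (by simpa using h.Φ_mem m)
          have e128 : e < 128 := by simp at he; omega
          rw [and_iff_left τ', and_iff_left fun w => ht.2 (h.tau_uniq τ' ((h.tau_zero q').2 w)),
            and_iff_right ((mD _ q' t τ').2 ht.1), show q * Φ m * (q * Φ m) =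
              q * Φ m * q⁻¹ * (q * q) * Φ m by group, hτ.2 m hm, q2, ← h.Φ_xor, ← h.Φ_xor,
            h.eq_one_iff (Nat.xor_lt_two_pow (n := 7)
              (Nat.xor_lt_two_pow (n := 7) (act_lt _ t.2 _ hm) e128) hm), beq_iff_eq])
    rw [cnt_eq_card_filter (α := Fin 64), d3] at k
    rw [cnt_add _ (· ∈ hexW Q B), cnt_congr (Q := (· ∈ hexW Q B)) fun a =>
      ⟨fun h => h.2, fun h => ⟨⟨WD h, H.sqW h⟩, h⟩⟩, show cnt (· ∈ hexW Q B) = 128 from H.cardW]
    omega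
  refine Char.isSolvable_of_prime_dvd_card Nat.prime_two Nat.prime_three C fun p hp hd => ?_
  have := Fact.mk hp
  obtain ⟨c, hc⟩ := exists_prime_orderOf_dvd_card' p hd
  obtain ⟨c1, c3⟩ := (hC c).1 c.2
  refine no_prime pre inf_le_left rfl (EW.trans WD) (fun a ha => H.sqW (EW ha)) cE cD
    (d2 ▸ cnt_eq_countLT (fun _ ha _ hb => h.inj' ha hb) (fun a ha => h.Φ_surj a (EW ha.1))
      fun m hm => by rw [mE m hm, ← hV.th_lt hm, hz m (by omega)]; simp) c2 c1 ?_ hp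
    ((orderOf_coe c).trans hc)
  have := J4T.norm_fix pre bH c1 (by simpa [mul_assoc] using inv_mem c3)
  rwa [show pre.toSympPair.fixMod (pre.norm bH) = Q ⊓ C1 b from ext fun q => by
    rw [pre.mem_fixMod, Subgroup.mem_inf, mem_centralizer_singleton_iff]
    exact and_congr_right fun hq => ⟨fun e => (H.fpf.comm_eq_one
      (mem_centralizer_singleton_iff.1 bH) (H.Bx b hb) hq e).symm, fun e => by
        rw [← e]; simp⟩] at this

theorem _root_.Cfsg.Lib.SporChar.Hex.sol (h : Hex z x Q B Y hx) {g : G}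
    (hne : g * z * g⁻¹ ≠ z) (hc : g * z * g⁻¹ * z = z * (g * z * g⁻¹)) :
    ∀ b ∈ B, b ∉ zpowers z → ∀ C : Subgroup G,
      (∀ c, c ∈ C ↔ c ∈ centralizer ({z} : Set G) ∧ c * b * c⁻¹ * b⁻¹ ∈ Q) → Group.IsSolvable C := by
  obtain ⟨_, _, _, hF⟩ := h.exists_frame
  exact hF.sol hne hc

end Cfsg.Lib.R11
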