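import Cfsg.Agent.R11.E4
import Cfsg.Agent.J4T.PG
import Cfsg.Agent.S1715
import Cfsg.Agent.S1698
import Cfsg.Agent.Local.CharPLocal
import Cfsg.Agent.Local.PCoreOf
import Cfsg.Agent.Class.HermSimple
import Cfsg.Agent.Spor.M24Sub

/-! The two ends of the analysis of a `Hex` configuration. -/

set_option autoImplicit false

namespace Cfsg.Lib.R11

open Subgroup Cfsg.Lib.Local Cfsg.Lib.Solv Cfsg.Lib.Gold Cfsg.Lib.SporChar Cfsg.Lib.Spor Equiv
open scoped Pointwise commutatorElement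

universe u

variable {G : Type*} [Group G] [Finite G] {z x : G} {Q B Y : Subgroup G} {hx : G → Perm (Fin 6)}

omit [Finite G] in
theorem zp_two (h : Hex z x Q B Y hx) {O : Subgroup G} (hO : IsPGroup 2 O) {u : G}
    (hu : u ∈ zpowers x) (h1 : u ∈ O) : u = 1 := by
  obtain ⟨n, hn⟩ := hO ⟨u, h1⟩
  refine J4T.eq_one_of_pows (a := 2 ^ n) (b := 3) (Nat.Coprime.pow_left _ (by norm_num)) (congrArg Subtype.val hn) ?_
  rw [← h.x3, ← Nat.card_zpowers]
  exact congrArg Subtype.val (pow_card_eq_one' (G := zpowers x) (x := ⟨u, hu⟩))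

omit [Finite G] in
theorem x_not_two (h : Hex z x Q B Y hx) {O : Subgroup G} (hO : IsPGroup 2 O) : x ∉ O := fun e => by
  have := h.x3
  rw [zp_two h hO (mem_zpowers x) e, orderOf_one] at this; omega

omit [Finite G] in
theorem card_Qx (h : Hex z x Q B Y hx) : Nat.card (Q ⊔ zpowers x : Subgroup G) = 2 ^ 13 * 3 := by
  rw [card_sup_of_disjoint_of_le_normalizer (zpowers_le.2 h.fpf.x_norm)
    (eq_bot_iff.2 fun u hu => zp_two h h.pre.isPGroup hu.2 hu.1), h.cardQ, Nat.card_zpowers, h.x3]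

omit [Finite G] in
theorem idx_M (h : Hex z x Q B Y hx) (hN : ∀ c ∈ C1 z, c * x * c⁻¹ * x⁻¹ ∈ Q ∨ c * x * c⁻¹ * x ∈ Q)
    {M : Subgroup G} (hM : ∀ c, c ∈ M ↔ c ∈ C1 z ∧ c * x * c⁻¹ * x⁻¹ ∈ Q) :
    (∃ k ∈ C1 z, k * x * k⁻¹ * x ∈ Q) ∧ M.relIndex (C1 z) = 2 := by
  obtain ⟨k, hk, e, ek⟩ := h.exists_K (swap 0 1)
  replace e : k * x * k⁻¹ = x⁻¹ := e.resolve_left fun e' => by
    have := h.even k hk e'; rw [ek] at this; exact absurd this (by decide)
  refine ⟨⟨k, h.YH hk, by rw [e]; simp⟩, relIndex_eq_two_iff_exists_notMem_and.2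
    ⟨k, h.YH hk, fun e1 => ?_, fun b hb => ?_⟩⟩
  · have := ((hM k).1 e1).2
    rw [e, ← mul_inv_rev, h.fpf.sq_eq, inv_inv] at this
    exact x_not_two h h.pre.isPGroup this
  · rcases hN b hb with e1 | e1
    · exact Or.inr ((hM b).2 ⟨hb, e1⟩)
    · refine Or.inl ((hM _).2 ⟨mul_mem hb (h.YH hk), ?_⟩)
      rw [show b * k * x * (b * k)⁻¹ = b * (k * x * k⁻¹) * b⁻¹ by group, e]
      simpa [mul_assoc] using h.fpf.cj_mem (inv_mem e1)

omit [Finite G] in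
theorem perf (h : Hex z x Q B Y hx) (D : Subgroup G) (hQ : Q ≤ D) (hn : C1 z ≤ Ns D)
    (h8 : ∀ m ∈ C1 z, m * x * m⁻¹ * x⁻¹ ∈ Q → m ^ 8 = 1 → m ∈ D) : x ∈ D := by
  have hB : B ≤ D := fun b hb => h8 b (h.YH (h.BY hb)) (by rw [← h.Bx b hb]; simp)
    (by rw [show 8 = 2 * 4 from rfl, pow_mul, sq, h.sqB b hb, one_pow])
  have : (D.subgroupOf Y).Normal := normal_subgroupOf_of_le_normalizer (h.YH.trans hn)
  have := Normal.map ‹_› h.hom h.hom_surj
  obtain ⟨k, hk, e, ek⟩ := h.exists_C (σ := swap 0 1 * swap 2 3) (by decide)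
  obtain ⟨b, hb, u, hu, e2⟩ := ker_cent h (mul_mem hk hk) (by rw [h.hx_mul k hk k hk, ek]; decide)
    (by rw [show k * k * x * (k * k)⁻¹ = k * (k * x * k⁻¹) * k⁻¹ by group, e, e])
  have cx : Commute k x := mul_inv_eq_iff_eq_mul.1 e
  have k3 : k ^ 3 ∈ D := h8 _ (pow_mem (h.YH hk) 3) (by rw [(cx.pow_left 3).eq]; simp) (by
    obtain ⟨i, rfl⟩ := hu
    rw [← pow_mul, show 3 * 8 = 2 * 12 from rfl, pow_mul, sq, e2,
      ((show Commute x b from h.Bx b hb).zpow_left i).symm.mul_pow, show 12 = 2 * 6 from rfl,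
      pow_mul, sq, h.sqB b hb, one_pow, one_mul, ← zpow_natCast, ← zpow_mul, mul_comm, zpow_mul,
      zpow_natCast, show 2 * 6 = 3 * 4 from rfl, pow_mul, ← h.x3, pow_orderOf_eq_one]
    simp)
  have hA : alternatingGroup (Fin 6) ≤ (D.subgroupOf Y).map h.hom :=
    Perm.alternatingGroup_le_of_normal (by simp) ⟨⟨⟨_, ⟨k, hk⟩ ^ 3, k3, rfl⟩, 1, fun e => by
      have : hx k ^ 3 = 1 := (map_pow h.hom ⟨k, hk⟩ 3).symm.trans (congrArg Subtype.val e)
      rw [ek] at this; exact absurd this (by decide)⟩⟩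
  obtain ⟨R, hR, -, hxR⟩ := h.comm
  have dec : ∀ r ∈ R, ∃ d ∈ D, ∃ u ∈ zpowers x, r = d * u := fun r hr => by
    obtain ⟨d, hd, e⟩ := hA (Perm.mem_alternatingGroup.2
      (h.even r (hR hr).1 (mem_cent_iff_conj.1 (hR hr).2)))
    obtain ⟨n, hn, u, hu, e1⟩ := (mem_sup_of_le_normalizer (zpowers_le.2 h.x_normQB)).1
      ((h.hx_ker _ (mul_mem (inv_mem d.2) (hR hr).1)).1 (by
        rw [h.hx_mul _ (inv_mem d.2) _ (hR hr).1, h.hx_inv d.2, ← e]; exact inv_mul_cancel _))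
    exact ⟨d * n, mul_mem hd (sup_le hQ hB hn), u, hu, by rw [mul_assoc, e1]; group⟩
  refine (commutator_le.2 fun r hr s hs => ?_) hxR
  obtain ⟨d, hd, _, ⟨i, rfl⟩, rfl⟩ := dec r hr
  obtain ⟨d', hd', _, ⟨j, rfl⟩, rfl⟩ := dec s hs
  have c : ∀ i : ℤ, ∀ d ∈ D, x ^ i * d * (x ^ i)⁻¹ ∈ D := fun i d hd =>
    (mem_normalizer_iff.1 (hn (zpow_mem h.fpf.xH i)) d).1 hd
  rw [show ⁅d * x ^ i, d' * x ^ j⁆ = d * (x ^ i * d' * (x ^ i)⁻¹) * (x ^ j * d⁻¹ * (x ^ j)⁻¹) * d'⁻¹ by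
    rw [commutatorElement_def]; group]
  exact mul_mem (mul_mem (mul_mem hd (c i _ hd')) (c j _ (inv_mem hd))) (inv_mem hd')

theorem _root_.Cfsg.Lib.SporChar.Hex.endK (h : Hex z x Q B Y hx)
    (nw : ∃ g, g * z * g⁻¹ ≠ z ∧ g * z * g⁻¹ ∈ Q)
    (hN : ∀ c ∈ C1 z, c * x * c⁻¹ * x⁻¹ ∈ Q ∨ c * x * c⁻¹ * x ∈ Q) {M : Subgroup G}
    (hM : ∀ c, c ∈ M ↔ c ∈ C1 z ∧ c * x * c⁻¹ * x⁻¹ ∈ Q) {K : Type u} [Group K] (φ : M →* K)
    (hs : Function.Surjective φ) (hk : ∀ m, φ m = 1 ↔ (m : G) ∈ Q ⊔ zpowers x)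
    (hK : Spor.IsoM22 K ∨ ∃ (F : Type) (_ : Field F) (_ : Fintype F), Fintype.card F = 9 ∧
      Nonempty (K ≃* PSU 4 F 3)) : IsOfJankoFourType G ∨ IsFi24' G := by
  have pre := h.pre
  obtain ⟨inv, i2⟩ := idx_M h hN hM
  have MH : M ≤ C1 z := fun c hc => ((hM c).1 hc).1
  have QM : Q ≤ M := fun q hq => (hM q).2 ⟨pre.le_cent hq, by
    simpa [mul_assoc] using mul_mem hq (h.fpf.cj_mem (inv_mem hq))⟩
  have NM : Q ⊔ zpowers x ≤ M := sup_le QM (zpowers_le.2 ((hM x).2 ⟨h.fpf.xH, by simp⟩))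
  have ek : φ.ker = (Q ⊔ zpowers x).subgroupOf M := by ext m; exact hk m
  rcases hK with ⟨⟨e⟩⟩ | ⟨F, _, _, hF, ⟨e⟩⟩
  · refine Or.inl (J4T.janko_of_count pre h.cardQ h.x3 h.fpf.xH h.fix hN inv ?_ (perf h))
    rw [← (M.subgroupOf (C1 z)).card_mul_index, ← relIndex, i2, card_subgroupOf_of_le MH,
      ← φ.ker.card_mul_index, index_ker, MonoidHom.range_eq_top.2 hs, card_top, ek,
      card_subgroupOf_of_le NM, card_Qx h, Nat.card_congr e.toEquiv, MP.card_M22]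
    norm_num
  right
  have := Class.Form.isSimpleGroup_PSU (q := 3) hF 4 (by norm_num) (by norm_num)
  have : IsSimpleGroup K := e.isSimpleGroup
  have hO := isPGroup_pCoreOf (p := 2) (C1 z)
  have QO : Q ≤ pCoreOf 2 (C1 z) := pre.le_pCore
  have OM : pCoreOf 2 (C1 z) ≤ M := fun c hc => (hM c).2 ⟨pCoreOf_le _ hc,
    (hN c (pCoreOf_le _ hc)).resolve_right fun e1 => x_not_two h hO (by
      have := mul_mem (inv_mem (mul_mem hc ((mem_normalizer_iff.1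
        (MSS.self_le_normalizer_pCoreOf _ h.fpf.xH) _).1 (inv_mem hc)))) (QO e1)
      rw [show (c * (x * c⁻¹ * x⁻¹))⁻¹ * (c * x * c⁻¹ * x) = x * x by group, h.fpf.sq_eq] at this
      simpa using this)⟩
  have eO : pCoreOf 2 (C1 z) = Q := by
    have : ((pCoreOf 2 (C1 z)).subgroupOf M).Normal :=
      normal_subgroupOf_of_le_normalizer (MH.trans (MSS.self_le_normalizer_pCoreOf _))
    rcases (Normal.map ‹_› φ hs).eq_bot_or_eq_top with e1 | e1
    · refine le_antisymm (fun c hc => ?_) QO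
      obtain ⟨q, hq, u, hu, e2⟩ := (mem_sup_of_le_normalizer (zpowers_le.2 h.fpf.x_norm)).1
        ((hk ⟨c, OM hc⟩).1 (mem_bot.1 (e1 ▸ mem_map_of_mem φ hc)))
      rw [zp_two h hO hu (by
        simpa [← show q * u = c from e2] using mul_mem (inv_mem (QO hq)) hc), mul_one] at e2
      exact (show q = c from e2) ▸ hq
    · obtain ⟨f, hf, fx, f5⟩ := h.exists_five
      have fM : f ∈ M := (hM f).2 ⟨h.YH hf, by rw [fx]; simp⟩
      obtain ⟨n, hn⟩ := ((hO.comap_subtype (K := M)).map φ) ⟨φ ⟨f, fM⟩, e1 ▸ mem_top _⟩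
      have := (hk _).1 (J4T.eq_one_of_pows (a := 2 ^ n) (b := 5) (Nat.Coprime.pow_left _ (by norm_num))
        (congrArg Subtype.val hn) (by
          rw [← map_pow, ← φ.map_one]
          exact congrArg φ (Subtype.ext (f5 ▸ pow_orderOf_eq_one f))))
      have := orderOf_dvd_natCard _ this
      rw [card_Qx h, f5] at this
      norm_num at this
  have nN : C1 z ≤ Ns (Q ⊔ zpowers x) := fun c hc => by
    have cx : c * x * c⁻¹ ∈ Q ⊔ zpowers x := by
      rcases hN c hc with e1 | e1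
      · simpa using mul_mem (mem_sup_left e1) (mem_sup_right (mem_zpowers x))
      · simpa using mul_mem (mem_sup_left e1) (mem_sup_right (inv_mem (mem_zpowers x)))
    refine Solv.mem_normalizer_of_conj_mem fun a ha => ?_
    obtain ⟨q, hq, _, ⟨i, rfl⟩, rfl⟩ :=
      (mem_sup_of_le_normalizer (zpowers_le.2 h.fpf.x_norm)).1 ha
    rw [show c * (q * x ^ i) * c⁻¹ = c * q * c⁻¹ * (c * x * c⁻¹) ^ i by rw [conj_zpow]; group]
    exact mul_mem (mem_sup_left (cjn pre hc hq)) (zpow_mem cx i)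
  have : (Q.subgroupOf (C1 z)).Normal := normal_subgroupOf_of_le_normalizer pre.norm
  have : ((Q ⊔ zpowers x).subgroupOf (C1 z)).Normal := normal_subgroupOf_of_le_normalizer nN
  have : (M.subgroupOf (C1 z)).Normal := normal_of_index_eq_two i2
  obtain ⟨g, g1, g2⟩ := nw
  obtain ⟨i⟩ := Agent.S1715.result z pre.ord (Q.subgroupOf _) ((Q ⊔ zpowers x).subgroupOf _)
    (M.subgroupOf _) (by
      rw [charP_iff_genFitting.1 (MSS.charP_of_normal pre.le_cent pre.norm pre.isPGroup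
        (inf_le_right.trans (pre.cent.trans pre.zpowers_le))), ← eO, MSS.pCoreOf_subgroupOf_self])
    (Solv.PG.isExtraspecial_of_mulEquiv (subgroupOfEquivOfLe pre.le_cent).symm pre.isExtraspecial)
    (by rw [card_subgroupOf_of_le pre.le_cent, h.cardQ]) (subgroupOf_mono _ le_sup_left)
    (subgroupOf_mono _ NM) (by
      rw [card_subgroupOf_of_le pre.le_cent, card_subgroupOf_of_le (NM.trans MH), card_Qx h,
        h.cardQ, mul_comm]) F hF
    ((QuotientGroup.liftEquiv _ (φ := φ.comp (subgroupOfEquivOfLe MH).toMonoidHom)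
      (hs.comp (subgroupOfEquivOfLe MH).surjective) (by
        ext m; exact (hk (subgroupOfEquivOfLe MH m)).symm)).trans e) i2
    ⟨g, ⟨pre.le_cent g2, g2⟩, g1⟩
  have := Agent.S1698.result.1
  exact ⟨i.isSimpleGroup, (Nat.card_congr i.toEquiv).trans Agent.S1698.result.2⟩

end Cfsg.Lib.R11
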