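import Cfsg.Agent.R11.ED

/-!
# The section `2⁴.3.A₆`: basic facts
-/

set_option autoImplicit false
set_option linter.unusedSectionVars false

namespace Cfsg.Lib.R11

open Subgroup Equiv Cfsg.Lib.Trans Cfsg.Lib.Local Cfsg.Lib.SporChar Cfsg.Lib.Solv Cfsg.Lib.Spor
open scoped commutatorElement

universe u

variable {X : Type u} [Group X] [Finite X] {E Y : Subgroup X} {a : X} {φ : X → Perm (Fin 6)}
  {d : Fin 6 → Fin 6 → X}

namespace EB

/-- The eight elements of `InD`. -/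
def lD : List (Perm (Fin 6)) := [1, swap 0 1 * swap 2 3, swap 0 2 * swap 1 3, swap 0 3 * swap 1 2,
  swap 0 1 * swap 4 5, swap 2 3 * swap 4 5, swap 0 1 * swap 0 2 * swap 1 3 * swap 4 5,
  swap 2 3 * swap 0 2 * swap 1 3 * swap 4 5]

theorem inD_iff : ∀ σ, InD σ ↔ σ ∈ lD := by decide +kernel

theorem lD_mul : ∀ σ ∈ lD, ∀ τ ∈ lD, σ * τ ∈ lD := by decide +kernel

theorem lD_inv : ∀ σ ∈ lD, σ⁻¹ ∈ lD := by decide +kernel

/-- The dihedral group. -/
def D8 : Subgroup (Perm (Fin 6)) where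
  carrier := {σ | InD σ}
  one_mem' := by decide
  mul_mem' := fun h1 h2 => (inD_iff _).2 (lD_mul _ ((inD_iff _).1 h1) _ ((inD_iff _).1 h2))
  inv_mem' := fun h1 => (inD_iff _).2 (lD_inv _ ((inD_iff _).1 h1))

theorem card_D8 : Nat.card D8 = 8 := by
  have : Nat.card D8 = (Finset.univ.filter InD).card :=
    (Nat.card_eq_fintype_card (α := {σ // InD σ})).trans (Fintype.card_subtype _)
  rw [this]
  decide +kernel

theorem fix_dec : ∀ σ : Perm (Fin 6), Perm.sign σ = 1 → σ ≠ 1 →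
    (Finset.univ.filter fun p : Fin 6 × Fin 6 => p.1 < p.2 ∧
      ((σ p.1 = p.1 ∧ σ p.2 = p.2) ∨ (σ p.1 = p.2 ∧ σ p.2 = p.1))).card ≤ 3 := by
  decide +kernel

theorem zp3 (h : orderOf a = 3) {c : X} (hc : c ∈ zpowers a) : c = 1 ∨ c = a ∨ c = a⁻¹ := by
  classical
  have h3 : a ^ 3 = 1 := h ▸ pow_orderOf_eq_one a
  obtain ⟨k, hk, rfl⟩ := Finset.mem_image.1 (mem_zpowers_iff_mem_range_orderOf.1 hc)
  rw [h, Finset.mem_range] at hk
  interval_cases k
  · simp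
  · simp
  · exact Or.inr (Or.inr (eq_inv_of_mul_eq_one_left (by rw [← pow_succ, h3])))

end EB

namespace Sx

open EB

theorem commE (h : Sx E Y a φ d) {e e' : X} (he : e ∈ E) (he' : e' ∈ E) : e * e' = e' * e :=
  comm_of_sq h.sqE he he'

/-- `φ` as a homomorphism. -/
def hom (h : Sx E Y a φ d) : Y →* Perm (Fin 6) :=
  MonoidHom.mk' (fun y => φ y) fun a b => h.φ_mul a a.2 b b.2

theorem hom_apply (h : Sx E Y a φ d) (y : Y) : h.hom y = φ y := rfl

theorem φ_one (h : Sx E Y a φ d) : φ 1 = 1 := map_one h.hom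

theorem φ_inv (h : Sx E Y a φ d) {y : X} (hy : y ∈ Y) : φ y⁻¹ = (φ y)⁻¹ := map_inv h.hom ⟨y, hy⟩

theorem φ_pow (h : Sx E Y a φ d) {y : X} (hy : y ∈ Y) (n : ℕ) : φ (y ^ n) = φ y ^ n :=
  map_pow h.hom ⟨y, hy⟩ n

theorem φ_E (h : Sx E Y a φ d) {e : X} (he : e ∈ E) : φ e = 1 :=
  (h.φ_ker e (h.EY he)).2 (mem_sup_left he)

theorem Y_norm (h : Sx E Y a φ d) : Y ≤ normalizer (E : Set X) := fun y hy =>
  mem_normalizer_of_conj_mem fun e he => by
    by_cases h1 : e = 1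
    · simp [h1]
    obtain ⟨i, j, hij, rfl⟩ := h.d_surj e he h1
    rw [h.d_conj y hy i j hij]
    exact h.d_mem _ _ fun e => hij ((φ y).injective e)

theorem comm_zp (h : Sx E Y a φ d) {y c : X} (hy : y ∈ Y) (hc : c ∈ zpowers a) :
    y * c = c * y := by
  obtain ⟨k, rfl⟩ := hc
  exact ((show Commute y a from h.cen y hy).zpow_right k).eq

theorem mem_ker' (h : Sx E Y a φ d) {y : X} (hy : y ∈ Y) (h1 : φ y = 1) :
    ∃ e ∈ E, ∃ c ∈ zpowers a, y = e * c := by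
  let S : Subgroup X :=
    { carrier := {y | ∃ e ∈ E, ∃ c ∈ zpowers a, y = e * c}
      one_mem' := ⟨1, one_mem _, 1, one_mem _, (mul_one _).symm⟩
      mul_mem' := by
        rintro _ _ ⟨e, he, c, hc, rfl⟩ ⟨e', he', c', hc', rfl⟩
        refine ⟨_, mul_mem he he', _, mul_mem hc hc', ?_⟩
        rw [mul_assoc, ← mul_assoc c, ← h.comm_zp (h.EY he') hc]; simp only [mul_assoc]
      inv_mem' := by
        rintro _ ⟨e, he, c, hc, rfl⟩
        exact ⟨_, inv_mem he, _, inv_mem hc, by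
          rw [mul_inv_rev, h.comm_zp (h.EY (inv_mem he)) (inv_mem hc)]⟩ }
  exact (sup_le (fun e he => ⟨e, he, 1, one_mem _, (mul_one _).symm⟩)
    (fun c hc => ⟨1, one_mem _, c, hc, (one_mul _).symm⟩) : E ⊔ zpowers a ≤ S)
    ((h.φ_ker y hy).1 h1)

theorem mem_ker (h : Sx E Y a φ d) {y : X} (hy : y ∈ Y) (h1 : φ y = 1) :
    ∃ e ∈ E, y = e ∨ y = e * a ∨ y = e * a⁻¹ := by
  obtain ⟨e, he, c, hc, rfl⟩ := h.mem_ker' hy h1
  refine ⟨e, he, ?_⟩
  rcases zp3 h.a3 hc with rfl | rfl | rfl <;> simp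

theorem cube (h : Sx E Y a φ d) {c : X} (hc : c ∈ zpowers a) : c ^ 3 = 1 :=
  orderOf_dvd_iff_pow_eq_one.1 (h.a3 ▸ orderOf_dvd_of_mem_zpowers hc)

theorem mem_E (h : Sx E Y a φ d) {y : X} (hy : y ∈ Y) (h1 : φ y = 1) {n : ℕ}
    (h2 : y ^ 2 ^ n = 1) : y ∈ E := by
  obtain ⟨e, he, c, hc, rfl⟩ := h.mem_ker' hy h1
  have cm : Commute e c := h.comm_zp (h.EY he) hc
  have h3 : c ^ (2 * 2 ^ n) = 1 := by
    have : ((e * c) ^ 2 ^ n) ^ 2 = 1 := by rw [h2, one_pow]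
    rwa [← pow_mul, mul_comm (2 ^ n), cm.mul_pow, pow_mul e, sq, h.sqE e he, one_pow,
      one_mul] at this
  have h4 : orderOf c ∣ 1 := by
    rw [← show Nat.gcd 3 (2 * 2 ^ n) = 1 from by
      rw [← pow_succ']; exact Nat.Coprime.pow_right _ (by norm_num)]
    exact Nat.dvd_gcd (orderOf_dvd_of_pow_eq_one (h.cube hc)) (orderOf_dvd_of_pow_eq_one h3)
  rw [orderOf_eq_one_iff.1 (Nat.dvd_one.1 h4), mul_one]
  exact he

theorem mem_a (h : Sx E Y a φ d) {y : X} (hy : y ∈ Y) (h1 : φ y = 1) (ho : Odd (orderOf y)) :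
    y ∈ zpowers a := by
  obtain ⟨e, he, c, hc, rfl⟩ := h.mem_ker' hy h1
  have cm : Commute e c := h.comm_zp (h.EY he) hc
  obtain ⟨k, hk⟩ := ho
  have := pow_orderOf_eq_one (e * c)
  rw [hk, cm.mul_pow, pow_succ e, pow_mul e, sq, h.sqE e he, one_pow, one_mul] at this
  exact mul_mem (eq_inv_of_mul_eq_one_left this ▸ inv_mem (pow_mem hc _)) hc

theorem cent_ker (h : Sx E Y a φ d) {y : X} (hy : y ∈ Y) (h1 : φ y = 1) {e : X} (he : e ∈ E) :
    y * e = e * y := by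
  obtain ⟨e', he', c, hc, rfl⟩ := h.mem_ker' hy h1
  rw [mul_assoc, ← h.comm_zp (h.EY he) hc, ← mul_assoc, h.commE he' he, mul_assoc]

theorem trans (h : Sx E Y a φ d) {e e' : X} (he : e ∈ E) (he' : e' ∈ E) (h1 : e ≠ 1) (h2 : e' ≠ 1) :
    ∃ y ∈ Y, y * e * y⁻¹ = e' := by
  obtain ⟨i, j, hij, rfl⟩ := h.d_surj e he h1
  obtain ⟨k, l, hkl, rfl⟩ := h.d_surj e' he' h2
  have h3 := (by decide +kernel : ∀ i j k l : Fin 6, i ≠ j → k ≠ l →
    (swap (swap i k j) l * swap i k) i = k ∧ (swap (swap i k j) l * swap i k) j = l) i j k l hij hkl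
  generalize swap (swap i k j) l * swap i k = τ at h3
  rcases Int.units_eq_one_or (Perm.sign τ) with e | e
  · obtain ⟨y, hy, e⟩ := h.φ_surj τ e
    exact ⟨y, hy, by rw [h.d_conj y hy i j hij, e, h3.1, h3.2]⟩
  · obtain ⟨y, hy, e⟩ := h.φ_surj (swap k l * τ) (by rw [map_mul, Perm.sign_swap hkl, e]; simp)
    exact ⟨y, hy, by
      rw [h.d_conj y hy i j hij, e, Perm.mul_apply, Perm.mul_apply, h3.1, h3.2, swap_apply_left,
        swap_apply_right, h.d_symm]⟩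

theorem fix (h : Sx E Y a φ d) {y : X} (hy : y ∈ Y) (h1 : φ y ≠ 1) :
    Nat.card ↥(E ⊓ centralizer ({y} : Set X)) ≤ 4 := by
  classical
  have h2 := fix_dec _ (h.φ_even y hy) h1
  generalize hs : (Finset.univ.filter fun p : Fin 6 × Fin 6 => p.1 < p.2 ∧
      ((φ y p.1 = p.1 ∧ φ y p.2 = p.2) ∨ (φ y p.1 = p.2 ∧ φ y p.2 = p.1))) = s at h2
  have h3 : ((E ⊓ centralizer ({y} : Set X) : Subgroup X) : Set X) ⊆
      ↑(insert 1 (s.image fun p => d p.1 p.2)) := by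
    rintro e ⟨he, hc⟩
    by_cases e1 : e = 1
    · simp [e1]
    obtain ⟨i, j, hij, rfl⟩ := h.d_surj e he e1
    have h4 := h.d_inj _ _ _ _ (fun e => hij ((φ y).injective e)) hij
      ((h.d_conj y hy i j hij).symm.trans (by
        rw [← mem_centralizer_singleton_iff.1 hc, mul_inv_cancel_right]))
    refine Finset.mem_coe.2 (Finset.mem_insert_of_mem (Finset.mem_image.2 ?_))
    rcases lt_or_gt_of_ne hij with l | l
    · exact ⟨(i, j), hs ▸ Finset.mem_filter.2 ⟨Finset.mem_univ _, l, h4⟩, rfl⟩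
    · exact ⟨(j, i), hs ▸ Finset.mem_filter.2 ⟨Finset.mem_univ _, l,
        h4.imp And.symm And.symm⟩, h.d_symm _ _⟩
  have h5 := Set.ncard_le_ncard h3
  rw [Set.ncard_coe_finset] at h5
  have h6 := Finset.card_insert_le (1 : X) (s.image fun p => d p.1 p.2)
  have h7 := Finset.card_image_le (s := s) (f := fun p => d p.1 p.2)
  change ((E ⊓ centralizer ({y} : Set X) : Subgroup X) : Set X).ncard ≤ 4
  omega

theorem ker_le (h : Sx E Y a φ d) : E ⊔ zpowers a ≤ Y := sup_le h.EY (zpowers_le.2 h.aY)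

theorem card_ker (h : Sx E Y a φ d) : Nat.card h.hom.ker = 48 := by
  have e : h.hom.ker = (E ⊔ zpowers a).subgroupOf Y := by
    ext y; exact h.φ_ker y y.2
  rw [e, card_subgroupOf_of_le h.ker_le, card_sup_of_disjoint_of_le_normalizer
    (zpowers_le.2 (h.Y_norm h.aY))
    (inf_eq_bot_of_coprime_card (by rw [h.cardE, Nat.card_zpowers, h.a3]; norm_num)),
    h.cardE, Nat.card_zpowers, h.a3]

theorem range_eq (h : Sx E Y a φ d) : h.hom.range = alternatingGroup (Fin 6) := by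
  ext σ
  exact ⟨fun ⟨y, e⟩ => e ▸ h.φ_even y y.2, fun e => by
    obtain ⟨y, hy, e⟩ := h.φ_surj σ e
    exact ⟨⟨y, hy⟩, e⟩⟩

theorem cardY (h : Sx E Y a φ d) : Nat.card Y = 17280 := by
  rw [← h.hom.ker.card_mul_index, index_ker, h.range_eq, h.card_ker, nat_card_alternatingGroup]
  simp [Nat.factorial]

theorem fifteen (h : Sx E Y a φ d) : ∃ g : X, orderOf g = 15 := by
  have : Fact (Nat.Prime 5) := ⟨by norm_num⟩
  obtain ⟨f, hf⟩ := exists_prime_orderOf_dvd_card' (G := Y) 5 (by rw [h.cardY]; norm_num)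
  have h5 : orderOf (f : X) = 5 := by rw [Subgroup.orderOf_coe, hf]
  refine ⟨f * a, ?_⟩
  rw [(show Commute (f : X) a from h.cen f f.2).orderOf_mul_eq_mul_orderOf_of_coprime
    (by rw [h5, h.a3]; norm_num), h5, h.a3]

theorem isPGroupE (h : Sx E Y a φ d) : IsPGroup 2 E :=
  IsPGroup.of_card (n := 4) h.cardE

theorem sylow (h : Sx E Y a φ d) : ∃ T : Subgroup X, IsSylowIn 2 T ⊤ ∧ E ≤ T ∧ T ≤ Y ∧
    Nat.card T = 128 ∧ (∀ t ∈ T, InD (φ t)) ∧ ∀ σ, InD σ → ∃ t ∈ T, φ t = σ := by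
  let P : Subgroup X := (D8.comap h.hom).map Y.subtype
  have PY : P ≤ Y := map_subtype_le _
  have mP : ∀ y (hy : y ∈ Y), y ∈ P ↔ InD (φ y) := fun y hy =>
    mem_map_iff_mem (f := Y.subtype) (x := ⟨y, hy⟩) Y.subtype_injective
  have DR : D8 ≤ h.hom.range := h.range_eq ▸ fun σ hσ => hσ.1
  have cP : Nat.card P = 384 := by
    rw [card_map_of_injective Y.subtype_injective]
    have h1 := (D8.comap h.hom).card_mul_index
    have h2 := card_mul_relIndex DR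
    rw [index_comap, h.cardY] at h1
    rw [card_D8, h.range_eq, nat_card_alternatingGroup] at h2
    rw [h.range_eq] at h1
    simp only [Nat.card_eq_fintype_card, Fintype.card_fin, Nat.factorial] at h2
    have h3 : D8.relIndex (alternatingGroup (Fin 6)) = 45 := by omega
    rw [h3] at h1
    omega
  have EP : E ≤ P := fun e he => (mP e (h.EY he)).2 (by rw [h.φ_E he]; decide)
  obtain ⟨T, hT, ET⟩ := exists_isSylowIn_ge h.isPGroupE EP
  have TY := hT.le.trans PY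
  have cT : Nat.card T = 128 := by rw [hT.card_eq, cP]; decide +kernel
  have h1 : ∀ t ∈ T, InD (φ t) := fun t ht => (mP t (TY ht)).1 (hT.le ht)
  refine ⟨T, ?_, ET, TY, cT, h1, ?_⟩
  · refine IsSylowIn.trans (K := Y) (hT.trans PY ?_) le_top ?_
    · have := card_mul_relIndex PY
      rw [cP, h.cardY] at this
      omega
    · rw [relIndex_top_right]
      exact h.odd.not_two_dvd_nat
  · let ψ : T →* Perm (Fin 6) := h.hom.comp (inclusion TY)
    have k : ψ.ker = E.subgroupOf T := by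
      ext t
      obtain ⟨n, hn⟩ := hT.isPGroup t
      exact ⟨fun e => h.mem_E (TY t.2) e (n := n) (congrArg Subtype.val hn), fun e => h.φ_E e⟩
    have h2 := ψ.ker.card_mul_index
    rw [index_ker, k, card_subgroupOf_of_le ET, h.cardE, cT] at h2
    have h3 : ψ.range = D8 := eq_of_le_of_card_ge (fun _ ⟨t, e⟩ => e ▸ h1 t t.2) (by
      rw [card_D8]; omega)
    intro σ hσ
    obtain ⟨t, e⟩ := (h3.ge (show σ ∈ D8 from hσ) : σ ∈ ψ.range)
    exact ⟨t, t.2, e⟩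

/-- a normal subgroup of `A₆` -/
theorem img (h : Sx E Y a φ d) {N : Subgroup X} (hN : Y ≤ normalizer (N : Set X)) :
    (∀ n ∈ N, n ∈ Y → φ n = 1) ∨ ∀ σ, Perm.sign σ = 1 → ∃ n ∈ N, n ∈ Y ∧ φ n = σ := by
  let ψ : Y →* alternatingGroup (Fin 6) := h.hom.codRestrict _ fun y => h.φ_even y y.2
  have hs : Function.Surjective ψ := fun σ => by
    obtain ⟨y, hy, e⟩ := h.φ_surj σ σ.2
    exact ⟨⟨y, hy⟩, Subtype.ext e⟩
  have : (N.subgroupOf Y).Normal := (normal_subgroupOf_iff_le_normalizer_inf).2 (by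
    intro y hy
    exact mem_normalizer_of_conj_mem fun n hn => ⟨(mem_normalizer_iff.1 (hN hy) n).1 hn.1,
      mul_mem (mul_mem hy hn.2) (Y.inv_mem hy)⟩)
  have : IsSimpleGroup (alternatingGroup (Fin 6)) := alternatingGroup.isSimpleGroup (by simp)
  rcases (this.eq_bot_or_eq_top_of_normal _ (Normal.map ‹_› ψ hs)) with e | e
  · exact Or.inl fun n hn hy => congrArg Subtype.val
      (mem_bot.1 (e.le (mem_map_of_mem ψ (show (⟨n, hy⟩ : Y) ∈ N.subgroupOf Y from hn))))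
  · refine Or.inr fun σ hσ => ?_
    obtain ⟨n, hn, e⟩ := e.ge (mem_top ⟨σ, hσ⟩)
    exact ⟨n, hn, n.2, congrArg Subtype.val e⟩

end Sx

end Cfsg.Lib.R11
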