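import Cfsg.Agent.R11.EB

/-! # Centralizers of 2-central involutions in quotients of the section -/

set_option autoImplicit false
set_option linter.unusedSectionVars false

namespace Cfsg.Lib.R11

open Subgroup Equiv Cfsg.Lib.Trans

universe u

variable {X : Type u} [Group X] [Finite X] {E Y : Subgroup X} {a : X} {φ : X → Perm (Fin 6)}
  {d : Fin 6 → Fin 6 → X}

theorem EC.two_three {a k : X} (h3 : orderOf a = 3) (hk : k ∈ zpowers a) {n : ℕ}
    (h2 : k ^ 2 ^ n = 1) : k = 1 := by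
  have h1 : orderOf k ∣ 3 := h3 ▸ orderOf_dvd_of_mem_zpowers hk
  have h4 : orderOf k ∣ 2 ^ n := orderOf_dvd_of_pow_eq_one h2
  exact orderOf_eq_one_iff.1 (Nat.eq_one_of_dvd_coprimes
    (Nat.Coprime.pow_right n (by decide : Nat.Coprime 3 2)) h1 h4)

theorem Sx.cen2 (h : Sx E Y a φ d) {K : Type u} [Group K] [Finite K] (π : X →* K)
    (hs : Function.Surjective π) (hk : π.ker ≤ zpowers a) (t : K) (ht : IsTwoCentralInvolution t) :
    Group.IsSolvable (centralizer ({t} : Set K)) := by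
  obtain ⟨T, hT, hE, hY, -⟩ := h.sylow
  obtain ⟨t2, P, tP, hc⟩ := ht
  have hT' := hT.map π
  rw [← MonoidHom.range_eq_map, π.range_eq_top_of_surjective hs] at hT'
  obtain ⟨g, -, hg⟩ := hT'.exists_cj_eq (isSylowIn_top P)
  obtain ⟨s, sT, hs'⟩ : g * t * g⁻¹ ∈ T.map π := hg ▸ conj_mem_cj.2 tP
  have h1 : ∀ e ∈ T, e * s = s * e := fun e he => by
    have h2 : π e ∈ cj g (P : Subgroup K) := hg ▸ mem_map_of_mem π he
    have h3 := hc _ (mem_cj.1 h2)
    have h4 : e * s * e⁻¹ * s⁻¹ ∈ π.ker := by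
      rw [MonoidHom.mem_ker, map_mul, map_mul, map_mul, map_inv, map_inv, hs']
      calc _ = g * ((g⁻¹ * π e * g * t) * (t * (g⁻¹ * π e * g))⁻¹) * g⁻¹ := by group
        _ = 1 := by rw [h3]; group
    obtain ⟨n, hn⟩ := hT.isPGroup ⟨_, mul_mem (mul_mem (mul_mem he sT) (inv_mem he)) (inv_mem sT)⟩
    have h5 := EC.two_three h.a3 (hk h4) (congrArg Subtype.val hn)
    calc _ = e * s * e⁻¹ * s⁻¹ * (s * e) := by group
      _ = _ := by rw [h5, one_mul]
  have h6 : φ s = 1 := by
    by_contra h7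
    have h8 := h.fix (hY sT) h7
    rw [inf_eq_left.2 (show E ≤ centralizer {s} from fun e he =>
      mem_centralizer_singleton_iff.2 (h1 e (hE he))), h.cardE] at h8
    omega
  obtain ⟨n, hn⟩ := hT.isPGroup ⟨s, sT⟩
  have sE := h.mem_E (hY sT) h6 (congrArg Subtype.val hn)
  have s1 : s ≠ 1 := by
    rintro rfl
    rw [map_one, eq_comm, mul_inv_eq_one, mul_eq_left] at hs'
    rw [hs', orderOf_one] at t2
    omega
  have := h.sol s sE s1
  have h9 : cj g (centralizer {t}) ≤ (centralizer {s}).map π := fun c hc' => by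
    obtain ⟨x, rfl⟩ := hs c
    have h3 := mem_centralizer_singleton_iff.1 (mem_cj.1 hc')
    have h4 : x * s * x⁻¹ * s⁻¹ ∈ π.ker := by
      rw [MonoidHom.mem_ker, map_mul, map_mul, map_mul, map_inv, map_inv, hs']
      calc _ = g * ((g⁻¹ * π x * g * t) * (t * (g⁻¹ * π x * g))⁻¹) * g⁻¹ := by group
        _ = 1 := by rw [h3]; group
    obtain ⟨m, hm⟩ := hk h4
    have hm : a ^ m = x * s * x⁻¹ * s⁻¹ := hm
    have h5 : Commute s (x * s * x⁻¹ * s⁻¹) := hm ▸ Commute.zpow_right (h.cen s (hY sT)) m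
    have s2 := h.sqE s sE
    have h7 := EC.two_three h.a3 (hk h4) (n := 1) (by
      rw [pow_one, pow_two]
      calc _ = (x * s * x⁻¹ * s⁻¹) * (s * (x * s * x⁻¹ * s⁻¹)) * s * (s * s)⁻¹ := by
            rw [h5.eq]; group
        _ = x * (s * s) * x⁻¹ * (s * s)⁻¹ := by group
        _ = 1 := by rw [s2]; group)
    refine mem_map_of_mem π (mem_centralizer_singleton_iff.2 ?_)
    calc _ = x * s * x⁻¹ * s⁻¹ * (s * x) := by group
      _ = _ := by rw [h7, one_mul]
  have := Group.isSolvable_of_surjective (π.subgroupMap_surjective (centralizer {s}))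
  have := Group.isSolvable_of_isSolvable_injective (inclusion_injective h9)
  exact Group.isSolvable_of_isSolvable_injective
    (f := (cjEquiv g (centralizer {t})).toMonoidHom) (cjEquiv g _).injective

end Cfsg.Lib.R11
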