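import Cfsg.Agent.SporChar.HexM24
import Cfsg.Agent.Gold.Defs
import Cfsg.Agent.Trans.SylowIn
import Cfsg.Prelude.Def_Classical
import Cfsg.Prelude.Def_LieChev
import Cfsg.Prelude.Def_SporadicB
import Cfsg.Prelude.Def_Spor_Mathieu

/-!
# The section `2⁴.3.A₆` of an involution centralizer modulo `2^(1+12)`: definitions
-/

set_option autoImplicit false

namespace Cfsg.Lib.R11

open Subgroup Equiv

/-- `Y = (E × ⟨a⟩).A₆` is the normalizer of `E = 2⁴` and has odd index; the involutions of `E`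
are the duads `d i j`. -/
structure Sx {X : Type*} [Group X] (E Y : Subgroup X) (a : X) (φ : X → Perm (Fin 6))
    (d : Fin 6 → Fin 6 → X) : Prop where
  a3 : orderOf a = 3
  aY : a ∈ Y
  EY : E ≤ Y
  cardE : Nat.card E = 16
  sqE : ∀ e ∈ E, e * e = 1
  cen : ∀ y ∈ Y, y * a = a * y
  φ_mul : ∀ y ∈ Y, ∀ y' ∈ Y, φ (y * y') = φ y * φ y'
  φ_even : ∀ y ∈ Y, Perm.sign (φ y) = 1
  φ_surj : ∀ σ, Perm.sign σ = 1 → ∃ y ∈ Y, φ y = σ
  φ_ker : ∀ y ∈ Y, φ y = 1 ↔ y ∈ E ⊔ zpowers a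
  d_mem : ∀ i j, i ≠ j → d i j ∈ E
  d_ne : ∀ i j, i ≠ j → d i j ≠ 1
  d_symm : ∀ i j, d i j = d j i
  d_inj : ∀ i j k l, i ≠ j → k ≠ l → d i j = d k l → (i = k ∧ j = l) ∨ (i = l ∧ j = k)
  d_surj : ∀ e ∈ E, e ≠ 1 → ∃ i j, i ≠ j ∧ d i j = e
  d_conj : ∀ y ∈ Y, ∀ i j, i ≠ j → y * d i j * y⁻¹ = d (φ y i) (φ y j)
  norm : normalizer (E : Set X) ≤ Y
  odd : Odd Y.index
  four : ∀ e ∈ E, ∀ e' ∈ E, e ≠ 1 → e' ≠ 1 → e ≠ e' → ∀ g, g * e = e * g → g * e' = e' * g → g ∈ Y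
  comm : ∃ R ≤ Y, IsPGroup 3 R ∧ a ∈ ⁅R, R⁆
  sol : ∀ e ∈ E, e ≠ 1 → Group.IsSolvable (centralizer ({e} : Set X))
  n13 : ¬ 13 ∣ Nat.card X

/-- The stabiliser in `A₆` of the pair of duads `01|23` (dihedral of order eight). -/
def InD (σ : Perm (Fin 6)) : Prop :=
  Perm.sign σ = 1 ∧ (σ 0).val / 2 = (σ 1).val / 2 ∧ (σ 2).val / 2 = (σ 3).val / 2 ∧
    (σ 4).val / 2 = 2

instance (σ : Perm (Fin 6)) : Decidable (InD σ) := inferInstanceAs (Decidable (_ ∧ _))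

/-- `K` is `M₂₂` or `U₄(3)`. -/
def MU (K : Type*) [Group K] : Prop :=
  Spor.IsoM22 K ∨ ∃ (F : Type) (_ : Field F) (_ : Fintype F),
    Fintype.card F = 9 ∧ Nonempty (K ≃* PSU 4 F 3)

/-- The list of groups of sectional rank four with a nonsolvable constrained 2-local. -/
def Lst (G : Type*) [Group G] : Prop :=
  (∃ (F : Type) (_ : Field F) (_ : Fintype F), Fintype.card F = 3 ∧
      (Nonempty (G ≃* Matrix.ProjectiveSpecialLinearGroup (Fin 4) F) ∨ Nonempty (G ≃* PSp 2 F) ∨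
        Nonempty (G ≃* ↥(Lie.chevG2.group F)))) ∨
    (∃ (F : Type) (_ : Field F) (_ : Fintype F), Fintype.card F = 9 ∧ Nonempty (G ≃* PSU 4 F 3)) ∨
    (∃ (F : Type) (_ : Field F) (_ : Fintype F), Fintype.card F = 4 ∧
      Nonempty (G ≃* Matrix.ProjectiveSpecialLinearGroup (Fin 3) F)) ∨
    (∃ n : ℕ, 8 ≤ n ∧ n ≤ 11 ∧ Nonempty (G ≃* ↥(alternatingGroup (Fin n)))) ∨ Spor.IsoM22 G

theorem InD_eq_1' : type_of% @InD.eq_1 := @InD.eq_1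
theorem MU_eq_1' : type_of% @MU.eq_1 := @MU.eq_1
theorem Lst_eq_1' : type_of% @Lst.eq_1 := @Lst.eq_1

end Cfsg.Lib.R11
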