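import Cfsg.Agent.R11.ED
import Cfsg.Agent.SporChar.HexJ

/-!
# The normalizer of `W = C_Q(B)` in the involution centralizer
-/

set_option autoImplicit false

namespace Cfsg.Lib.R11

open Subgroup Equiv Cfsg.Lib.Trans Cfsg.Lib.Local Cfsg.Lib.SporChar
open scoped commutatorElement Pointwise

universe u

variable {G : Type u} [Group G]

theorem ew_conj_zp {z c u : G} (hc : c ∈ centralizer ({z} : Set G)) (hu : u ∈ zpowers z) :
    c * u * c⁻¹ = u := by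
  obtain ⟨n, rfl⟩ := hu
  have : Commute c z := mem_centralizer_singleton_iff.mp hc
  simp only
  rw [(this.zpow_right n).eq, mul_inv_cancel_right]

theorem ew_conj_mem {W : Subgroup G} {c w : G} (hn : c ∈ normalizer (W : Set G)) (hw : w ∈ W) :
    c * w * c⁻¹ ∈ W := (mem_normalizer_iff.mp hn w).mp hw

theorem ew_exists (z : G) (W : Subgroup G) : ∃ C : Subgroup G, ∀ c, c ∈ C ↔
    c ∈ centralizer ({z} : Set G) ∧ c ∈ normalizer (W : Set G) ∧
      ∀ w ∈ W, c * w * c⁻¹ * w⁻¹ ∈ zpowers z := by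
  refine ⟨{ carrier := {c | c ∈ centralizer ({z} : Set G) ∧ c ∈ normalizer (W : Set G) ∧
      ∀ w ∈ W, c * w * c⁻¹ * w⁻¹ ∈ zpowers z}
            mul_mem' := ?_, one_mem' := ?_, inv_mem' := ?_ }, fun _ => Iff.rfl⟩
  · rintro c d ⟨h1, h2, h3⟩ ⟨k1, k2, k3⟩
    refine ⟨mul_mem h1 k1, mul_mem h2 k2, fun w hw => ?_⟩
    have e : c * d * w * (c * d)⁻¹ * w⁻¹ =
        c * (d * w * d⁻¹ * w⁻¹) * c⁻¹ * (c * w * c⁻¹ * w⁻¹) := by group
    rw [e, ew_conj_zp h1 (k3 w hw)]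
    exact mul_mem (k3 w hw) (h3 w hw)
  · exact ⟨one_mem _, one_mem _, fun w _ => by simp⟩
  · rintro c ⟨h1, h2, h3⟩
    refine ⟨inv_mem h1, inv_mem h2, fun w hw => ?_⟩
    have := inv_mem (h3 _ (ew_conj_mem (inv_mem h2) hw))
    have e : c⁻¹ * w * c⁻¹⁻¹ * w⁻¹ =
        (c * (c⁻¹ * w * c⁻¹⁻¹) * c⁻¹ * (c⁻¹ * w * c⁻¹⁻¹)⁻¹)⁻¹ := by group
    rwa [e]

theorem ew_norm {z : G} {W C : Subgroup G} (hC : ∀ c, c ∈ C ↔
    c ∈ centralizer ({z} : Set G) ∧ c ∈ normalizer (W : Set G) ∧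
      ∀ w ∈ W, c * w * c⁻¹ * w⁻¹ ∈ zpowers z) {n : G} (h1 : n ∈ centralizer ({z} : Set G))
    (h2 : n ∈ normalizer (W : Set G)) : n ∈ normalizer (C : Set G) := by
  have key : ∀ n ∈ centralizer ({z} : Set G), n ∈ normalizer (W : Set G) → ∀ c ∈ C,
      n * c * n⁻¹ ∈ C := by
    intro n h1 h2 c hc
    obtain ⟨k1, k2, k3⟩ := (hC c).mp hc
    refine (hC _).mpr ⟨mul_mem (mul_mem h1 k1) (inv_mem h1), mul_mem (mul_mem h2 k2) (inv_mem h2),
      fun w hw => ?_⟩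
    have h3 := k3 _ (ew_conj_mem (inv_mem h2) hw)
    have e : n * c * n⁻¹ * w * (n * c * n⁻¹)⁻¹ * w⁻¹ =
        n * (c * (n⁻¹ * w * n⁻¹⁻¹) * c⁻¹ * (n⁻¹ * w * n⁻¹⁻¹)⁻¹) * n⁻¹ := by group
    rw [e, ew_conj_zp h1 h3]
    exact h3
  refine mem_normalizer_iff.mpr fun c => ⟨key n h1 h2 c, fun hc => ?_⟩
  have := key n⁻¹ (inv_mem h1) (inv_mem h2) _ hc
  have e : n⁻¹ * (n * c * n⁻¹) * n⁻¹⁻¹ = c := by group
  rwa [e] at this

variable [Finite G] {z x : G} {Q B Y : Subgroup G} {hx : G → Perm (Fin 6)}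

theorem ew_eight (h : Hex z x Q B Y hx) {c : G} (hc : c ∈ centralizer ({z} : Set G))
    (h3 : ∀ w ∈ hexW Q B, c * w * c⁻¹ * w⁻¹ ∈ zpowers z) :
    c * c * (c * c) * (c * c * (c * c)) = 1 := by
  have h1 : ∀ w ∈ hexW Q B, c * c * w = w * (c * c) := by
    intro w hw
    have hu := h3 w hw
    have e : c * c * w = c * (c * w * c⁻¹ * w⁻¹) * c⁻¹ * (c * w * c⁻¹ * w⁻¹) * (w * (c * c)) := by
      group
    rw [e, ew_conj_zp hc hu, h.pre.mul_self_of_mem hu, one_mul]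
  have h2 : c * c * (c * c) ∈ centralizer (Q : Set G) := by
    intro q hq
    have hu := h.comm_mem_W (mul_mem hc hc) h1 hq
    have e : c * c * (c * c) * q =
        c * c * ⁅c * c, q⁆ * (c * c)⁻¹ * ⁅c * c, q⁆ * (q * (c * c * (c * c))) := by
      rw [commutatorElement_def]; group
    rw [e, h1 _ hu, mul_inv_cancel_right, h.sqW hu, one_mul]
  exact h.pre.mul_self_of_mem (h.pre.cent h2)

theorem hex_normW (h : Hex z x Q B Y hx) {c : G} (hc : c ∈ centralizer ({z} : Set G))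
    (hn : c ∈ normalizer (hexW Q B : Set G)) : c ∈ Y := by
  obtain ⟨C, hC⟩ := ew_exists z (hexW Q B)
  have QBY : Q ⊔ B ≤ Y := sup_le h.QY h.BY
  have h8 : ∀ a ∈ C, a * a * (a * a) * (a * a * (a * a)) = 1 := fun a ha =>
    ew_eight h ((hC a).mp ha).1 ((hC a).mp ha).2.2
  have p2 : IsPGroup 2 C := fun a => ⟨3, Subtype.ext (by
    rw [← show a.1 * a.1 * (a.1 * a.1) * (a.1 * a.1 * (a.1 * a.1)) = ((1 : C) : G) from h8 a a.2,
      SubmonoidClass.coe_pow]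
    simp only [show 2 ^ 3 = 8 by norm_num, pow_succ, pow_zero]
    group)⟩
  have CY : C ≤ Y := by
    obtain ⟨T, hT⟩ := h.sylow
    have hTC : (T : Subgroup G) ≤ normalizer (C : Set G) := fun t ht =>
      ew_norm hC (h.YH (hT ht)) (h.Y_normW (hT ht))
    have := T.is_maximal' (IsPGroup.to_sup_of_normal_left' p2 T.isPGroup' hTC) le_sup_right
    exact (le_sup_left.trans this.le).trans hT
  have hx1 : ∀ a ∈ C, hx a = 1 := by
    intro a ha
    obtain ⟨φ, L, o⟩ := h.exists_oval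
    have key : ∀ a ∈ C, ∀ i, ∀ w ∈ L i, a * w * a⁻¹ ∈ L i := by
      intro a ha i w hw
      have hu := ((hC a).mp ha).2.2 w ((o.xinv i).le hw)
      have := mul_mem (zpowers_le.mpr (o.xinv i).mem hu) hw
      rwa [inv_mul_cancel_right] at this
    refine φ.injective (Equiv.ext fun i => o.inj ?_)
    rw [← o.act a (CY ha) i, map_one, Perm.one_apply]
    ext w
    rw [mem_pointwise_smul_iff_inv_smul_mem, ← map_inv, MulAut.smul_def, MulAut.conj_apply]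
    refine ⟨fun hw => ?_, key _ (inv_mem ha) i w⟩
    have := key a ha i _ hw
    have e : a * (a⁻¹ * w * a⁻¹⁻¹) * a⁻¹ = w := by group
    rwa [e] at this
  have e : C = Q ⊔ B := by
    refine le_antisymm (fun a ha => ?_) fun a ha =>
      (hC a).mpr ⟨h.YH (QBY ha), h.Y_normW (QBY ha), fun w hw => h.conj_QB ha hw⟩
    have step : ∀ a ∈ C, a * a ∈ Q ⊔ B → a ∈ Q ⊔ B := fun a ha =>
      h.mem_QB_of_sq (CY ha) (hx1 a ha)
    refine step a ha (step _ (mul_mem ha ha) (step _ (mul_mem (mul_mem ha ha) (mul_mem ha ha)) ?_))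
    rw [h8 a ha]
    exact one_mem _
  exact h.norm c hc (e ▸ ew_norm hC hc hn)

end Cfsg.Lib.R11
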