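import Cfsg.Agent.R11.EM
import Cfsg.Agent.R11.EW

/-! Elements fixing a four-group of `B / ⟨z⟩` modulo `Q`. -/

set_option autoImplicit false

namespace Cfsg.Lib.R11

open Subgroup Equiv Cfsg.Lib.Trans Cfsg.Lib.Local Cfsg.Lib.SporChar

universe u

variable {G : Type u} [Group G] [Finite G] {z x : G} {Q B Y : Subgroup G} {hx : G → Perm (Fin 6)}

theorem hex_four (h : Hex z x Q B Y hx) {b b' c : G} (hb : b ∈ B) (hb' : b' ∈ B)
    (h1 : b ∉ zpowers z) (h2 : b' ∉ zpowers z) (h3 : b * b' ∉ zpowers z)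
    (hc : c ∈ centralizer ({z} : Set G)) (e1 : c * b * c⁻¹ * b⁻¹ ∈ Q) (e2 : c * b' * c⁻¹ * b'⁻¹ ∈ Q) :
    c ∈ Y := hex_normW h hc (EM.norm h hb hb' h1 h2 h3 hc e1 e2)

end Cfsg.Lib.R11
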