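import Cfsg.Agent.R11.ED
import Cfsg.Agent.TIW.Count

/-! No element of order thirteen centralises `z`. -/

set_option autoImplicit false

namespace Cfsg.Lib.R11

open Subgroup Equiv Cfsg.Lib.Trans Cfsg.Lib.Local Cfsg.Lib.SporChar

universe u

variable {G : Type u} [Group G] [Finite G] {z x : G} {Q B Y : Subgroup G} {hx : G → Perm (Fin 6)}

theorem EI.cnt (h : Hex z x Q B Y hx) : ((Q : Set G) ∩ {q | q * q = 1}).ncard = 4160 := by
  have s := h.pre.toSympPair
  let u : G → G := fun q => Classical.epsilon fun u => u ∈ hexW Q B ∧ u * q ≠ q * u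
  have hu : ∀ q ∈ (Q : Set G) \ hexW Q B, u q ∈ hexW Q B ∧ u q * q ≠ q * u q := fun q hq =>
    Classical.epsilon_spec (p := fun u => u ∈ hexW Q B ∧ u * q ≠ q * u) (by
      by_contra c
      exact hq.2 (h.mem_W_of_comm hq.1 fun w hw => by_contra fun k => c ⟨w, hw, k⟩))
  have uu : ∀ q w, w ∈ hexW Q B → u (q * w) = u q := fun q w hw =>
    congrArg Classical.epsilon (funext fun v => propext (and_congr_right fun hv => not_congr (by
      rw [mul_assoc q w v, h.Wcomm hw hv, ← mul_assoc, ← mul_assoc, mul_left_inj])))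
  have sq : ∀ q ∈ (Q : Set G) \ hexW Q B, q * u q * (q * u q) = q * q * z := fun q hq => by
    have a := (s.comm_or (Hex.W_le (hu q hq).1) hq.1).resolve_left (hu q hq).2
    rw [inv_eq_of_mul_eq_one_right (h.sqW (hu q hq).1)] at a
    rw [mul_assoc, ← mul_assoc (u q), a, ← s.central q hq.1, mul_assoc]
  have iv : ∀ q ∈ (Q : Set G) \ hexW Q B, q * u q * u (q * u q) = q := fun q hq => by
    rw [uu _ _ (hu q hq).1, mul_assoc, h.sqW (hu q hq).1, mul_one]
  have mm : ∀ q ∈ (Q : Set G) \ hexW Q B, q * u q ∈ (Q : Set G) \ hexW Q B := fun q hq =>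
    ⟨mul_mem hq.1 (Hex.W_le (hu q hq).1), fun k => hq.2 ((mul_mem_cancel_right (hu q hq).1).1 k)⟩
  have b : Set.BijOn (fun q => q * u q) (((Q : Set G) \ hexW Q B) ∩ {q | q * q = 1})
      (((Q : Set G) \ hexW Q B) \ {q | q * q = 1}) :=
    Set.InvOn.bijOn (f' := fun q => q * u q) ⟨fun q hq => iv q hq.1, fun q hq => iv q hq.1⟩
      (fun q hq => ⟨mm q hq.1, fun k => s.ne_one (by
        have := (sq q hq.1).symm.trans k
        rwa [show q * q = 1 from hq.2, one_mul] at this)⟩)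
      fun q hq => ⟨mm q hq.1, (sq q hq.1).trans (by
        rw [(s.mem_iff.1 (s.sq_mem q hq.1.1)).resolve_left hq.2, s.mul_self])⟩
  have e1 := b.injOn.ncard_image
  rw [b.image_eq] at e1
  have e2 := Set.ncard_inter_add_ncard_sdiff_eq_ncard ((Q : Set G) \ hexW Q B) {q | q * q = 1}
  have e3 := Set.ncard_inter_add_ncard_sdiff_eq_ncard (Q : Set G) (hexW Q B)
  have e4 := Set.ncard_inter_add_ncard_sdiff_eq_ncard ((Q : Set G) ∩ {q | q * q = 1}) (hexW Q B)
  have cQ : (Q : Set G).ncard = 2 ^ 13 := (Nat.card_coe_set_eq _).symm.trans h.cardQ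
  have cW : (hexW Q B : Set G).ncard = 128 := (Nat.card_coe_set_eq _).symm.trans h.cardW
  rw [Set.inter_eq_self_of_subset_right (s := (Q : Set G)) (t := hexW Q B) Hex.W_le, cQ, cW] at e3
  rw [Set.inter_eq_self_of_subset_right (s := (Q : Set G) ∩ {q | q * q = 1}) (t := hexW Q B)
    fun w hw => ⟨Hex.W_le hw, h.sqW hw⟩, cW, Set.inter_comm (Q : Set G), Set.inter_sdiff_assoc,
    Set.inter_comm {q : G | q * q = 1}] at e4
  rw [Set.inter_comm]
  omega

theorem hex_n13 (h : Hex z x Q B Y hx) : ¬ 13 ∣ Nat.card (centralizer ({z} : Set G)) := fun d => by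
  have p13 : Nat.Prime 13 := by norm_num
  have : Fact (Nat.Prime 13) := ⟨p13⟩
  have : Fact (Nat.Prime 2) := ⟨Nat.prime_two⟩
  obtain ⟨g, hg⟩ := exists_prime_orderOf_dvd_card' 13 d
  have s := h.pre.toSympPair
  have o : orderOf (g : G) = 13 := (orderOf_coe g).trans hg
  have pR : IsPGroup 13 (zpowers (g : G)) :=
    IsPGroup.of_card (n := 1) (by rw [Nat.card_zpowers, o, pow_one])
  have nR : ∀ r ∈ zpowers (g : G), ∀ q ∈ Q, r * q * r⁻¹ ∈ Q := fun r hr q hq =>
    (mem_normalizer_iff.1 (h.pre.norm (zpowers_le.2 g.2 hr)) q).1 hq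
  have zC : zpowers z ≤ Q ⊓ centralizer (zpowers (g : G) : Set G) :=
    zpowers_le.2 ⟨s.mem, fun r hr => mem_centralizer_singleton_iff.1 (zpowers_le.2 g.2 hr)⟩
  have m1 : Nat.card Q ≡ Nat.card ↥(Q ⊓ centralizer (zpowers (g : G) : Set G)) [MOD 13] :=
    TIW.ncard_modEq_cent p13 pR (X := (Q : Set G)) nR
  obtain ⟨k, hk, e⟩ := (Nat.dvd_prime_pow Nat.prime_two).1
    (h.cardQ ▸ card_dvd_of_le (inf_le_left : Q ⊓ centralizer (zpowers (g : G) : Set G) ≤ Q))
  rw [h.cardQ, e] at m1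
  obtain rfl | rfl : k = 1 ∨ k = 13 := by
    interval_cases k <;> first | exact absurd m1 (by decide) | simp
  · have f := eq_of_le_of_card_ge zC (e.trans h.card_zp.symm).le
    have m2 := TIW.ncard_modEq_cent p13 pR (X := (Q : Set G) ∩ {q | q * q = 1}) fun r hr q hq =>
      ⟨nR r hr q hq.1, show _ = _ by rw [conj_mul, show q * q = 1 from hq.2]; group⟩
    have c : {q ∈ (Q : Set G) ∩ {q | q * q = 1} | ∀ r ∈ zpowers (g : G), r * q = q * r} =
        (zpowers z : Set G) := Set.ext fun q =>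
      ⟨fun hq => f.ge ⟨hq.1.1, hq.2⟩, fun hq => ⟨⟨(zC hq).1, s.mul_self_of_mem hq⟩, (zC hq).2⟩⟩
    rw [EI.cnt h, c, ← Nat.card_coe_set_eq, show Nat.card (zpowers z : Set G) = 2 from h.card_zp] at m2
    exact absurd m2 (by decide)
  · have f := eq_of_le_of_card_ge (inf_le_left : Q ⊓ centralizer (zpowers (g : G) : Set G) ≤ Q)
      (h.cardQ.trans e.symm).le
    have := s.mul_self_of_mem (h.pre.cent fun q hq => ((f.ge hq).2 g (mem_zpowers _)).symm)
    have := orderOf_dvd_of_pow_eq_one ((pow_two _).trans this)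
    rw [o] at this
    omega

end Cfsg.Lib.R11
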