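import Cfsg.Agent.R11.ED
import Cfsg.Agent.S0243
import Cfsg.Agent.S0245
import Cfsg.Agent.S0246
import Cfsg.Agent.S1059

/-! The section `2⁴.3.A₆`: sieving the list of groups of sectional rank four. -/

set_option autoImplicit false
set_option linter.unusedVariables false

namespace Cfsg.Lib.R11

open Subgroup Equiv

universe u

theorem EL.perm {K : Type u} [Group K] [Finite K] {E : Subgroup K} (hE : Nat.card E = 16)
    (tr : ∀ e ∈ E, ∀ e' ∈ E, e ≠ 1 → e' ≠ 1 → ∃ y, y * e * y⁻¹ = e') {n : ℕ} (hn : n < 16)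
    (f : K →* Perm (Fin n)) (hf : Function.Injective f) : False := by
  classical
  have := Fintype.ofFinite E
  obtain ⟨e, he, e1⟩ := E.bot_or_exists_ne_one.resolve_left fun k => by
    rw [k, card_bot] at hE; omega
  let _ : MulAction E (Fin n) := MulAction.compHom (Fin n) (f.comp E.subtype)
  have := Fintype.ofFinite (Quotient (MulAction.orbitRel E (Fin n)))
  have h1 := MulAction.sum_card_fixedBy_eq_card_orbits_mul_card_group E (Fin n)
  have h2 : ∀ x : E, Fintype.card (MulAction.fixedBy (Fin n) x) + (f x).support.card = n := fun x => by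
    have k := Finset.card_filter_add_card_filter_not (s := Finset.univ) fun i => f x i = i
    rw [Finset.card_univ, Fintype.card_fin] at k
    rw [Fintype.card_subtype]
    exact k
  have h3 : ∑ x : E, (f x).support.card = 15 * (f e).support.card := by
    rw [← Finset.add_sum_erase _ _ (Finset.mem_univ 1), Finset.sum_const_nat (m := (f e).support.card),
      Finset.card_erase_of_mem (Finset.mem_univ _), Finset.card_univ, ← Nat.card_eq_fintype_card, hE]
    · simp
    · intro x hx
      obtain ⟨y, k⟩ := tr e he x x.2 e1 fun k => (Finset.mem_erase.1 hx).1 (Subtype.ext k)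
      rw [← k, map_mul, map_mul, map_inv, Perm.card_support_conj]
  have h4 := Finset.sum_congr (rfl : (Finset.univ : Finset E) = _) fun x _ => h2 x
  rw [Finset.sum_add_distrib, h1, h3, Finset.sum_const, Finset.card_univ,
    ← Nat.card_eq_fintype_card (α := E), hE, smul_eq_mul] at h4
  have h5 : (f e).support.card ≠ 0 := fun k =>
    e1 (hf ((Perm.card_support_eq_zero.1 k).trans (map_one f).symm))
  have h6 := h2 ⟨e, he⟩
  change _ + (f e).support.card = n at h6
  omega

theorem sieve {K : Type u} [Group K] [Finite K] (h7 : 128 ∣ Nat.card K) (h13 : ¬ 13 ∣ Nat.card K)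
    {E : Subgroup K} (hE : Nat.card E = 16) (sq : ∀ e ∈ E, e * e = 1)
    (tr : ∀ e ∈ E, ∀ e' ∈ E, e ≠ 1 → e' ≠ 1 → ∃ y, y * e * y⁻¹ = e') (hl : Lst K) : MU K := by
  rcases hl with ⟨F, _, _, cF, ⟨⟨g⟩⟩ | ⟨⟨g⟩⟩ | ⟨⟨g⟩⟩⟩ | k | ⟨F, _, _, cF, ⟨g⟩⟩ | ⟨n, -, hn, ⟨g⟩⟩ | k
  · have h := Agent.S0243.result cF 4 (by decide)
    rw [← Nat.card_congr g.toEquiv] at h
    simp [Fin.prod_univ_succ] at h
    omega
  · have h := card_eq_card_quotient_mul_card_subgroup (center (Matrix.symplecticGroup (Fin 2) F))
    rw [Agent.S0245.result cF, Agent.S0246.result cF 2 (by omega)] at h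
    change _ = Nat.card (PSp 2 F) * _ at h
    rw [← Nat.card_congr g.toEquiv] at h
    simp [Finset.prod_range_succ] at h
    omega
  · have h := Agent.S1059.result cF
    rw [← Nat.card_congr g.toEquiv] at h
    omega
  · exact .inr k
  · have h := Agent.S0243.result cF 3 (by decide)
    rw [← Nat.card_congr g.toEquiv] at h
    simp [Fin.prod_univ_succ] at h
    omega
  · exact (EL.perm hE tr (by omega) ((alternatingGroup (Fin n)).subtype.comp g.toMonoidHom)
      (Subtype.val_injective.comp g.injective)).elim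
  · exact .inl k

end Cfsg.Lib.R11
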