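import Cfsg.Agent.R11.ED

/-! The duads of the section `2⁴.3.A₆` in frame coordinates. -/

set_option autoImplicit false
set_option synthInstance.maxSize 4096

namespace Cfsg.Lib.R11

open Subgroup Equiv Cfsg.Lib.Trans Cfsg.Lib.Local Cfsg.Lib.SporChar
open scoped commutatorElement

universe u

variable {G : Type u} [Group G] [Finite G] {z x : G} {Q B Y : Subgroup G} {hx : G → Perm (Fin 6)}
  {L : Fin 6 → Subgroup G} {Φ : ℕ → G}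

theorem EM.mem_W (h : Frame z x Q B Y hx L Φ) {b b' q : G} (hb : b ∈ B) (hb' : b' ∈ B)
    (h1 : b ∉ zpowers z) (h2 : b' ∉ zpowers z) (h3 : b * b' ∉ zpowers z) (hq : q ∈ Q)
    (e1 : ⁅b, q⁆ ∈ zpowers z) (e2 : ⁅b', q⁆ ∈ zpowers z) : q ∈ hexW Q B := by
  have k : ∀ s < 16, ∀ s' < 16, s ≠ 0 ∧ s' ≠ 0 ∧ s ≠ s' → ∀ t < 64,
      SporChar.Ns s t % 64 = 0 ∧ SporChar.Ns s' t % 64 = 0 → t = 0 := by decide +kernel
  obtain ⟨s, hs⟩ := h.nb_ex hb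
  obtain ⟨s', hs'⟩ := h.nb_ex hb'
  obtain ⟨t, ht⟩ := h.tau_ex hq
  rw [hs.2 q hq t ht, h.mem_zp_iff (Ns_lt s hs.1 t ht.1)] at e1
  rw [hs'.2 q hq t ht, h.mem_zp_iff (Ns_lt s' hs'.1 t ht.1)] at e2
  have := k s hs.1 s' hs'.1 ⟨fun e => h1 (h.nb_zero.1 (e ▸ hs)), fun e => h2 (h.nb_zero.1 (e ▸ hs')),
    fun e => h3 ((h.nb_iff hb hb' hs).1 (e ▸ hs'))⟩ t ht.1 ⟨e1, e2⟩
  exact (h.tau_zero hq).1 (this ▸ ht)

theorem EM.norm (h : Hex z x Q B Y hx) {b b' c : G} (hb : b ∈ B) (hb' : b' ∈ B)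
    (h1 : b ∉ zpowers z) (h2 : b' ∉ zpowers z) (h3 : b * b' ∉ zpowers z)
    (hc : c ∈ centralizer ({z} : Set G)) (e1 : c * b * c⁻¹ * b⁻¹ ∈ Q) (e2 : c * b' * c⁻¹ * b'⁻¹ ∈ Q) :
    c ∈ normalizer (hexW Q B : Set G) := by
  obtain ⟨hx', L, Φ, f⟩ := h.exists_frame
  refine mem_normalizer_fintype fun w hw => ?_
  obtain ⟨w1, w2⟩ := mem_hexW.1 hw
  have hq : c * w * c⁻¹ ∈ Q := (mem_normalizer_iff.1 (h.pre.norm hc) w).1 w1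
  have key : ∀ a ∈ B, c * a * c⁻¹ * a⁻¹ ∈ Q → ⁅a, c * w * c⁻¹⁆ ∈ zpowers z := fun a ha e => by
    have e3 : ⁅a, c * w * c⁻¹⁆ = ⁅(c * a * c⁻¹ * a⁻¹)⁻¹, c * w * c⁻¹⁆ := by
      simp only [commutatorElement_def]
      calc _ = a * c * a⁻¹ * (a * w) * c⁻¹ * a⁻¹ * (c * w * c⁻¹)⁻¹ := by group
        _ = _ := by rw [w2 a ha]; group
    rw [e3]
    exact h.pre.commutator_mem (inv_mem e) hq
  exact EM.mem_W f hb hb' h1 h2 h3 hq (key b hb e1) (key b' hb' e2)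

theorem hex_duad (h : Frame z x Q B Y hx L Φ) : ∃ D : Fin 6 → Fin 6 → G,
    (∀ i j, D i j ∈ B) ∧ (∀ i j, i ≠ j → D i j ∉ zpowers z) ∧ (∀ i j, D i j = D j i) ∧
    (∀ i j k l, i ≠ j → k ≠ l → D i j * D k l ∈ zpowers z → (i = k ∧ j = l) ∨ (i = l ∧ j = k)) ∧
    (∀ b ∈ B, b ∉ zpowers z → ∃ i j, i ≠ j ∧ D i j * b ∈ zpowers z) ∧
    ∀ y ∈ Y, ∀ i j, i ≠ j → y * D i j * y⁻¹ * (D (hx y i) (hx y j))⁻¹ ∈ Q := by
  have ex : ∀ s : ℕ, ∃ b ∈ B, s < 16 → NB Q Φ b s := fun s => by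
    by_cases hs : s < 16
    · obtain ⟨b, hb, e⟩ := h.nb_surj hs
      exact ⟨b, hb, fun _ => e⟩
    · exact ⟨1, one_mem _, fun e => absurd e hs⟩
  choose D hD hN using ex
  have lt : ∀ i j : Fin 6, sp i ^^^ sp j < 16 := by decide
  have e0 : ∀ i j : Fin 6, i ≠ j → sp i ^^^ sp j ≠ 0 := by decide
  have e1 : ∀ i j k l : Fin 6, i ≠ j → k ≠ l → sp i ^^^ sp j = sp k ^^^ sp l →
    (i = k ∧ j = l) ∨ (i = l ∧ j = k) := by decide +kernel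
  have e2 : ∀ s < 16, s ≠ 0 → ∃ i j : Fin 6, i ≠ j ∧ sp i ^^^ sp j = s := by decide +kernel
  refine ⟨fun i j => D (sp i ^^^ sp j), fun i j => hD _, fun i j hij e => ?_,
    fun i j => by simp only [Nat.xor_comm], fun i j k l hij hkl e => ?_, fun b hb hz => ?_,
    fun y hy i j hij => ?_⟩
  · exact e0 i j hij (h.nb_uniq (hN _ (lt i j)) (h.nb_zero.2 e))
  · exact e1 i j k l hij hkl
      (h.nb_uniq ((h.nb_iff (hD _) (hD _) (hN _ (lt i j))).2 e) (hN _ (lt k l)))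
  · obtain ⟨s, hs⟩ := h.nb_ex hb
    obtain ⟨i, j, hij, rfl⟩ := e2 s hs.1 fun e => hz (h.nb_zero.1 (e ▸ hs))
    exact ⟨i, j, hij, (h.nb_iff (hD _) hb (hN _ (lt i j))).1 hs⟩
  · obtain ⟨q, hq, k, hk, hkx, rfl⟩ := h.fac y hy
    have hn := h.normB k hk hkx
    have e3 : hx (q * k) = hx k := by rw [h.hx_mul q (h.QY hq) k hk, h.hxQ hq, one_mul]
    have hb : k * D (sp i ^^^ sp j) * k⁻¹ ∈ B := (mem_normalizer_iff.1 hn _).1 (hD _)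
    have e4 := (h.nb_iff hb (hD _) (h.nb_conj (hD _) hk hn hij (hN _ (lt i j)))).1
      (hN _ (lt (hx k i) (hx k j)))
    simp only [e3]
    rw [inv_eq_of_mul_eq_one_right (h.sqB _ (hD (sp (hx k i) ^^^ sp (hx k j))))]
    generalize D (sp (hx k i) ^^^ sp (hx k j)) = d at e4 ⊢
    have e5 : q * k * D (sp i ^^^ sp j) * (q * k)⁻¹ * d =
        q * ((k * D (sp i ^^^ sp j) * k⁻¹) * q⁻¹ * (k * D (sp i ^^^ sp j) * k⁻¹)⁻¹) *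
          (k * D (sp i ^^^ sp j) * k⁻¹ * d) := by group
    rw [e5]
    exact mul_mem (mul_mem hq ((mem_normalizer_iff.1 (h.Y_norm (h.BY hb)) _).1 (inv_mem hq)))
      (h.pre.zpowers_le e4)

end Cfsg.Lib.R11
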