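import Cfsg.Agent.R11.EB
import Cfsg.Agent.Solv.CoprimeGen

/-! # Normal subgroups of odd order -/

set_option autoImplicit false

namespace Cfsg.Lib.R11

open Subgroup Equiv Cfsg.Lib.Trans

universe u

variable {X : Type u} [Group X] [Finite X] {E Y : Subgroup X} {a : X} {φ : X → Perm (Fin 6)}
  {d : Fin 6 → Fin 6 → X}

theorem Sx.odd_le (h : Sx E Y a φ d) {O : Subgroup X} [O.Normal] (ho : Odd (Nat.card O)) :
    O ≤ zpowers a := by
  classical
  have : IsMulCommutative E := ⟨⟨fun x y => Subtype.ext (h.commE x.2 y.2)⟩⟩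
  have hY : O ≤ Y := by
    refine Solv.Coprime.le_of_forall_hyperplane (p := 2) (A := E) (fun e he => (pow_two e).trans (h.sqE e he))
      (fun e => by simpa [e] using h.cardE) ((normalizer_eq_top O).ge.trans' le_top)
      (by rw [h.cardE]; exact (Nat.coprime_two_left.2 ho).pow_left 4) fun B hB i g hg => ?_
    have c := card_mul_relIndex hB
    rw [i, h.cardE] at c
    obtain ⟨e, he, e1⟩ := B.bot_or_exists_ne_one.resolve_left fun e => by simp [e] at c
    obtain ⟨f, hf, f1⟩ : ∃ f ∈ B, f ∉ ({1, e} : Finset X) := by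
      by_contra! k
      have := (Nat.card_mono (Finset.finite_toSet _) (k : (B : Set X) ⊆ ({1, e} : Finset X))).trans
        ((Nat.card_eq_finsetCard _).le.trans Finset.card_le_two)
      rw [SetLike.coe_sort_coe] at this
      omega
    rw [Finset.mem_insert, Finset.mem_singleton, not_or] at f1
    exact h.four e (hB he) f (hB hf) e1 f1.1 (Ne.symm f1.2) g (mem_centralizer_iff.1 hg.2 e he).symm
      (mem_centralizer_iff.1 hg.2 f hf).symm
  have od : ∀ n ∈ O, Odd (orderOf n) := fun n hn => ho.of_dvd_nat (O.orderOf_dvd_natCard hn)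
  rcases h.img (N := O) ((normalizer_eq_top O).ge.trans' le_top) with k | k
  · exact fun n hn => h.mem_a (hY hn) (k n hn (hY hn)) (od n hn)
  · obtain ⟨n, hn, hy, e⟩ := k (swap 0 1 * swap 2 3) (by decide)
    obtain ⟨m, hm⟩ := od n hn
    have := h.φ_pow hy (orderOf n)
    rw [pow_orderOf_eq_one, h.φ_one, e, hm, pow_succ, pow_mul,
      show (swap 0 1 * swap 2 3 : Perm (Fin 6)) ^ 2 = 1 by decide, one_pow] at this
    exact absurd this (by decide)

end Cfsg.Lib.R11
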