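import Cfsg.Agent.R11.ED

/-!
# A nonsolvable constrained 2-local subgroup in a central quotient of the section `2⁴.3.A₆`
-/

set_option autoImplicit false

namespace Cfsg.Lib.R11

open Subgroup Equiv Cfsg.Lib.Trans Cfsg.Lib.Local Cfsg.Lib.SporChar
open scoped commutatorElement

universe u

namespace EQ

theorem constr {N : Type*} [Group N] [Finite N] (T A : Subgroup N) (hT : T.Normal)
    (hA : A.Normal) (h2 : IsPGroup 2 T) (hc : (Nat.card A).Coprime 2)
    (hcen : centralizer (T : Set N) ≤ T ⊔ A) : IsPConstrained 2 N := by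
  have hAle : A ≤ pPrimePCore 2 N := by
    intro x hx
    have h1 : x ∈ pPrimeCore 2 N :=
      (le_sSup (s := {M : Subgroup N | M.Normal ∧ (Nat.card M).Coprime 2}) ⟨hA, hc⟩) hx
    change QuotientGroup.mk' (pPrimeCore 2 N) x ∈ pCore 2 (N ⧸ pPrimeCore 2 N)
    have h3 : QuotientGroup.mk' (pPrimeCore 2 N) x = 1 := (QuotientGroup.eq_one_iff x).2 h1
    rw [h3]; exact one_mem _
  have hTle : T ≤ pPrimePCore 2 N := by
    intro x hx
    change QuotientGroup.mk' (pPrimeCore 2 N) x ∈ pCore 2 (N ⧸ pPrimeCore 2 N)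
    have h3 : T.map (QuotientGroup.mk' (pPrimeCore 2 N)) ≤ pCore 2 (N ⧸ pPrimeCore 2 N) :=
      le_sSup (s := {M : Subgroup (N ⧸ pPrimeCore 2 N) | M.Normal ∧ IsPGroup 2 M})
        ⟨hT.map _ (QuotientGroup.mk'_surjective _), h2.map _⟩
    exact h3 (mem_map_of_mem _ hx)
  intro P
  have : Fact (Nat.Prime 2) := ⟨Nat.prime_two⟩
  have : (T.subgroupOf (pPrimePCore 2 N)).Normal := hT.subgroupOf _
  have hp : IsPGroup 2 (T.subgroupOf (pPrimePCore 2 N)) :=
    h2.comap_of_injective _ (subtype_injective _)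
  obtain ⟨Q, hQ⟩ := hp.exists_le_sylow
  obtain ⟨g, rfl⟩ := MulAction.exists_smul_eq (pPrimePCore 2 N) Q P
  have hle : T.subgroupOf (pPrimePCore 2 N) ≤ (g • Q : Sylow 2 (pPrimePCore 2 N)) := by
    intro x hx
    rw [Sylow.coe_subgroup_smul, mem_pointwise_smul_iff_inv_smul_mem]
    apply hQ
    have := (inferInstance : (T.subgroupOf (pPrimePCore 2 N)).Normal).conj_mem x hx g⁻¹
    simpa [MulAut.smul_def] using this
  refine le_trans (centralizer_le ?_) (hcen.trans (sup_le hTle hAle))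
  intro x hx
  exact ⟨⟨x, hTle hx⟩, hle (mem_subgroupOf.2 hx), rfl⟩

variable {X : Type u} [Group X] [Finite X] {E Y : Subgroup X} {a : X} {φ : X → Perm (Fin 6)}
  {d : Fin 6 → Fin 6 → X}

omit [Finite X] in
theorem lift (h : Sx E Y a φ d) {K : Type u} [Group K] (π : X →* K)
    (hk : π.ker ≤ zpowers a) {g e e' : X} (he : e ∈ E) (he' : e' ∈ E)
    (hπ : π (g * e * g⁻¹) = π e') : g * e * g⁻¹ = e' := by
  have hker : e'⁻¹ * (g * e * g⁻¹) ∈ π.ker := by
    rw [MonoidHom.mem_ker, map_mul, hπ, map_inv, inv_mul_cancel]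
  obtain ⟨n, hn⟩ := mem_zpowers_iff.1 (hk hker)
  set k := e'⁻¹ * (g * e * g⁻¹) with hkdef
  have h1 : g * e * g⁻¹ = e' * k := by rw [hkdef]; group
  have hc : Commute e' k := by
    rw [← hn]
    exact (show Commute e' a from h.cen e' (h.EY he')).zpow_right n
  have hsq : k * k = 1 := by
    have h2 : (g * e * g⁻¹) * (g * e * g⁻¹) = 1 := by
      calc (g * e * g⁻¹) * (g * e * g⁻¹) = g * (e * e) * g⁻¹ := by group
        _ = 1 := by rw [h.sqE e he]; group
    rw [h1] at h2
    calc k * k = (e' * e') * (k * k) := by rw [h.sqE e' he', one_mul]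
      _ = e' * k * (e' * k) := by
        rw [mul_assoc e' k, ← mul_assoc k e' k, ← hc.eq]; group
      _ = 1 := h2
  have hcu : k * k * k = 1 := by
    have h3 : a ^ 3 = 1 := by rw [← h.a3]; exact pow_orderOf_eq_one a
    rw [← hn]
    calc a ^ n * a ^ n * a ^ n = (a ^ 3) ^ n := by
          rw [← zpow_natCast, ← zpow_mul]; group
      _ = 1 := by rw [h3, one_zpow]
  rw [hsq, one_mul] at hcu
  rw [h1, hcu, mul_one]

omit [Finite X] in
theorem conjE (h : Sx E Y a φ d) {y e : X} (hy : y ∈ Y) (he : e ∈ E) : y * e * y⁻¹ ∈ E := by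
  by_cases h1 : e = 1
  · rw [h1]; simp
  obtain ⟨i, j, hij, rfl⟩ := h.d_surj e he h1
  rw [h.d_conj y hy i j hij]
  exact h.d_mem _ _ (fun hh => hij ((φ y).injective hh))

omit [Finite X] in
theorem phi_one (h : Sx E Y a φ d) {y : X} (hy : y ∈ Y) (hc : ∀ e ∈ E, y * e * y⁻¹ = e) :
    φ y = 1 := by
  have key : ∀ i j : Fin 6, i ≠ j → (φ y i = i ∧ φ y j = j) ∨ (φ y i = j ∧ φ y j = i) := by
    intro i j hij
    have h1 := h.d_conj y hy i j hij
    rw [hc _ (h.d_mem i j hij)] at h1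
    exact h.d_inj _ _ _ _ (fun hh => hij ((φ y).injective hh)) hij h1.symm
  ext i
  have hex : ∀ i : Fin 6, ∃ j k : Fin 6, i ≠ j ∧ i ≠ k ∧ j ≠ k := by decide
  obtain ⟨j, k, hj, hk, hjk⟩ := hex i
  rcases key i j hj with h1 | h1
  · rw [h1.1]; rfl
  rcases key i k hk with h2 | h2
  · rw [h2.1]; rfl
  exact absurd (h1.1.symm.trans h2.1) hjk

theorem norm_lift (h : Sx E Y a φ d) {K : Type u} [Group K] (π : X →* K)
    (hs : Function.Surjective π) (hk : π.ker ≤ zpowers a) {n : K}
    (hn : n ∈ normalizer ((E.map π : Subgroup K) : Set K)) : ∃ y ∈ Y, π y = n := by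
  obtain ⟨g, rfl⟩ := hs n
  refine ⟨g, h.norm ?_, rfl⟩
  apply mem_normalizer_fintype
  intro e he
  have h1 : π g * π e * (π g)⁻¹ ∈ E.map π := (mem_normalizer_iff.1 hn _).1 (mem_map_of_mem π he)
  obtain ⟨e', he', h2⟩ := h1
  rw [lift h π hk he he' (by rw [h2, map_mul, map_mul, map_inv])]
  exact he'

omit [Finite X] in
theorem norm_mem (h : Sx E Y a φ d) {K : Type u} [Group K] [Finite K] (π : X →* K)
    {y : X} (hy : y ∈ Y) : π y ∈ normalizer ((E.map π : Subgroup K) : Set K) := by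
  apply mem_normalizer_fintype
  rintro _ ⟨e, he, rfl⟩
  exact ⟨y * e * y⁻¹, conjE h hy he, by rw [map_mul, map_mul, map_inv]⟩

omit [Finite X] in
theorem nsolY (h : Sx E Y a φ d) : ¬ Group.IsSolvable Y := by
  intro hY
  let ψ : Y →* Perm (Fin 6) :=
    MonoidHom.mk' (fun y => φ y) (fun y y' => h.φ_mul y y.2 y' y'.2)
  have : Group.IsSolvable ℤˣ := Group.isSolvable_of_comm mul_comm
  have : Group.IsSolvable (Perm (Fin 6)) := by
    refine Group.isSolvable_of_ker_le_range ψ (Perm.sign : Perm (Fin 6) →* ℤˣ) ?_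
    intro σ hσ
    obtain ⟨y, hy, rfl⟩ := h.φ_surj σ hσ
    exact ⟨⟨y, hy⟩, rfl⟩
  exact Equiv.Perm.not_isSolvable (Fin 6) (by simp; norm_num) this

end EQ

variable {X : Type u} [Group X] [Finite X] {E Y : Subgroup X} {a : X} {φ : X → Perm (Fin 6)}
  {d : Fin 6 → Fin 6 → X}

theorem Sx.loc (h : Sx E Y a φ d) {K : Type u} [Group K] [Finite K] (π : X →* K)
    (hs : Function.Surjective π) (hk : π.ker ≤ zpowers a) :
    ∃ T : Subgroup K, IsPGroup 2 T ∧ T ≠ ⊥ ∧ ¬ Group.IsSolvable (normalizer (T : Set K)) ∧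
      IsPConstrained 2 (normalizer (T : Set K)) := by
  have hE2 : IsPGroup 2 E := IsPGroup.of_card (n := 4) (by rw [h.cardE]; norm_num)
  have hT2 : IsPGroup 2 (E.map π) := hE2.map π
  refine ⟨E.map π, hT2, ?_, ?_, ?_⟩
  · intro hb
    have h01 : (0 : Fin 6) ≠ 1 := by decide
    have h1 : π (d 0 1) ∈ E.map π := mem_map_of_mem π (h.d_mem 0 1 h01)
    rw [hb, mem_bot] at h1
    have h2 := EQ.lift h π hk (g := 1) (h.d_mem 0 1 h01) (one_mem E) (by simpa using h1)
    exact h.d_ne 0 1 h01 (by simpa using h2)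
  · intro hN
    apply EQ.nsolY h
    let f : Y →* normalizer ((E.map π : Subgroup K) : Set K) :=
      (π.comp Y.subtype).codRestrict _ (fun y => EQ.norm_mem h π y.2)
    have : Group.IsSolvable f.ker := by
      apply Group.isSolvable_of_comm
      rintro ⟨x, hx⟩ ⟨y, hy⟩
      have hx' : (x : X) ∈ π.ker := congrArg Subtype.val hx
      obtain ⟨n, hn⟩ := mem_zpowers_iff.1 (hk hx')
      apply Subtype.ext; apply Subtype.ext
      change (x : X) * y = y * x
      rw [← hn]
      exact ((show Commute (y : X) a from h.cen y y.2).zpow_right n).eq.symm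
    exact Group.isSolvable_of_ker_le_range f.ker.subtype f (by rw [range_subtype])
  · set N := normalizer ((E.map π : Subgroup K) : Set K) with hN
    have haN : π a ∈ N := EQ.norm_mem h π h.aY
    have hAle : zpowers (π a) ≤ N := (zpowers_le).2 haN
    have hTle : E.map π ≤ N := le_normalizer
    refine EQ.constr ((E.map π).subgroupOf N) ((zpowers (π a)).subgroupOf N)
      normal_in_normalizer ?_ (hT2.comap_of_injective _ (subtype_injective _)) ?_ ?_
    · constructor
      intro x hx g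
      obtain ⟨y, hy, hyg⟩ := EQ.norm_lift h π hs hk g.2
      obtain ⟨n, hn⟩ := mem_zpowers_iff.1 (mem_subgroupOf.1 hx)
      have hc : Commute (g : K) (x : K) := by
        rw [← hn, ← hyg]
        exact ((show Commute y a from h.cen y hy).map π).zpow_right n
      rw [mem_subgroupOf]
      change (g : K) * x * (g : K)⁻¹ ∈ _
      rw [hc.eq, mul_inv_cancel_right]
      exact mem_subgroupOf.1 hx
    · have h1 : Nat.card ((zpowers (π a)).subgroupOf N) ∣ Nat.card (zpowers (π a)) :=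
        card_comap_dvd_of_injective _ _ (subtype_injective _)
      rw [Nat.card_zpowers] at h1
      have h2 : orderOf (π a) ∣ 3 := h.a3 ▸ orderOf_map_dvd π a
      exact Nat.Coprime.coprime_dvd_left (h1.trans h2) (by norm_num)
    · intro g hg
      obtain ⟨y, hy, hyg⟩ := EQ.norm_lift h π hs hk g.2
      have h1 : φ y = 1 := by
        refine EQ.phi_one h hy (fun e he => EQ.lift h π hk he he ?_)
        have h2 := hg ⟨π e, hTle (mem_map_of_mem π he)⟩
          (mem_subgroupOf.2 (mem_map_of_mem π he))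
        have h3 : π e * (g : K) = g * π e := congrArg Subtype.val h2
        rw [map_mul, map_mul, map_inv, hyg, ← h3, mul_inv_cancel_right]
      have h4 := mem_map_of_mem π ((h.φ_ker y hy).1 h1)
      rw [Subgroup.map_sup, MonoidHom.map_zpowers, hyg] at h4
      rw [← subgroupOf_sup hTle hAle]
      exact mem_subgroupOf.2 h4

end Cfsg.Lib.R11
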