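import Cfsg.Agent.R11.ED
import Cfsg.Prelude.Def_CaseTheorems

/-! A group `2⁴.D₈` with small centralizers on `2⁴` has sectional rank at most four. -/

set_option autoImplicit false

namespace Cfsg.Lib.R11

open Subgroup Equiv Cfsg.Lib.Trans Cfsg.Lib.SporChar
open scoped commutatorElement

universe u

namespace ES

theorem card_map {S T : Type*} [Group S] [Group T] (A : Subgroup S) (f : S →* T) :
    Nat.card ↥(f.ker ⊓ A) * Nat.card (A.map f) = Nat.card A := by
  rw [← relIndex_ker, ← inf_relIndex_right, card_mul_relIndex inf_le_right]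

theorem core {S : Type u} [Group S] [Finite S] (E : Subgroup S) [hn : E.Normal]
    (hE : Nat.card E = 16) (sq : ∀ e ∈ E, e * e = 1) (hS : Nat.card S = 128)
    (ne : ∃ s : S, s * s ∉ E)
    (hc : ∀ s : S, s ∉ E → Nat.card ↥(E ⊓ centralizer ({s} : Set S)) ≤ 4) (A B : Subgroup S)
    (h1 : ∀ a ∈ A, a * a ∈ B) (h2 : ∀ a ∈ A, ∀ b ∈ A, ⁅a, b⁆ ∈ B) :
    Nat.card A ≤ 16 * Nat.card B := by
  have hB : 0 < Nat.card B := Nat.card_pos
  by_cases hA : A ≤ E
  · have := Trans.card_le_of_le hA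
    omega
  obtain ⟨s, hs, hsE⟩ := SetLike.not_le_iff_exists.1 hA
  have iv : ∀ e ∈ E, e⁻¹ = e := fun e he => inv_eq_of_mul_eq_one_right (sq e he)
  have cm : ∀ a ∈ E, ∀ b ∈ E, a * b = b * a := fun a ha b hb => by
    rw [← iv _ (mul_mem ha hb), mul_inv_rev, iv a ha, iv b hb]
  have cE : ∀ a ∈ E, ⁅a, s⁆ ∈ E := fun a ha => by
    rw [commutatorElement_def, mul_assoc, mul_assoc, ← mul_assoc s]
    exact mul_mem ha (hn.conj_mem _ (inv_mem ha) s)
  let f : ↥(E ⊓ A) →* S := MonoidHom.mk' (fun c => ⁅(c : S), s⁆) fun a b => by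
    have := cm _ (cE _ b.2.1) _ (hn.conj_mem _ (inv_mem a.2.1) s)
    simp only [commutatorElement_def, coe_mul] at this ⊢
    calc _ = (a : S) * (b * s * (b : S)⁻¹ * s⁻¹ * (s * (a : S)⁻¹ * s⁻¹)) := by group
      _ = _ := by rw [this]; group
  have e1 := card_map (⊤ : Subgroup ↥(E ⊓ A)) f
  have e2 : Nat.card ↥(f.ker ⊓ ⊤) ≤ 4 := by
    refine le_trans ?_ (hc s hsE)
    refine Nat.card_le_card_of_injective (fun c => ⟨c.1.1, c.1.2.1,
      mem_centralizer_singleton_iff.2 (commutatorElement_eq_one_iff_mul_comm.1 c.2.1)⟩) ?_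
    intro a b e
    exact Subtype.ext (Subtype.ext (congrArg (fun x => x.1) e))
  have e3 : Nat.card ↥((⊤ : Subgroup ↥(E ⊓ A)).map f) ≤ Nat.card ↥(E ⊓ B) := by
    refine Trans.card_le_of_le ?_
    rintro _ ⟨c, -, rfl⟩
    exact ⟨cE _ c.2.1, h2 _ c.2.2 _ hs⟩
  rw [card_top] at e1
  have e4 : Nat.card ↥(E ⊓ A) ≤ 4 * Nat.card ↥(E ⊓ B) := e1 ▸ Nat.mul_le_mul e2 e3
  have a1 := card_map A (QuotientGroup.mk' E)
  have b1 := card_map B (QuotientGroup.mk' E)
  rw [QuotientGroup.ker_mk'] at a1 b1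
  have q : Nat.card (S ⧸ E) = 8 := by
    have := card_eq_card_quotient_mul_card_subgroup E
    rw [hS, hE] at this
    omega
  have bp : 0 < Nat.card (B.map (QuotientGroup.mk' E)) := Nat.card_pos
  have e5 : Nat.card (A.map (QuotientGroup.mk' E)) ≤
      4 * Nat.card (B.map (QuotientGroup.mk' E)) := by
    have hd := card_subgroup_dvd_card (A.map (QuotientGroup.mk' E))
    by_cases ht : A.map (QuotientGroup.mk' E) = ⊤
    · obtain ⟨t, ht'⟩ := ne
      obtain ⟨a, ha, e⟩ : QuotientGroup.mk' E t ∈ A.map (QuotientGroup.mk' E) := ht ▸ mem_top _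
      have : B.map (QuotientGroup.mk' E) ≠ ⊥ := fun h => ht' (by
        have h3 : QuotientGroup.mk' E (a * a) ∈ B.map (QuotientGroup.mk' E) := ⟨_, h1 a ha, rfl⟩
        rw [h, mem_bot, map_mul, e, ← map_mul] at h3
        exact (QuotientGroup.eq_one_iff _).1 h3)
      have h4 := (one_lt_card_iff_ne_bot _).2 this
      have h5 := Nat.le_of_dvd Nat.card_pos hd
      omega
    · have h6 : Nat.card (A.map (QuotientGroup.mk' E)) ≠ 8 := fun h =>
        ht (eq_top_of_card_eq _ (h.trans q.symm))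
      rw [q] at hd
      have h5 := Nat.le_of_dvd (by norm_num) hd
      have : Nat.card (A.map (QuotientGroup.mk' E)) ≤ 4 := by
        generalize Nat.card (A.map (QuotientGroup.mk' E)) = n at *
        interval_cases n <;> omega
      omega
  calc Nat.card A = _ := a1.symm
    _ ≤ _ := Nat.mul_le_mul e4 e5
    _ = _ := by rw [← b1]; ring

end ES

theorem sec4 {S : Type u} [Group S] [Finite S] (E : Subgroup S) [E.Normal] (hE : Nat.card E = 16)
    (sq : ∀ e ∈ E, e * e = 1) (hS : Nat.card S = 128) (ne : ∃ s : S, s * s ∉ E)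
    (hc : ∀ s : S, s ∉ E → Nat.card ↥(E ⊓ centralizer ({s} : Set S)) ≤ 4) :
    SectionalPRankLE 2 4 S := by
  intro H N _ A hA h2
  have h := ES.core E hE sq hS ne hc ((A.comap (QuotientGroup.mk' N)).map H.subtype)
    (N.map H.subtype) (by
      rintro _ ⟨a, ha, rfl⟩
      refine ⟨a * a, (QuotientGroup.eq_one_iff _).1 ?_, rfl⟩
      rw [QuotientGroup.mk_mul, ← pow_two]
      exact h2 _ ha) (by
      rintro _ ⟨a, ha, rfl⟩ _ ⟨b, hb, rfl⟩
      refine ⟨⁅a, b⁆, (QuotientGroup.eq_one_iff _).1 ?_, map_commutatorElement _ _ _⟩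
      change QuotientGroup.mk' N _ = 1
      rw [map_commutatorElement, commutatorElement_eq_one_iff_mul_comm]
      exact congrArg Subtype.val (hA.is_comm.comm ⟨_, ha⟩ ⟨_, hb⟩))
  rw [card_map_of_injective H.subtype_injective, card_map_of_injective H.subtype_injective] at h
  have e : Nat.card (A.comap (QuotientGroup.mk' N)) = Nat.card N * Nat.card A :=
    QuotientGroup.card_preimage_mk N A
  rw [e, mul_comm 16] at h
  exact Nat.le_of_mul_le_mul_left h Nat.card_pos

end Cfsg.Lib.R11
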