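import Cfsg.Agent.R11.EB

/-!
# The normalizer of a Sylow 2-subgroup in the section `2⁴.3.A₆`
-/

set_option autoImplicit false

namespace Cfsg.Lib.R11

open Subgroup Equiv
open scoped commutatorElement

universe u

variable {X : Type u} [Group X] [Finite X] {E Y : Subgroup X} {a : X} {φ : X → Perm (Fin 6)}
  {d : Fin 6 → Fin 6 → X}

namespace ET

/-- `e` has exactly the two conjugates `e`, `e'` under `T`. -/
def Two {X : Type u} [Group X] (T : Subgroup X) (e e' : X) : Prop :=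
  e ∈ T ∧ e' ≠ e ∧ (∀ t ∈ T, t * e * t⁻¹ = e ∨ t * e * t⁻¹ = e') ∧ ∃ t ∈ T, t * e * t⁻¹ = e'

theorem Two_eq_1' : type_of% @Two.eq_1.{u} := @Two.eq_1.{u}

omit [Finite X] in
theorem Two.conj {T : Subgroup X} {e e' g : X} (h : Two T e e') (hg : g ∈ normalizer (T : Set X)) :
    Two T (g * e * g⁻¹) (g * e' * g⁻¹) := by
  obtain ⟨h1, h2, h3, t, ht, h4⟩ := h
  refine ⟨(mem_normalizer_iff.1 hg e).1 h1, fun k => h2 (by simpa using k), fun s hs => ?_,
    g * t * g⁻¹, (mem_normalizer_iff.1 hg t).1 ht, by rw [← h4]; group⟩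
  have hs' : g⁻¹ * s * g ∈ T := (mem_normalizer_iff.1 hg _).2 (by simpa [mul_assoc] using hs)
  refine (h3 _ hs').imp (fun k => ?_) fun k => ?_
  · calc s * (g * e * g⁻¹) * s⁻¹ = g * (g⁻¹ * s * g * e * (g⁻¹ * s * g)⁻¹) * g⁻¹ := by group
      _ = _ := by rw [k]
  · calc s * (g * e * g⁻¹) * s⁻¹ = g * (g⁻¹ * s * g * e * (g⁻¹ * s * g)⁻¹) * g⁻¹ := by group
      _ = _ := by rw [k]

/-- Equality of unordered pairs. -/
def Pe (i j k l : Fin 6) : Prop := (i = k ∧ j = l) ∨ (i = l ∧ j = k)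

theorem Pe_eq_1' : type_of% @Pe.eq_1 := @Pe.eq_1

instance (i j k l : Fin 6) : Decidable (Pe i j k l) := inferInstanceAs (Decidable (_ ∨ _))

/-- Elements of the dihedral group. -/
def sg : Fin 4 → Perm (Fin 6) :=
  ![swap 0 2 * swap 1 3, swap 0 1 * swap 4 5, swap 0 1 * swap 2 3, swap 0 3 * swap 1 2]

theorem sg_eq_1' : type_of% @sg.eq_1 := @sg.eq_1

theorem sg_in : ∀ m, InD (sg m) := by decide

theorem orb : ∀ i j : Fin 6, i ≠ j → Pe i j 0 1 ∨ Pe i j 2 3 ∨ Pe i j 4 5 ∨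
    ∃ m n, ¬ Pe (sg m i) (sg m j) i j ∧ ¬ Pe (sg n i) (sg n j) i j ∧
      ¬ Pe (sg m i) (sg m j) (sg n i) (sg n j) := by decide

theorem act {σ : Perm (Fin 6)} (h : InD σ) : (Pe (σ 0) (σ 1) 0 1 ∨ Pe (σ 0) (σ 1) 2 3) ∧
    Pe (σ 4) (σ 5) 4 5 := by
  obtain ⟨-, h1, h2, h3⟩ := h
  have n : ∀ {i j : Fin 6}, i ≠ j → σ i ≠ σ j := fun k => σ.injective.ne k
  have n01 := n (i := 0) (j := 1) (by decide)
  have n02 := n (i := 0) (j := 2) (by decide)
  have n03 := n (i := 0) (j := 3) (by decide)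
  have n04 := n (i := 0) (j := 4) (by decide)
  have n05 := n (i := 0) (j := 5) (by decide)
  have n12 := n (i := 1) (j := 2) (by decide)
  have n13 := n (i := 1) (j := 3) (by decide)
  have n14 := n (i := 1) (j := 4) (by decide)
  have n15 := n (i := 1) (j := 5) (by decide)
  have n23 := n (i := 2) (j := 3) (by decide)
  have n24 := n (i := 2) (j := 4) (by decide)
  have n25 := n (i := 2) (j := 5) (by decide)
  have n34 := n (i := 3) (j := 4) (by decide)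
  have n35 := n (i := 3) (j := 5) (by decide)
  have n45 := n (i := 4) (j := 5) (by decide)
  generalize σ 0 = x0 at *
  generalize σ 1 = x1 at *
  generalize σ 2 = x2 at *
  generalize σ 3 = x3 at *
  generalize σ 4 = x4 at *
  generalize σ 5 = x5 at *
  simp only [Pe, ne_eq, Fin.ext_iff] at *
  have := x0.2
  have := x1.2
  have := x2.2
  have := x3.2
  have := x4.2
  have := x5.2
  simp only [Fin.val_zero, Fin.val_one, show ((2 : Fin 6) : ℕ) = 2 from rfl,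
    show ((3 : Fin 6) : ℕ) = 3 from rfl, show ((4 : Fin 6) : ℕ) = 4 from rfl,
    show ((5 : Fin 6) : ℕ) = 5 from rfl]
  omega

omit [Finite X] in
theorem d_eq (h : Sx E Y a φ d) {i j k l : Fin 6} (e : Pe i j k l) : d i j = d k l := by
  rcases e with ⟨rfl, rfl⟩ | ⟨rfl, rfl⟩
  exacts [rfl, h.d_symm _ _]

theorem mem (h : Sx E Y a φ d) {T : Subgroup X} (h2 : IsPGroup 2 T) (hE : E ≤ T) (hY : T ≤ Y)
    {e e' : X} (k : Two T e e') : e ∈ E := by
  obtain ⟨he, -, k, -⟩ := k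
  by_contra n
  obtain ⟨m, hm⟩ := h2 ⟨e, he⟩
  have f4 := h.fix (hY he) fun e1 => n (h.mem_E (hY he) e1 (n := m) (congrArg Subtype.val hm))
  have N : ∀ c ∈ E, e * c * e⁻¹ ∈ E := fun c hc => (mem_normalizer_iff.1 (h.Y_norm (hY he)) c).1 hc
  let f : E →* X := MonoidHom.mk' (fun c => ⁅(c : X), e⁆) fun c c' => by
    have m : ⁅(c' : X), e⁆ ∈ E := by
      simpa only [commutatorElement_def, mul_assoc] using mul_mem c'.2 (N _ (inv_mem c'.2))
    have m' : ⁅(c : X), e⁆ ∈ E := by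
      simpa only [commutatorElement_def, mul_assoc] using mul_mem c.2 (N _ (inv_mem c.2))
    calc ⁅((c * c' : E) : X), e⁆ = c * ⁅(c' : X), e⁆ * (c : X)⁻¹ * ⁅(c : X), e⁆ := by
          simp only [commutatorElement_def, coe_mul]; group
      _ = _ := by rw [h.commE c.2 m, mul_inv_cancel_right, h.commE m m']
  have r : Nat.card f.range ≤ 2 := by
    have : (f.range : Set X) ⊆ {1, e' * e⁻¹} := by
      rintro _ ⟨c, rfl⟩
      refine (k c (hE c.2)).imp (fun q => ?_) fun q => ?_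
      · exact (congrArg (· * e⁻¹) q).trans (mul_inv_cancel e)
      · exact congrArg (· * e⁻¹) q
    exact (Set.ncard_le_ncard this).trans ((Set.ncard_insert_le _ _).trans (by rw [Set.ncard_singleton]))
  have q : Nat.card f.ker ≤ 4 := by
    rw [← card_subtype]
    refine (Subgroup.card_le_of_le ?_).trans f4
    rintro _ ⟨c, hc, rfl⟩
    exact ⟨c.2, mem_centralizer_singleton_iff.2 (commutatorElement_eq_one_iff_mul_comm.1 hc)⟩
  have := f.ker.card_mul_index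
  rw [index_ker, h.cardE] at this
  have := Nat.mul_le_mul q r
  omega

theorem two (h : Sx E Y a φ d) {T : Subgroup X} (h2 : IsPGroup 2 T) (hE : E ≤ T) (hY : T ≤ Y)
    (h1 : ∀ t ∈ T, InD (φ t)) (h3 : ∀ σ, InD σ → ∃ t ∈ T, φ t = σ) {e e' : X} (k : Two T e e') :
    e = d 0 1 ∨ e = d 2 3 := by
  have he := mem h h2 hE hY k
  obtain ⟨-, ne, k, t, ht, k'⟩ := k
  obtain ⟨i, j, ij, rfl⟩ := h.d_surj e he fun e1 => ne (by rw [← k', e1]; simp)
  rcases orb i j ij with o | o | o | ⟨m, n, o1, o2, o3⟩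
  · exact .inl (d_eq h o)
  · exact .inr (d_eq h o)
  · rw [d_eq h o, h.d_conj t (hY ht) 4 5 (by decide), d_eq h (act (h1 t ht)).2] at k'
    exact (ne (k'.symm.trans (d_eq h o).symm)).elim
  · obtain ⟨s, hs, es⟩ := h3 _ (sg_in m)
    obtain ⟨r, hr, er⟩ := h3 _ (sg_in n)
    have a1 := k s hs
    have a2 := k r hr
    rw [h.d_conj _ (hY hs) i j ij, es] at a1
    rw [h.d_conj _ (hY hr) i j ij, er] at a2
    have nm := (sg m).injective.ne ij
    have nn := (sg n).injective.ne ij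
    exact (o3 (h.d_inj _ _ _ _ nm nn ((a1.resolve_left fun q => o1 (h.d_inj _ _ _ _ nm ij q)).trans
      (a2.resolve_left fun q => o2 (h.d_inj _ _ _ _ nn ij q)).symm))).elim

end ET

theorem Sx.normT (h : Sx E Y a φ d) {T : Subgroup X} (h2 : IsPGroup 2 T) (hE : E ≤ T) (hY : T ≤ Y)
    (h1 : ∀ t ∈ T, InD (φ t)) (h3 : ∀ σ, InD σ → ∃ t ∈ T, φ t = σ) :
    normalizer (T : Set X) ≤ Y := fun g hg => by
  have m1 := h.d_mem 0 1 (by decide)
  have m2 := h.d_mem 2 3 (by decide)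
  have ne : d 0 1 ≠ d 2 3 := fun e => absurd (h.d_inj _ _ _ _ (by decide) (by decide) e) (by decide)
  obtain ⟨t, ht, et⟩ := h3 _ (ET.sg_in 0)
  have t1 : t * d 0 1 * t⁻¹ = d 2 3 := by
    rw [h.d_conj t (hY ht) 0 1 (by decide), et]; exact ET.d_eq h (by decide)
  have t2 : t * d 2 3 * t⁻¹ = d 0 1 := by
    rw [h.d_conj t (hY ht) 2 3 (by decide), et]; exact ET.d_eq h (by decide)
  have k1 : ET.Two T (d 0 1) (d 2 3) := ⟨hE m1, ne.symm, fun s hs => by
    rw [h.d_conj s (hY hs) 0 1 (by decide)]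
    exact (ET.act (h1 s hs)).1.imp (ET.d_eq h) (ET.d_eq h), t, ht, t1⟩
  have k2 : ET.Two T (d 2 3) (d 0 1) := by
    have := k1.conj (le_normalizer ht)
    rwa [t1, t2] at this
  have fin : ∀ x, x * d 0 1 * x⁻¹ = d 0 1 → x * d 2 3 * x⁻¹ = d 2 3 → x ∈ Y := fun x a b =>
    h.four _ m1 _ m2 (h.d_ne _ _ (by decide)) (h.d_ne _ _ (by decide)) ne x
      (mul_inv_eq_iff_eq_mul.1 a) (mul_inv_eq_iff_eq_mul.1 b)
  have ne' : g * d 0 1 * g⁻¹ ≠ g * d 2 3 * g⁻¹ := fun e => ne (by simpa using e)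
  rcases ET.two h h2 hE hY h1 h3 (k1.conj hg) with a | a <;>
    rcases ET.two h h2 hE hY h1 h3 (k2.conj hg) with b | b
  · exact (ne' (a.trans b.symm)).elim
  · exact fin g a b
  · refine (Y.mul_mem_cancel_left (hY ht)).1 (fin (t * g) ?_ ?_)
    · rw [show t * g * d 0 1 * (t * g)⁻¹ = t * (g * d 0 1 * g⁻¹) * t⁻¹ by group, a, t2]
    · rw [show t * g * d 2 3 * (t * g)⁻¹ = t * (g * d 2 3 * g⁻¹) * t⁻¹ by group, b, t1]
  · exact (ne' (a.trans b.symm)).elim

end Cfsg.Lib.R11
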