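import Cfsg.Agent.SporChar.U43Model
import Cfsg.Agent.SporChar.WFormTop

/-! `U₄(3)` has no element of order 15. -/

set_option autoImplicit false
set_option exponentiation.threshold 8000

namespace Cfsg.Lib.R11

open Subgroup Cfsg.Lib.SporChar Cfsg.Lib.SporChar.U4 Cfsg.Lib.Spor Cfsg.Lib.Spor.PK

def EU.cl5 : Cfsg.Lib.Spor.PK.Cl where
  wd := [1, 1]
  cert := [⟨23, [704, 3201, 320, 5505, 1664, 3393, 128, 4993, 3776, 4801, 5248, 769, 5376, 1729, 5440, 1, 5888, 3265,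
    2048, 6209, 3008, 3520, 6785, 1088, 3712, 6529, 832, 2881, 4544, 4480, 1921, 6400, 4161, 4736, 961, 6080,
    6976, 1537, 1856, 4929, 5632, 6721, 512, 6273, 2688, 1985, 5952, 384, 3841, 4608, 3136, 2625, 2752, 897,
    5056, 2432, 4417, 2945, 448, 4673, 4289, 6656, 6145, 3904, 4033, 1280, 193, 6016, 1408, 2369, 3585, 5696,
    4225, 2112, 5185, 2816, 5825, 1601, 4352, 1345, 4096, 3328, 6848, 1217, 5568, 2561, 2241, 2496, 3649,
    6592, 5313, 6464, 2177, 5760, 577, 64, 6337, 641, 3968, 1024, 7041, 3457, 2304, 4865, 7105, 256, 1792,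
    3073, 5120, 1152, 6912], [[1, 1, 0, 1, 0, 0, 0, 0, 0, 1, 0, 0, 1, 0], [1, 1, 0, 1, 0, 1, 1, 1, 1, 0, 0, 0,
    1, 1]]⟩,
   ⟨27, [1984, 2753, 3008, 2369, 4992, 3264, 6144, 641, 5056, 897, 1537, 6080, 5889, 384, 6464, 4480, 3393, 2240,
    2497, 1024, 5569, 1089, 3840, 5761, 4289, 6016, 4161, 6400, 1920], [[0, 1, 1, 0, 1, 0, 1, 1, 1, 0, 1, 0],
    [0, 1, 1, 0, 1, 0, 0, 1, 0, 1, 0, 1, 1, 0], [0, 0, 0, 1, 0, 0, 1, 1, 0, 0]]⟩,
   ⟨50, [6912, 7105, 4802, 4608, 129, 2945, 2114, 256, 2561, 6658, 1346, 4032, 1793, 4737, 6978, 768, 1, 5698,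
    5440, 4545, 322, 2432, 4865, 3138, 7042, 5506], [[1, 2, 0, 0, 2, 1], [1, 2, 0, 2, 0, 2]]⟩,
   ⟨45, [5184, 1409, 1664, 4417, 704, 449, 5952, 6336, 3585, 6272, 3904, 3521, 3649, 3776, 1280, 2625, 3968],
    [[1, 1]]⟩,
   ⟨53, [6144], []⟩]
  es := [1, 4]
  c := 5
  nc := []

theorem EU.exists_five : ∃ y : gen psU, orderOf y = 5 ∧ Nat.card (centralizer {y}) = 5 := by
  refine ⟨⟨_, evalG_mem psU EU.cl5.wd⟩, (orderOf_mk _ _).trans ((densU.evalW ctxU (isMul_pmul ctxU)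
    _).orderOf_eq ctxU (isMul_pmul ctxU) (by decide) (ps := [5]) (fun p hp h => by
      simpa using (Nat.prime_dvd_prime_iff_eq hp Nat.prime_five).mp h) (by decide +kernel)), ?_⟩
  rw [← card_subtype, ← show _ = 5 from
    (clOk_sound ctxU densU card_U (cl := EU.cl5) (by decide +kernel)).1]
  congr 2
  ext g
  refine ⟨?_, fun h => ⟨⟨g, h.1⟩, mem_centralizer_singleton_iff.mpr
    (Subtype.ext (mem_centralizer_singleton_iff.mp h.2)), rfl⟩⟩
  rintro ⟨g, hg, rfl⟩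
  exact ⟨g.2, mem_centralizer_singleton_iff.mpr
    (congrArg Subtype.val (mem_centralizer_singleton_iff.mp hg))⟩

theorem EU.cent_5 {x d : gen psU} (hx : orderOf x = 5) (h : d * x = x * d) : d ∈ zpowers x := by
  have : Fact (Nat.Prime 5) := ⟨by norm_num⟩
  obtain ⟨y, h1, h2⟩ := EU.exists_five
  have hc : Nat.card (gen psU) = 5 * 653184 := card_U
  have h3 : zpowers y = centralizer {y} := eq_of_le_of_card_ge
    (zpowers_le.2 (mem_centralizer_singleton_iff.2 rfl)) (by rw [h2, Nat.card_zpowers, h1])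
  exact WF.mem_zpowers_of_cent hc (by norm_num) (WF.cent_sylow_prime hc (by norm_num) h1
    fun d hd => h3 ▸ mem_centralizer_singleton_iff.2 hd) hx h

theorem no15 {F : Type} [Field F] [Fintype F] (hF : Fintype.card F = 9) (g : PSU 4 F 3) :
    orderOf g ≠ 15 := fun hg => by
  obtain ⟨e⟩ := nonempty_equiv_PSU hF
  have h1 : orderOf (e.symm g) = 15 := (e.symm.orderOf_eq g).trans hg
  generalize e.symm g = x at h1
  have h5 : orderOf (x ^ 3) = 5 := by rw [orderOf_pow' _ (by norm_num), h1]; rfl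
  have := orderOf_dvd_of_mem_zpowers (EU.cent_5 h5 ((Commute.refl x).pow_right 3).eq)
  rw [h1, h5] at this
  omega

end Cfsg.Lib.R11
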