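import Cfsg.Agent.R11.EF
import Cfsg.Agent.R11.EI
import Cfsg.Agent.R11.EM

/-! The section `2⁴.3.A₆` in the quotient by the extraspecial group. -/

set_option autoImplicit false

namespace Cfsg.Lib.R11

open Subgroup Equiv Cfsg.Lib.Trans Cfsg.Lib.Local Cfsg.Lib.SporChar
open scoped commutatorElement

universe u

variable {G : Type u} [Group G] [Finite G] {z x : G} {Q B Y : Subgroup G} {hx : G → Perm (Fin 6)}
  {L : Fin 6 → Subgroup G} {Φ : ℕ → G}

theorem hex_sx (h : Frame z x Q B Y hx L Φ) {M : Subgroup G} (hQ : Q ≤ M)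
    (hH : M ≤ centralizer ({z} : Set G)) (hi : M.relIndex (centralizer ({z} : Set G)) = 2)
    (hY : ∀ y ∈ Y, y ∈ M ↔ Perm.sign (hx y) = 1)
    (sol : ∀ b ∈ B, b ∉ zpowers z → ∀ C : Subgroup G,
      (∀ c, c ∈ C ↔ c ∈ centralizer ({z} : Set G) ∧ c * b * c⁻¹ * b⁻¹ ∈ Q) → Group.IsSolvable C)
    {X : Type u} [Group X] [Finite X] (π : M →* X) (hs : Function.Surjective π)
    (hk : ∀ m, π m = 1 ↔ (m : G) ∈ Q) (hxM : x ∈ M) :
    ∃ φ d, Sx ((B.subgroupOf M).map π) ((Y.subgroupOf M).map π) (π ⟨x, hxM⟩) φ d := by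
  classical
  have H : Hex z x Q B Y hx := h.toOval.toHex
  obtain ⟨D, D1, D2, D3, D4, D5, D6⟩ := hex_duad h
  have zQ : zpowers z ≤ Q := zpowers_le.2 H.pre.mem
  have BM : B ≤ M := fun b hb => (hY b (H.BY hb)).2 (by
    rw [H.hx_of_mem (mem_sup_left (mem_sup_right hb)), map_one])
  have eq : ∀ m m' : M, π m = π m' ↔ (m : G) * (m' : G)⁻¹ ∈ Q := fun m m' => by
    rw [← mul_inv_eq_one, ← map_inv, ← map_mul, hk]; rfl
  have ker : π.ker = Q.subgroupOf M := Subgroup.ext hk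
  have YM : ((Y.subgroupOf M).map π).comap π = Y.subgroupOf M :=
    comap_map_eq_self (ker ▸ comap_mono H.QY)
  have bi : ∀ b ∈ B, b⁻¹ = b := fun b hb => inv_eq_of_mul_eq_one_right (H.sqB b hb)
  have nz : ∀ m : M, π m ≠ 1 → (m : G) ∉ zpowers z := fun m h1 h2 => h1 ((hk m).2 (zQ h2))
  let φ : X → Perm (Fin 6) := fun u => if e : ∃ m : M, (m : G) ∈ Y ∧ π m = u then hx e.choose else 1
  have hφ : ∀ m : M, (m : G) ∈ Y → φ (π m) = hx m := fun m hm => by
    have e : ∃ m' : M, (m' : G) ∈ Y ∧ π m' = π m := ⟨m, hm, rfl⟩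
    have k := (eq _ _).1 e.choose_spec.2
    simp only [φ, dif_pos e]
    rw [← inv_mul_cancel_right (e.choose : G) m, mul_assoc, ← mul_assoc, H.hx_mul _ (H.QY k) _ hm,
      H.hxQ k, one_mul]
  refine ⟨φ, fun i j => π ⟨D i j, BM (D1 i j)⟩, ?_, mem_map_of_mem π (x := ⟨x, hxM⟩) H.xY,
    map_mono (comap_mono H.BY), ?_, ?_, ?_, ?_, ?_, fun σ hσ => ?_, ?_,
    fun i j _ => mem_map_of_mem π (x := ⟨_, _⟩) (D1 i j),
    fun i j e k => D2 i j e (H.BQ _ (D1 i j) ((hk _).1 k)), fun i j => by simp only [D3 i j],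
    fun i j k l e e' f => D4 i j k l e e' (H.BQ _ (mul_mem (D1 i j) (D1 k l)) ?_), ?_, ?_,
    fun u hu => ?_, ?_, ?_, ?_, ?_,
    fun d => hex_n13 H (d.trans ((card_dvd_of_surjective π hs).trans (card_dvd_of_le hH)))⟩
  · refine orderOf_eq_prime ?_ fun e => ?_
    · rw [← map_pow, show (⟨x, hxM⟩ : M) ^ 3 = 1 from Subtype.ext (H.x3 ▸ pow_orderOf_eq_one x), map_one]
    · have := Q.orderOf_dvd_natCard ((hk _).1 e)
      rw [H.x3, H.cardQ] at this
      exact absurd this (by norm_num)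
  · have c := card_mul_relIndex (zpowers_le.2 H.zB)
    rw [H.card_zp, H.cardB, show zpowers z = Q ⊓ B from le_antisymm (le_inf zQ (zpowers_le.2 H.zB))
      fun b hb => H.BQ b hb.2 hb.1, inf_relIndex_right] at c
    rw [← relIndex_ker, ker, relIndex_subgroupOf BM]
    omega
  · rintro _ ⟨m, hm, rfl⟩
    rw [← map_mul, show m * m = 1 from Subtype.ext (H.sqB _ hm), map_one]
  · rintro _ ⟨m, hm, rfl⟩
    obtain ⟨q, hq, k, hk', e, e'⟩ := H.fac m hm
    have kM : k ∈ M := by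
      have := mul_mem (inv_mem (hQ hq)) m.2
      rwa [e', inv_mul_cancel_left] at this
    have e1 : k * x * k⁻¹ = x := e.resolve_right fun e => by
      have := H.odd k hk' e
      rw [(hY k hk').1 kM] at this
      exact absurd this (by decide)
    rw [(eq m ⟨k, kM⟩).2 (by simpa [e'] using hq), ← map_mul, ← map_mul]
    exact congrArg π (Subtype.ext (mul_inv_eq_iff_eq_mul.1 e1))
  · rintro _ ⟨m, hm, rfl⟩ _ ⟨m', hm', rfl⟩
    rw [← map_mul, hφ (m * m') (Y.mul_mem hm hm'), hφ _ hm, hφ _ hm']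
    exact H.hx_mul _ hm _ hm'
  · rintro _ ⟨m, hm, rfl⟩
    rw [hφ _ hm]; exact (hY _ hm).1 m.2
  · obtain ⟨y, hy, rfl⟩ := H.hx_surj σ
    exact ⟨_, mem_map_of_mem π (x := ⟨y, (hY y hy).2 hσ⟩) hy, hφ _ hy⟩
  · rintro _ ⟨m, hm, rfl⟩
    have e : zpowers (⟨x, hxM⟩ : M) = (zpowers x).subgroupOf M := by
      ext g; simp [mem_subgroupOf, mem_zpowers_iff, Subtype.ext_iff]
    rw [hφ _ hm, H.hx_ker m hm, ← MonoidHom.map_zpowers, ← Subgroup.map_sup, ← mem_comap, comap_map_eq,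
      ker, e, ← subgroupOf_sup BM (zpowers_le.2 hxM), ← subgroupOf_sup (sup_le BM (zpowers_le.2 hxM)) hQ,
      mem_subgroupOf, sup_comm _ Q, sup_assoc]
  · have := (eq _ _).1 f
    rwa [bi _ (D1 k l)] at this
  · rintro _ ⟨m, hm, rfl⟩ h1
    obtain ⟨i, j, e, k⟩ := D5 m hm (nz m h1)
    exact ⟨i, j, e, (eq _ _).2 (by rw [bi m hm]; exact zQ k)⟩
  · rintro _ ⟨m, hm, rfl⟩ i j e
    rw [← map_inv, ← map_mul, ← map_mul, hφ _ hm, eq]
    exact D6 m hm i j e
  · obtain ⟨m, rfl⟩ := hs u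
    rw [← mem_comap, comap_normalizer_eq_of_surjective _ hs, comap_map_eq, ker, ← subgroupOf_sup BM hQ,
      ← subgroupOf_normalizer_eq (sup_le BM hQ), sup_comm] at hu
    exact mem_map_of_mem π (H.norm _ (hH m.2) hu)
  · rw [← index_comap_of_surjective _ hs, YM]
    change Odd (Y.relIndex M)
    have a := relIndex_mul_relIndex (Y ⊓ M) M _ inf_le_right hH
    have b := relIndex_mul_relIndex (Y ⊓ M) Y _ inf_le_left H.YH
    have c := relIndex_le_of_le_right H.YH (hi ▸ two_ne_zero : M.relIndex _ ≠ 0)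
    have d : M.relIndex Y ≠ 0 := index_ne_zero_of_finite
    have e : M.relIndex Y ≠ 1 := fun e => by
      obtain ⟨y, hy, k⟩ := H.hx_surj (swap 0 1)
      have := (hY y hy).1 (relIndex_eq_one.1 e hy)
      rw [k] at this
      exact absurd this (by decide)
    rw [inf_relIndex_right, hi] at a
    rw [inf_relIndex_left, show M.relIndex Y = 2 by omega, ← a] at b
    exact (show Y.relIndex (centralizer ({z} : Set G)) = Y.relIndex M by omega) ▸ H.oddIndex
  · rintro _ ⟨m, hm, rfl⟩ _ ⟨m', hm', rfl⟩ h1 h2 h3 g e1 e2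
    obtain ⟨c, rfl⟩ := hs g
    have k : ∀ n : M, π c * π n = π n * π c → (c : G) * n * (c : G)⁻¹ * (n : G)⁻¹ ∈ Q := fun n e =>
      (eq (c * n * c⁻¹) n).1 (by rw [map_mul, map_mul, map_inv, e, mul_inv_cancel_right])
    exact mem_map_of_mem π (hex_four H hm hm' (nz m h1) (nz m' h2)
      (fun e => h3 ((eq _ _).2 (by rw [bi m' hm']; exact zQ e))) (hH c.2) (k m e1) (k m' e2))
  · obtain ⟨R, h1, h2, h3⟩ := H.comm
    have RM : R ≤ M := fun r hr => (hY r (h1 hr).1).2 (H.even r (h1 hr).1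
      (mul_inv_eq_iff_eq_mul.2 (mem_centralizer_singleton_iff.1 (h1 hr).2)))
    refine ⟨(R.subgroupOf M).map π, map_mono (comap_mono (h1.trans inf_le_left)),
      h2.comap_subtype.map π, ?_⟩
    rw [← map_commutator]
    refine mem_map_of_mem π ((mem_map_iff_mem M.subtype_injective).1 ?_)
    rwa [map_commutator, subgroupOf_map_subtype, inf_eq_left.2 RM]
  · rintro _ ⟨m, hm, rfl⟩ h1
    have n : ∀ c ∈ centralizer ({z} : Set G), ∀ q ∈ Q, c * q * c⁻¹ ∈ Q := fun c hc q hq =>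
      (mem_normalizer_iff.1 (H.pre.norm hc) q).1 hq
    let C : Subgroup G :=
      { carrier := {c | c ∈ centralizer ({z} : Set G) ∧ c * m * c⁻¹ * (m : G)⁻¹ ∈ Q}
        one_mem' := ⟨one_mem _, by simp⟩
        mul_mem' := fun {a b} ha hb => ⟨mul_mem ha.1 hb.1, by
          convert mul_mem (n a ha.1 _ hb.2) ha.2 using 1; group⟩
        inv_mem' := fun {a} ha => ⟨inv_mem ha.1, by
          convert n _ (inv_mem ha.1) _ (inv_mem ha.2) using 1; group⟩ }
    haveI := sol m hm (nz m h1) C fun c => Iff.rfl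
    haveI : Group.IsSolvable (C.subgroupOf M) := Group.isSolvable_of_isSolvable_injective
      (f := (M.subtype.comp (C.subgroupOf M).subtype).codRestrict C fun c => c.2)
      fun a b e => Subtype.ext (Subtype.ext (congrArg (fun t : C => (t : G)) e))
    haveI := Group.isSolvable_of_surjective (π.subgroupMap_surjective (C.subgroupOf M))
    refine Group.isSolvable_of_isSolvable_injective
      (inclusion_injective (K := (C.subgroupOf M).map π) fun u hu => ?_)
    obtain ⟨c, rfl⟩ := hs u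
    exact mem_map_of_mem π ⟨hH c.2, (eq (c * m * c⁻¹) m).1 (by
      rw [map_mul, map_mul, map_inv, mem_centralizer_singleton_iff.1 hu, mul_inv_cancel_right])⟩

end Cfsg.Lib.R11
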