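import Cfsg.Agent.Class.M24Idx
import Cfsg.Agent.S1589
import Cfsg.Agent.S0371
import Cfsg.Agent.S0373
import Cfsg.Agent.S0378
import Cfsg.Agent.S0366

/-! Faithful `M24`-modules of order `2^11`: fixed points, irreducibility and orbit lengths. -/

set_option autoImplicit false

namespace Cfsg.Lib.R11.Mod

open Cfsg Cfsg.Lib.Spor Cfsg.Lib.Spor.Orb Cfsg.Lib.Class.M24I MulAction
open scoped Pointwise

theorem modEq_inv {G α : Type*} [Group G] [MulAction G α] [Finite α] {p : ℕ} (hp : p.Prime)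
    {g : G} (hg : g ^ p = 1) (X : Set α) (hX : ∀ x ∈ X, g • x ∈ X) :
    X.ncard ≡ {x | x ∈ X ∧ g • x = x}.ncard [MOD p] := by
  classical
  have := Fact.mk hp
  have := Fintype.ofFinite X
  let f : Function.End X := fun x => ⟨g • (x : α), hX _ x.2⟩
  have hn : ∀ (n : ℕ) (x : X), (((f ^ n) x : X) : α) = g ^ n • (x : α) := by
    intro n
    induction n with
    | zero => intro x; rw [pow_zero, pow_zero, one_smul]; rfl
    | succ n ih =>
      intro x
      rw [pow_succ, pow_succ, mul_smul]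
      exact ih (f x)
  have hf : f ^ p ^ 1 = 1 := by
    funext x
    apply Subtype.ext
    rw [hn, pow_one, hg, one_smul]
    rfl
  have h := Equiv.Perm.card_fixedPoints_modEq hf
  rw [← Nat.card_eq_fintype_card, ← Nat.card_eq_fintype_card, Nat.card_coe_set_eq,
    Nat.card_coe_set_eq] at h
  convert h using 1
  rw [← Set.ncard_image_of_injective _ Subtype.val_injective]
  congr 1
  ext x
  constructor
  · rintro ⟨h1, h2⟩
    exact ⟨⟨x, h1⟩, Subtype.ext h2, rfl⟩
  · rintro ⟨y, h1, rfl⟩
    exact ⟨y.2, congrArg Subtype.val h1⟩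

theorem ex_elts : ∃ g d : M24, orderOf g = 11 ∧ orderOf d = 5 ∧ d * g = g ^ 3 * d := by
  have hu : IsSquare (⟨2, 12, by decide, by decide⟩ : (ZMod 23)ˣ) :=
    ⟨⟨5, 14, by decide, by decide⟩, Units.ext (by decide)⟩
  refine ⟨⟨_, Cfsg.Agent.S0371.result _ hu⟩, ⟨_, Cfsg.Agent.S0373.result⟩, ?_, ?_, ?_⟩
  · have := Fact.mk (show Nat.Prime 11 by norm_num)
    apply orderOf_eq_prime
    · apply Subtype.ext
      apply Equiv.ext
      have : ∀ x : GolayPt, (Option.map fun t : ZMod 23 => 2 * t)^[11] x = x := by decide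
      exact this
    · intro h
      have : (some (2 * 1) : GolayPt) = some 1 :=
        congrArg (fun s : M24 => (s : Equiv.Perm GolayPt) (some 1)) h
      revert this
      decide
  · have := Fact.mk (show Nat.Prime 5 by norm_num)
    apply orderOf_eq_prime
    · apply Subtype.ext
      apply Equiv.ext
      have : ∀ x, cubeTwistFun (cubeTwistFun (cubeTwistFun (cubeTwistFun (cubeTwistFun x)))) = x := by
        decide
      exact this
    · intro h
      have : cubeTwistFun (some 1) = some 1 :=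
        congrArg (fun s : M24 => (s : Equiv.Perm GolayPt) (some 1)) h
      revert this
      decide
  · apply Subtype.ext
    apply Equiv.ext
    have : ∀ x : GolayPt, cubeTwistFun (x.map (2 * ·)) =
        (((cubeTwistFun x).map (2 * ·)).map (2 * ·)).map (2 * ·) := by decide
    exact this

theorem ex3 {a b c d e : GolayPt} (hab : a ≠ b) (hac : a ≠ c) (hbc : b ≠ c)
    (had : a ≠ d) (hbd : b ≠ d) (hcd : c ≠ d) (hae : a ≠ e) (hbe : b ≠ e) (hce : c ≠ e) :
    ∃ g : M24, g • a = a ∧ g • b = b ∧ g • c = c ∧ g • d = e := by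
  have h5 : IsMultiplyPretransitive M24 GolayPt 5 := Cfsg.Agent.S0366.result
  have h4 : IsMultiplyPretransitive M24 GolayPt 4 :=
    isMultiplyPretransitive_of_le (by norm_num : 4 ≤ 5) (by rw [Nat.card_eq_fintype_card]; decide)
  have i1 : Function.Injective ![a, b, c, d] := by
    intro i j; fin_cases i <;> fin_cases j <;> simp_all [eq_comm]
  have i2 : Function.Injective ![a, b, c, e] := by
    intro i j; fin_cases i <;> fin_cases j <;> simp_all [eq_comm]
  obtain ⟨g, hg⟩ := h4.exists_smul_eq ⟨_, i1⟩ ⟨_, i2⟩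
  have h := fun i => congrArg (fun s : Fin 4 ↪ GolayPt => s i) hg
  exact ⟨g, h 0, h 1, h 2, h 3⟩

theorem ex_not (s : Finset GolayPt) (h : s.card < 24) : ∃ p, p ∉ s := exists_not_mem h

theorem index_ne_23 (H : Subgroup M24) : H.index ≠ 23 := by
  intro hH
  have hc : Nat.card H = 10644480 := by
    have := (Subgroup.card_mul_index H).trans card_M24'
    rw [hH] at this
    omega
  rcases trans_or_duad (H := H) (by omega) (by omega) (by omega) with ⟨a, ha⟩ | ⟨a, ha⟩
  swap
  · have h1 : H ≤ stabilizer M24 (orb H a)ᶜ := (inv_orb H a).compl.le_stab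
    have := Subgroup.card_le_of_le h1
    rw [card_stab_duad (by rw [card_compl', ha])] at this
    omega
  have hall : ∀ x, x ∈ orb H a := fun x => by
    rw [Finset.eq_univ_of_card _ (ha.trans card_golayPt.symm)]; exact Finset.mem_univ x
  have hstab : ∀ x : GolayPt, Nat.card ↥(H ⊓ stabilizer M24 x) = 443520 := by
    intro x
    have := card_orb_mul H x
    rw [Finset.eq_univ_of_forall (s := orb H x) fun y =>
      mem_orb.2 (exists_smul_of_mem_orb (hall x) (hall y)), Finset.card_univ, card_golayPt] at this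
    omega
  have hfix : ∀ x : GolayPt, ∃ y : GolayPt, y ≠ x ∧
      H ⊓ stabilizer M24 x = stabilizer M24 x ⊓ stabilizer M24 y := by
    intro x
    have hx := hstab x
    have hone : ∀ b : GolayPt, 2 ≤ (orb (H ⊓ stabilizer M24 x) b).card →
        x ∉ orb (H ⊓ stabilizer M24 x) b := by
      intro b h2 hm
      have : orb (H ⊓ stabilizer M24 x) b ⊆ {x} := fun w hw => by
        obtain ⟨k, hk, rfl⟩ := exists_smul_of_mem_orb hm hw
        exact Finset.mem_singleton.2 hk.2
      have := Finset.card_le_card this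
      rw [Finset.card_singleton] at this
      omega
    rcases trans_or_duad (H := H ⊓ stabilizer M24 x) (by omega) (by omega) (by omega) with
      ⟨b, hb⟩ | ⟨b, hb⟩
    · exact absurd (by rw [Finset.eq_univ_of_card _ (hb.trans card_golayPt.symm)]; simp)
        (hone b (by omega))
    have h2 : (orb (H ⊓ stabilizer M24 x) b)ᶜ.card = 2 := by rw [card_compl', hb]
    have hxm := Finset.mem_compl.2 (hone b (by omega))
    obtain ⟨y, hy, hyx⟩ :=
      Finset.exists_mem_ne (by omega : 1 < (orb (H ⊓ stabilizer M24 x) b)ᶜ.card) x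
    have hpair : (orb (H ⊓ stabilizer M24 x) b)ᶜ = {x, y} := by
      symm
      apply Finset.eq_of_subset_of_card_le
      · intro w hw
        rcases Finset.mem_insert.1 hw with rfl | hw
        · exact hxm
        · exact Finset.mem_singleton.1 hw ▸ hy
      · rw [h2, Finset.card_pair hyx.symm]
    refine ⟨y, hyx, eq_of_le_of_card (le_inf inf_le_right fun k hk => ?_) ?_⟩
    · have h3 := (inv_orb (H ⊓ stabilizer M24 x) b).compl k hk y hy
      rw [hpair, Finset.mem_insert, Finset.mem_singleton] at h3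
      rcases h3 with h3 | h3
      · exact absurd (smul_left_cancel k (h3.trans (show k • x = x from hk.2).symm)) hyx
      · exact h3
    · rw [hx, Cfsg.Agent.S0378.result x y hyx.symm]
  obtain ⟨b, hba, hb⟩ := hfix a
  obtain ⟨c, hc'⟩ := ex_not {a, b} (by have := Finset.card_le_two (a := a) (b := b); omega)
  rw [Finset.mem_insert, Finset.mem_singleton, not_or] at hc'
  obtain ⟨d, hdc, hd⟩ := hfix c
  -- a point `x ∈ {a, b}` different from `d`
  by_cases h1 : d = a ∨ d = b
  · -- the stabiliser of `c, d` lies in `H`, fixes `d`, hence equals the stabiliser of `a, b`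
    have e1 : H ⊓ stabilizer M24 a ≤ H ⊓ stabilizer M24 d := by
      rcases h1 with rfl | rfl
      · exact le_rfl
      · exact le_inf inf_le_left (hb ▸ inf_le_right)
    have e2 : H ⊓ stabilizer M24 a = H ⊓ stabilizer M24 d :=
      eq_of_le_of_card e1 (by rw [hstab, hstab])
    have e3 : H ⊓ stabilizer M24 c = H ⊓ stabilizer M24 d :=
      eq_of_le_of_card (le_inf inf_le_left (hd ▸ inf_le_right)) (by rw [hstab, hstab])
    obtain ⟨e, he⟩ := ex_not {a, b, c} (by have := Finset.card_le_three (a := a) (b := b) (c := c); omega)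
    simp only [Finset.mem_insert, Finset.mem_singleton, not_or] at he
    obtain ⟨f, hf⟩ := ex_not {a, b, c, e} (by
      have := Finset.card_insert_le a {b, c, e}
      have := Finset.card_le_three (a := b) (b := c) (c := e); omega)
    simp only [Finset.mem_insert, Finset.mem_singleton, not_or] at hf
    obtain ⟨g, g1, g2, -, g4⟩ := ex3 (a := a) (b := b) (c := e) (d := c) (e := f) hba.symm
      (Ne.symm he.1) (Ne.symm he.2.1) (Ne.symm hc'.1) (Ne.symm hc'.2) he.2.2 (Ne.symm hf.1)
      (Ne.symm hf.2.1) (Ne.symm hf.2.2.2)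
    have : g ∈ H ⊓ stabilizer M24 c := by rw [e3, ← e2, hb]; exact ⟨g1, g2⟩
    exact hf.2.2.1 (g4.symm.trans this.2)
  · rw [not_or] at h1
    obtain ⟨f, hf⟩ := ex_not {a, b, c, d} (by
      have := Finset.card_insert_le a {b, c, d}
      have := Finset.card_le_three (a := b) (b := c) (c := d); omega)
    simp only [Finset.mem_insert, Finset.mem_singleton, not_or] at hf
    obtain ⟨g, g1, g2, g3, g4⟩ := ex3 (a := a) (b := b) (c := c) (d := d) (e := f) hba.symm
      (Ne.symm hc'.1) (Ne.symm hc'.2) (Ne.symm h1.1) (Ne.symm h1.2) hdc.symm (Ne.symm hf.1)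
      (Ne.symm hf.2.1) (Ne.symm hf.2.2.1)
    have h2 : g ∈ H ⊓ stabilizer M24 a := by rw [hb]; exact ⟨g1, g2⟩
    have h3 : g ∈ H ⊓ stabilizer M24 c := ⟨h2.1, g3⟩
    rw [hd] at h3
    exact hf.2.2.2 (g4.symm.trans h3.2)

variable {V : Type*} [AddCommGroup V] [Finite V] [DistribMulAction M24 V]

omit [Finite V] [DistribMulAction M24 V] in
theorem card_sub (hc : Nat.card V = 2048) (W : AddSubgroup V) :
    ∃ k ≤ 11, (W : Set V).ncard = 2 ^ k := by
  have h := AddSubgroup.card_addSubgroup_dvd_card W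
  rw [hc, show 2048 = 2 ^ 11 by norm_num] at h
  exact (Nat.dvd_prime_pow Nat.prime_two).1 h

theorem card_fixed (hc : Nat.card V = 2048) (hf : ∀ g : M24, (∀ v : V, g • v = v) → g = 1)
    {g : M24} {p : ℕ} (hp : p.Prime) (ho : orderOf g = p) :
    ∃ k < 11, {v : V | g • v = v}.ncard = 2 ^ k ∧ 2048 ≡ 2 ^ k [MOD p] := by
  obtain ⟨k, hk, e⟩ := card_sub hc
    ((DistribSMul.toAddMonoidHom V g).eqLocus (AddMonoidHom.id V))
  have e' : {v : V | g • v = v}.ncard = 2 ^ k := e
  have h := modEq_inv hp (ho ▸ pow_orderOf_eq_one g) (Set.univ : Set V) fun _ _ => trivial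
  simp only [Set.mem_univ, true_and] at h
  rw [Set.ncard_univ, hc, e'] at h
  refine ⟨k, lt_of_le_of_ne hk ?_, e', h⟩
  rintro rfl
  have : {v : V | g • v = v} = Set.univ :=
    Set.eq_of_subset_of_ncard_le (Set.subset_univ _) (by rw [Set.ncard_univ, hc, e']; norm_num)
  have h1 := hf g fun v => show v ∈ {v : V | g • v = v} from this ▸ Set.mem_univ v
  rw [h1, orderOf_one] at ho
  exact hp.one_lt.ne ho

theorem fix23 (hc : Nat.card V = 2048) (hf : ∀ g : M24, (∀ v : V, g • v = v) → g = 1)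
    {g : M24} (ho : orderOf g = 23) {v : V} (hv : g • v = v) : v = 0 := by
  obtain ⟨k, hk, e, h⟩ := card_fixed hc hf (by norm_num) ho
  have : k = 0 := by
    interval_cases k <;> first | rfl | exact absurd h (by decide)
  subst this
  obtain ⟨a, ha⟩ := Set.ncard_eq_one.1 e
  have h1 : v ∈ ({a} : Set V) := ha ▸ hv
  have h2 : (0 : V) ∈ ({a} : Set V) := ha ▸ smul_zero g
  exact h1.trans h2.symm

theorem fix11 (hc : Nat.card V = 2048) (hf : ∀ g : M24, (∀ v : V, g • v = v) → g = 1)
    {g : M24} (ho : orderOf g = 11) :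
    ∃ u : V, u ≠ 0 ∧ g • u = u ∧ ∀ v : V, g • v = v → v = 0 ∨ v = u := by
  obtain ⟨k, hk, e, h⟩ := card_fixed hc hf (by norm_num) ho
  have : k = 1 := by
    interval_cases k <;> first | rfl | exact absurd h (by decide)
  subst this
  obtain ⟨a, b, hab, ha⟩ := Set.ncard_eq_two.1 e
  have h2 : (0 : V) ∈ ({a, b} : Set V) := ha ▸ smul_zero g
  have h3 : ∀ v : V, g • v = v ↔ v = a ∨ v = b := fun v => Set.ext_iff.1 ha v
  rcases h2 with rfl | rfl
  · exact ⟨b, hab.symm, (h3 b).2 (Or.inr rfl), fun v hv => (h3 v).1 hv⟩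
  · exact ⟨a, hab, (h3 a).2 (Or.inl rfl), fun v hv => ((h3 v).1 hv).symm⟩

theorem ex23 : ∃ g : M24, orderOf g = 23 := by
  have := Fact.mk (show Nat.Prime 23 by norm_num)
  exact exists_prime_orderOf_dvd_card' 23 (by rw [card_M24']; norm_num)

/-- Invariant sets of nonzero vectors have size divisible by `23`. -/
theorem dvd23 (hc : Nat.card V = 2048) (hf : ∀ g : M24, (∀ v : V, g • v = v) → g = 1)
    (X : Set V) (hX : ∀ g : M24, ∀ x ∈ X, g • x ∈ X) (h0 : (0 : V) ∉ X) : 23 ∣ X.ncard := by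
  obtain ⟨g, hg⟩ := ex23
  have h := modEq_inv (by norm_num) (hg ▸ pow_orderOf_eq_one g) X (hX g)
  rw [show {x | x ∈ X ∧ g • x = x} = ∅ from Set.eq_empty_of_forall_notMem fun x hx =>
    h0 (fix23 hc hf hg hx.2 ▸ hx.1), Set.ncard_empty] at h
  exact (Nat.modEq_zero_iff_dvd.1 h)

/-- Irreducibility. -/
theorem irr (hc : Nat.card V = 2048) (hf : ∀ g : M24, (∀ v : V, g • v = v) → g = 1)
    (W : AddSubgroup V) (hW : ∀ g : M24, ∀ x ∈ W, g • x ∈ W) : W = ⊥ ∨ W = ⊤ := by
  obtain ⟨k, hk, e⟩ := card_sub hc W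
  have h := dvd23 hc hf ((W : Set V) \ {0}) (fun g x hx =>
    ⟨hW g x hx.1, fun h => hx.2 ((smul_eq_zero_iff_eq g).1 h)⟩) (fun h => h.2 rfl)
  rw [Set.ncard_sdiff_singleton_of_mem W.zero_mem, e] at h
  have : k = 0 ∨ k = 11 := by
    interval_cases k <;> first | exact Or.inl rfl | exact Or.inr rfl | exact absurd h (by decide)
  rcases this with rfl | rfl
  · exact Or.inl (AddSubgroup.eq_bot_of_card_eq W e)
  · exact Or.inr (AddSubgroup.eq_top_of_card_eq W (e.trans hc.symm))

theorem ne_top (hc : Nat.card V = 2048) (hf : ∀ g : M24, (∀ v : V, g • v = v) → g = 1)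
    {v : V} (hv : stabilizer M24 v = ⊤) : v = 0 := by
  obtain ⟨g, hg⟩ := ex23
  exact fix23 hc hf hg (show g ∈ stabilizer M24 v from hv ▸ Subgroup.mem_top g)

/-- The two possible orbit patterns. -/
theorem dich (hc : Nat.card V = 2048) (hf : ∀ g : M24, (∀ v : V, g • v = v) → g = 1) :
    ((∃ u : V, ∃ s : Finset GolayPt, s.card = 2 ∧ stabilizer M24 u = stabilizer M24 s) ∧
      ∀ v : V, (stabilizer M24 v).index ≤ 1771) ∨
    ((∃ u : V, ∃ o ∈ octads, stabilizer M24 u = stabilizer M24 o) ∧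
      ∀ v : V, v ≠ 0 → (stabilizer M24 v).index = 759 ∨ (stabilizer M24 v).index = 1288) := by
  obtain ⟨g, d, hg, hd, hgd⟩ := ex_elts
  obtain ⟨u, hu0, hu, hu'⟩ := fix11 hc hf hg
  have hne : ∀ (k : M24) (v : V), v ≠ 0 → k • v ≠ 0 := fun k v h e =>
    h ((smul_eq_zero_iff_eq k).1 e)
  have hdu : d • u = u := by
    have h1 : ∀ n : ℕ, g ^ n • u = u := fun n => (stabilizer M24 u).pow_mem hu n
    have h2 : g ^ 3 • d • u = d • u := by rw [← mul_smul, ← hgd, mul_smul, hu]
    have h3 : g • d • u = d • u := by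
      have h4 := (stabilizer M24 (d • u)).pow_mem h2 4
      rw [← pow_mul, show 3 * 4 = 11 + 1 by norm_num, pow_succ, ← hg, pow_orderOf_eq_one,
        one_mul] at h4
      exact h4
    exact (hu' _ h3).resolve_left (hne d u hu0)
  have h5 : 5 ∣ Nat.card (stabilizer M24 u) := hd ▸ (stabilizer M24 u).orderOf_dvd_natCard hdu
  have hO : ∀ v : V, ∀ k : M24, ∀ x ∈ orbit M24 v, k • x ∈ orbit M24 v := fun v k x hx =>
    (orbit_eq_iff.2 hx) ▸ mem_orbit x k
  have h253 : ∀ X : Set V, (∀ k : M24, ∀ x ∈ X, k • x ∈ X) → (0 : V) ∉ X → u ∉ X →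
      253 ∣ X.ncard := by
    intro X hX h0 h1
    have h := modEq_inv (by norm_num) (hg ▸ pow_orderOf_eq_one g) X (hX g)
    rw [show {x | x ∈ X ∧ g • x = x} = ∅ from Set.eq_empty_of_forall_notMem fun x hx => by
      rcases hu' x hx.2 with rfl | rfl
      exacts [h0 hx.1, h1 hx.1], Set.ncard_empty] at h
    exact Nat.Coprime.mul_dvd_of_dvd_of_dvd (m := 11) (n := 23) (by norm_num)
      (Nat.modEq_zero_iff_dvd.1 h) (dvd23 hc hf X hX h0)
  have h0u : ∀ v : V, v ≠ 0 → (0 : V) ∉ orbit M24 v := fun v hv ⟨k, hk⟩ => hne k v hv hk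
  set R : Set V := (orbit M24 u ∪ {0})ᶜ with hR
  have hRi : ∀ k : M24, ∀ x ∈ R, k • x ∈ R := by
    intro k x hx h
    apply hx
    rcases h with h | h
    · left
      have := hO u k⁻¹ _ h
      rwa [inv_smul_smul] at this
    · exact Or.inr ((smul_eq_zero_iff_eq k).1 h)
  have hRc : (stabilizer M24 u).index + 1 + R.ncard = 2048 := by
    rw [← hc, ← Set.ncard_add_ncard_compl (orbit M24 u ∪ {0}), index_stabilizer,
      Set.ncard_union_eq (Set.disjoint_singleton_right.2 (h0u u hu0)), Set.ncard_singleton]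
  obtain ⟨m, hm⟩ := h253 R hRi (fun h => h (Or.inr rfl)) (fun h => h (Or.inl (mem_orbit_self u)))
  have hmul := (Subgroup.card_mul_index (stabilizer M24 u)).trans card_M24'
  have h23 := index_ne_23 (stabilizer M24 u)
  have hsub : ∀ v ∈ R, orbit M24 v ⊆ R := fun v hv x ⟨k, hk⟩ => hk ▸ hRi k v hv
  have hin : ∀ v ∈ orbit M24 u, (stabilizer M24 v).index = (stabilizer M24 u).index :=
    fun v hv => by rw [index_stabilizer, index_stabilizer, orbit_eq_iff.2 hv]
  have hcase : (stabilizer M24 u).index = 276 ∨ (stabilizer M24 u).index = 1288 := by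
    obtain ⟨c, hc5⟩ := h5
    rw [hc5] at hmul
    have hm8 : m ≤ 8 := by omega
    generalize (stabilizer M24 u).index = n at *
    have hn : n = 2047 - 253 * m := by omega
    subst hn
    interval_cases m <;> omega
  have hRv : ∀ v ∈ R, 253 ∣ (stabilizer M24 v).index ∧ (stabilizer M24 v).index ≠ 253 ∧
      (stabilizer M24 v).index ≠ 0 := fun v hv =>
    ⟨index_stabilizer M24 v ▸ h253 _ (hO v) (fun h => hsub v hv h (Or.inr rfl))
      (fun h => hsub v hv h (Or.inl (mem_orbit_self u))), Cfsg.Agent.S1589.result.2.2.2 _,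
      Subgroup.index_ne_zero_of_finite⟩
  rcases hcase with h | h
  · left
    obtain ⟨s, hs, e⟩ := Cfsg.Agent.S1589.result.2.1 _ h
    refine ⟨⟨u, s, hs, e⟩, fun v => ?_⟩
    by_cases hv : v ∈ R
    · have := Set.ncard_le_ncard (hsub v hv)
      rw [← index_stabilizer] at this
      omega
    · rcases not_not.1 hv with hv | rfl
      · rw [hin v hv]; omega
      · rw [show stabilizer M24 (0 : V) = ⊤ from eq_top_iff.2 fun k _ => smul_zero k,
          Subgroup.index_top]
        omega
  · right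
    have h759 : ∀ v ∈ R, (stabilizer M24 v).index = 759 := by
      intro v hv
      obtain ⟨a1, a2, a3⟩ := hRv v hv
      have a4 := Set.ncard_le_ncard (hsub v hv)
      rw [← index_stabilizer] at a4
      by_contra hn
      have a5 : (R \ orbit M24 v).ncard = 253 := by
        rw [Set.ncard_sdiff (hsub v hv), ← index_stabilizer]
        omega
      obtain ⟨w, hw⟩ : (R \ orbit M24 v).Nonempty := Set.nonempty_of_ncard_ne_zero (by omega)
      obtain ⟨b1, b2, b3⟩ := hRv w hw.1
      have b4 : orbit M24 w ⊆ R \ orbit M24 v := by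
        rintro x ⟨k, rfl⟩
        refine ⟨hRi k w hw.1, fun hx => hw.2 ?_⟩
        have := hO v k⁻¹ _ hx
        rwa [inv_smul_smul] at this
      have b5 := Set.ncard_le_ncard b4
      rw [← index_stabilizer] at b5
      omega
    obtain ⟨w, hw⟩ : R.Nonempty := Set.nonempty_of_ncard_ne_zero (by omega)
    obtain ⟨o, ho, e⟩ := Cfsg.Agent.S1589.result.1 _ (h759 w hw)
    refine ⟨⟨w, o, ho, e⟩, fun v hv0 => ?_⟩
    by_cases hv : v ∈ R
    · exact Or.inl (h759 v hv)
    · rcases not_not.1 hv with hv | rfl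
      · rw [hin v hv]; exact Or.inr h
      · exact absurd rfl hv0

end Cfsg.Lib.R11.Mod
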