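import Cfsg.Agent.R11.ModA
import Cfsg.Agent.S1564
import Cfsg.Agent.S5548

/-! The even cocode module is recognised from a vector fixed by a duad group. -/

set_option autoImplicit false

namespace Cfsg.Lib.R11.Mod

open Cfsg Cfsg.Lib.Spor Cfsg.Lib.Spor.Orb Cfsg.Lib.Class.M24I MulAction
open scoped Pointwise

theorem ex_equiv {G X V : Type*} [Group G] [MulAction G X] [AddCommGroup V] [DistribMulAction G V]
    (u : V) (s : X) (he : stabilizer G s ≤ stabilizer G u) :
    ∃ f : X → V, (∀ g : G, f (g • s) = g • u) ∧ (∀ (g : G) x, f (g • x) = g • f x) ∧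
      ∀ x, (¬ ∃ g : G, g • s = x) → f x = 0 := by
  classical
  let f : X → V := fun x => if h : ∃ g : G, g • s = x then h.choose • u else 0
  have h1 : ∀ g : G, f (g • s) = g • u := by
    intro g
    have h : ∃ k : G, k • s = g • s := ⟨g, rfl⟩
    have h2 : (g⁻¹ * h.choose) • u = u := he (show (g⁻¹ * h.choose) • s = s by
      rw [mul_smul, h.choose_spec, inv_smul_smul])
    simp only [f, dif_pos h]
    rw [mul_smul, inv_smul_eq_iff] at h2
    exact h2
  have h0 : ∀ x, (¬ ∃ g : G, g • s = x) → f x = 0 := fun x h => dif_neg h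
  refine ⟨f, h1, fun g x => ?_, h0⟩
  by_cases h : ∃ k : G, k • s = x
  · obtain ⟨k, rfl⟩ := h
    rw [← mul_smul, h1, h1, mul_smul]
  · rw [h0 x h, smul_zero, h0]
    rintro ⟨k, hk⟩
    exact h ⟨g⁻¹ * k, by rw [mul_smul, hk, inv_smul_smul]⟩

theorem index_triad {t : Finset GolayPt} (ht : t.card = 3) : (stabilizer M24 t).index = 2024 := by
  have := card_stabilizer_M24 (A := {t : Finset GolayPt | t.card = 3}) (x := t) fun y =>
    ⟨fun hy => trans_finset (by omega) (ht.trans hy.symm),
      fun ⟨g, hg⟩ => hg ▸ (Finset.card_smul_finset g t).trans ht⟩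
  rw [ncard_card_eq, show Nat.choose 24 3 = 2024 by decide] at this
  have h2 := (Subgroup.card_mul_index (stabilizer M24 t)).trans card_M24'
  rw [show Nat.card (stabilizer M24 t) = 120960 by omega] at h2
  omega

theorem card_words : Nat.card (GolayPt → ZMod 2) = 16777216 := by
  rw [Nat.card_fun, Nat.card_zmod, Nat.card_eq_fintype_card, card_golayPt]
  norm_num

variable {V : Type*} [AddCommGroup V] [Finite V] [DistribMulAction M24 V] [Module (ZMod 2) V]

omit [Finite V] in
theorem smul_comm' (g : M24) (c : ZMod 2) (v : V) : g • c • v = c • g • v :=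
  ZMod.map_smul (DistribSMul.toAddMonoidHom V g) c v

/-- The duad vectors and their triangle relation. -/
theorem duads (hc : Nat.card V = 2048) (hf : ∀ g : M24, (∀ v : V, g • v = v) → g = 1)
    {u : V} {s : Finset GolayPt} (hs : s.card = 2) (he : stabilizer M24 u = stabilizer M24 s)
    (hi : ∀ v : V, (stabilizer M24 v).index ≤ 1771) :
    ∃ f : GolayPt → GolayPt → V, (∀ (g : M24) a b, f (g • a) (g • b) = g • f a b) ∧
      (∀ a b, a ≠ b → f a b ≠ 0) ∧ (∀ a, f a a = 0) ∧ ∀ a b c, f a c = f a b + f b c := by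
  obtain ⟨f, h1, h2, h0⟩ := ex_equiv u s he.ge
  have hu : u ≠ 0 := by
    rintro rfl
    have h3 := card_stab_duad hs
    rw [← he, show stabilizer M24 (0 : V) = ⊤ from eq_top_iff.2 fun k _ => smul_zero k,
      Subgroup.card_top, card_M24'] at h3
    omega
  have hz : ∀ a, f {a, a} = 0 := fun a => h0 _ fun ⟨g, hg⟩ => by
    have := congrArg Finset.card hg
    rw [Finset.card_smul_finset, hs] at this
    simp at this
  have htri : ∀ t : Finset GolayPt, t.card = 3 → ∑ x ∈ t, f (t.erase x) = 0 := by
    intro t ht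
    have hle : stabilizer M24 t ≤ stabilizer M24 (∑ x ∈ t, f (t.erase x)) := by
      intro g hg
      have hg' : t.image (g • ·) = t := hg
      rw [mem_stabilizer_iff, Finset.smul_sum]
      conv_rhs => rw [← hg', Finset.sum_image fun _ _ _ _ h => smul_left_cancel g h]
      refine Finset.sum_congr rfl fun x _ => ?_
      rw [← h2, ← Finset.image_erase (MulAction.injective g)]
      rfl
    rcases hle.eq_or_lt with h | h
    · have := hi (∑ x ∈ t, f (t.erase x))
      rw [← h, index_triad ht] at this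
      omega
    · exact ne_top hc hf ((Cfsg.Agent.S1564.result t ht).2 _ h)
  refine ⟨fun a b => f {a, b}, fun g a b => ?_, fun a b hab h => ?_, hz, fun a b c => ?_⟩
  · beta_reduce
    rw [← h2]
    simp [Finset.smul_finset_insert]
  · obtain ⟨g, hg⟩ := trans_finset (s := s) (t := {a, b}) (by omega)
      (by rw [hs, Finset.card_pair hab])
    beta_reduce at h
    rw [← hg, h1] at h
    exact hu ((smul_eq_zero_iff_eq g).1 h)
  · beta_reduce
    by_cases hab : a = b
    · rw [hab, hz, zero_add]
    by_cases hbc : b = c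
    · rw [hbc, hz, add_zero]
    by_cases hac : a = c
    · rw [hac, hz, Finset.pair_comm c b, ZModModule.add_self]
    have h := htri {a, b, c} (Finset.card_eq_three.2 ⟨a, b, c, hab, hac, hbc, rfl⟩)
    rw [Finset.sum_insert (by simp [hab, hac]), Finset.sum_pair hbc,
      show ({a, b, c} : Finset GolayPt).erase a = {b, c} from Finset.erase_insert (by simp [hab, hac]),
      show ({a, b, c} : Finset GolayPt).erase b = {a, c} by
        rw [Finset.insert_comm]; exact Finset.erase_insert (by simp [Ne.symm hab, hbc]),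
      show ({a, b, c} : Finset GolayPt).erase c = {a, b} by
        rw [Finset.pair_comm b c, Finset.insert_comm]
        exact Finset.erase_insert (by simp [Ne.symm hac, Ne.symm hbc])] at h
    have h3 := ZModModule.add_self (f {a, c})
    rw [← h] at h3
    rw [add_left_comm, add_comm (f {b, c})] at h3
    exact add_left_cancel h3

/-- The even cocode module. -/
theorem cocode (hc : Nat.card V = 2048) (hf : ∀ g : M24, (∀ v : V, g • v = v) → g = 1)
    {u : V} {s : Finset GolayPt} (hs : s.card = 2) (he : stabilizer M24 u = stabilizer M24 s)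
    (hi : ∀ v : V, (stabilizer M24 v).index ≤ 1771) :
    ∃ θ : (GolayPt → ZMod 2) →ₗ[ZMod 2] V, (∀ v, ∃ w, ∑ p, w p = 0 ∧ θ w = v) ∧
      (∀ w, ∑ p, w p = 0 → (θ w = 0 ↔ w ∈ golayCode)) ∧
      ∀ (g : M24) (w : GolayPt → ZMod 2), ∑ p, w p = 0 →
        θ (fun p => w ((g : Equiv.Perm GolayPt).symm p)) = g • θ w := by
  obtain ⟨f, h1, h2, h3, h4⟩ := duads hc hf hs he hi
  let θ : (GolayPt → ZMod 2) →ₗ[ZMod 2] V := Fintype.linearCombination (ZMod 2) (f none)
  have hθ : ∀ w, θ w = ∑ p, w p • f none p := fun w => rfl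
  have hsum : ∀ (g : M24) (w : GolayPt → ZMod 2),
      ∑ p, w ((g : Equiv.Perm GolayPt).symm p) = ∑ p, w p := fun g w =>
    Equiv.sum_comp (g : Equiv.Perm GolayPt).symm w
  have heq : ∀ (g : M24) (w : GolayPt → ZMod 2), ∑ p, w p = 0 →
      θ (fun p => w ((g : Equiv.Perm GolayPt).symm p)) = g • θ w := by
    intro g w hw
    rw [hθ, hθ, Finset.smul_sum, ← Equiv.sum_comp (g : Equiv.Perm GolayPt)]
    simp only [Equiv.symm_apply_apply]
    have : ∀ p, w p • f none ((g : Equiv.Perm GolayPt) p) =
        w p • f none (g • none) + g • w p • f none p := fun p => by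
      rw [smul_comm', ← h1, ← smul_add, ← h4]
      rfl
    rw [Finset.sum_congr rfl fun p _ => this p, Finset.sum_add_distrib, ← Finset.sum_smul, hw,
      zero_smul, zero_add]
  let w0 : GolayPt → ZMod 2 := Pi.single none 1 + Pi.single (some 0) 1
  have hw0 : ∑ p, w0 p = 0 := by decide
  have hw1 : θ w0 ≠ 0 := by
    simp only [w0, θ, map_add, Fintype.linearCombination_apply_single, one_smul, h3, zero_add]
    exact h2 _ _ (by decide)
  let σ : (GolayPt → ZMod 2) →ₗ[ZMod 2] ZMod 2 := Fintype.linearCombination (ZMod 2) (fun _ => 1)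
  have hσ : ∀ w, σ w = ∑ p, w p := fun w => by
    simp [σ, Fintype.linearCombination_apply]
  refine ⟨θ, fun v => ?_, ?_, heq⟩
  · rcases irr hc hf ((LinearMap.ker σ).map θ).toAddSubgroup (by
      rintro g _ ⟨w, hw, rfl⟩
      have hw' : ∑ p, w p = 0 := (hσ w).symm.trans hw
      exact ⟨_, show σ _ = 0 by rw [hσ, hsum, hw'], heq g w hw'⟩) with h | h
    · have : θ w0 ∈ ((LinearMap.ker σ).map θ).toAddSubgroup := ⟨w0, (hσ w0).trans hw0, rfl⟩
      rw [h] at this
      exact absurd this hw1
    · obtain ⟨w, hw, e⟩ : v ∈ ((LinearMap.ker σ).map θ).toAddSubgroup := h ▸ AddSubgroup.mem_top v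
      exact ⟨w, (hσ w).symm.trans hw, e⟩
  · have hK : ∀ w, w ∈ LinearMap.ker (θ.prod σ) ↔ θ w = 0 ∧ ∑ p, w p = 0 := fun w => by
      rw [LinearMap.mem_ker, ← hσ]
      exact Prod.ext_iff
    have hcard : 4096 ≤ Nat.card (LinearMap.ker (θ.prod σ)) := by
      have e1 := AddSubgroup.card_mul_index (θ.prod σ).toAddMonoidHom.ker
      rw [AddSubgroup.index_ker, card_words] at e1
      have e2 := Nat.card_le_card_of_injective _ (θ.prod σ).toAddMonoidHom.range.subtype_injective
      rw [Nat.card_prod, hc, Nat.card_zmod] at e2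
      change Nat.card (LinearMap.ker (θ.prod σ)) * _ = _ at e1
      by_contra hlt
      have := Nat.mul_le_mul (show Nat.card (LinearMap.ker (θ.prod σ)) ≤ 4095 by omega) e2
      omega
    have hC : LinearMap.ker (θ.prod σ) = golayCode := by
      have hsm : ¬ LinearMap.ker (θ.prod σ) ≤
          Submodule.span (ZMod 2) {fun _ : GolayPt => (1 : ZMod 2)} := by
        intro h
        have e1 : ((LinearMap.ker (θ.prod σ)) : Set (GolayPt → ZMod 2)) ⊆
            Set.range fun c : ZMod 2 => c • fun _ : GolayPt => (1 : ZMod 2) := fun w hw =>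
          Submodule.mem_span_singleton.1 (h hw)
        have e2 := Set.ncard_le_ncard e1
        have e3 := Set.ncard_image_le (f := fun c : ZMod 2 => c • fun _ : GolayPt => (1 : ZMod 2))
          (s := Set.univ)
        rw [Set.image_univ, Set.ncard_univ, Nat.card_zmod] at e3
        change Nat.card (LinearMap.ker (θ.prod σ)) ≤ _ at e2
        omega
      rcases Cfsg.Agent.S5548.result (LinearMap.ker (θ.prod σ)) (fun g hg w hw => by
        rw [hK] at hw ⊢
        exact ⟨(heq ⟨g, hg⟩ w hw.2).trans (by rw [hw.1, smul_zero]),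
          (hsum ⟨g, hg⟩ w).trans hw.2⟩) with h | h | h | h | h
      · exact absurd (h ▸ bot_le) hsm
      · exact absurd h.le hsm
      · exact h
      · exact absurd ((hK w0).1 (show w0 ∈ (LinearMap.ker (θ.prod σ) : Set _) from h ▸ hw0)).1 hw1
      · exact absurd ((hK w0).1 (h ▸ Submodule.mem_top)).1 hw1
    intro w hw
    rw [← hC, hK]
    exact ⟨fun h => ⟨h, hw⟩, fun h => h.1⟩

end Cfsg.Lib.R11.Mod
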