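import Cfsg.Agent.R11.ModB
import Cfsg.Agent.S5613
import Cfsg.Agent.S1556
import Cfsg.Agent.S0362
import Cfsg.Agent.S0358

/-! Octad vectors, duality, and the identification of the faithful `M24`-modules of order `2^11`. -/

set_option autoImplicit false

namespace Cfsg.Lib.R11.Mod

open Cfsg Cfsg.Lib.Spor Cfsg.Lib.Spor.Orb Cfsg.Lib.Class.M24I MulAction
open scoped Pointwise

theorem swap_oct {x y : Finset GolayPt} (hx : x ∈ octads) (hy : y ∈ octads)
    (hz : symmDiff x y ∈ octads) (h : (x ∩ y).card = (x ∩ symmDiff x y).card) :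
    ∃ g : M24, g • x = x ∧ g • y = symmDiff x y ∧ g • symmDiff x y = y := by
  obtain ⟨g, hg, h1, h2⟩ := Cfsg.Agent.S1556.result x y _ hx hy hz h
  refine ⟨⟨g, hg⟩, h1, h2, ?_⟩
  change g • symmDiff x y = y
  rw [Finset.smul_finset_symmDiff, h1, h2, symmDiff_symmDiff_cancel_left]

theorem dvd_card_three {x y : Finset GolayPt} (hx : x ∈ octads) (hy : y ∈ octads)
    (hz : symmDiff x y ∈ octads) (h1 : (x ∩ y).card = 4) (h2 : (x ∩ symmDiff x y).card = 4)
    (h3 : (y ∩ symmDiff x y).card = 4) :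
    6912 ∣ Nat.card (stabilizer M24 ({x, y, symmDiff x y} : Finset (Finset GolayPt))) := by
  obtain ⟨g, g1, g2, g3⟩ := swap_oct hx hy hz (h1.trans h2.symm)
  obtain ⟨k, k1, k2, k3⟩ := swap_oct hy hx (symmDiff_comm x y ▸ hz)
    (by rw [Finset.inter_comm, h1, symmDiff_comm, h3])
  rw [symmDiff_comm y x] at k2 k3
  have hL := (Cfsg.Agent.S5613.result x y hx hy).2.1 h1
  have hLz : ∀ a : M24, a • x = x → a • y = y → a • symmDiff x y = symmDiff x y := fun a a1 a2 => by
    rw [Finset.smul_finset_symmDiff, a1, a2]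
  have nxy : x ≠ y := fun e => by
    rw [← e, Finset.inter_self, card_oct hx] at h1; omega
  have nxz : x ≠ symmDiff x y := fun e => by
    rw [← e, Finset.inter_self, card_oct hx] at h2; omega
  have nyz : y ≠ symmDiff x y := fun e => by
    rw [← e, Finset.inter_self, card_oct hy] at h3; omega
  generalize symmDiff x y = z at *
  set K := stabilizer M24 ({x, y, z} : Finset (Finset GolayPt)) with hK
  have hsm : ∀ a : M24, a • ({x, y, z} : Finset (Finset GolayPt)) = {a • x, a • y, a • z} :=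
    fun a => by simp [Finset.smul_finset_insert]
  have hg : g ∈ K := by rw [hK, mem_stabilizer_iff, hsm, g1, g2, g3, Finset.pair_comm]
  have hk : k ∈ K := by
    rw [hK, mem_stabilizer_iff, hsm, k1, k2, k3, Finset.insert_comm z y, Finset.pair_comm z x,
      Finset.insert_comm]
  have hm : ∀ a ∈ K, ∀ t ∈ ({x, y, z} : Finset (Finset GolayPt)),
      a • t ∈ ({x, y, z} : Finset (Finset GolayPt)) := fun a ha t ht => by
    have := Finset.smul_mem_smul_finset (a := a) ht
    rwa [show a • ({x, y, z} : Finset (Finset GolayPt)) = _ from ha] at this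
  have o1 : orbit K x = {x, y, z} := by
    ext t
    constructor
    · rintro ⟨a, rfl⟩
      have h4 := hm a a.2 x (by simp)
      simp only [Finset.mem_insert, Finset.mem_singleton] at h4
      exact h4
    · rintro (rfl | rfl | rfl)
      · exact mem_orbit_self _
      · exact ⟨⟨g * k, K.mul_mem hg hk⟩, show (g * k) • x = t by rw [mul_smul, k2, g3]⟩
      · exact ⟨⟨k, hk⟩, k2⟩
  have o2 : orbit ↥(K ⊓ stabilizer M24 x) y = {y, z} := by
    ext t
    constructor
    · rintro ⟨a, rfl⟩
      have h4 := hm a a.2.1 y (by simp)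
      simp only [Finset.mem_insert, Finset.mem_singleton] at h4
      rcases h4 with h4 | h4
      · exact absurd (smul_left_cancel _ ((show (a : M24) • x = x from a.2.2).trans h4.symm)) nxy
      · exact h4
    · rintro (rfl | rfl)
      · exact mem_orbit_self _
      · exact ⟨⟨g, hg, g1⟩, g2⟩
  have e1 := ncard_orbit_mul K x
  have e2 := ncard_orbit_mul (K ⊓ stabilizer M24 x) y
  rw [o1, Set.ncard_eq_three.2 ⟨x, y, z, nxy, nxz, nyz, rfl⟩] at e1
  rw [o2, Set.ncard_pair nyz] at e2
  have e3 : 1152 ∣ Nat.card ↥(K ⊓ stabilizer M24 x ⊓ stabilizer M24 y) :=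
    hL ▸ Subgroup.card_dvd_of_le fun a ha => ⟨⟨show a ∈ K by
      rw [hK, mem_stabilizer_iff, hsm, show a • x = x from ha.1, show a • y = y from ha.2,
        hLz a ha.1 ha.2], ha.1⟩, ha.2⟩
  omega

theorem inter_cases {x : Finset GolayPt} (hx : x ∈ octads) :
    (maskSet 13062145 ∩ x).card = 0 ∨ (maskSet 13062145 ∩ x).card = 2 ∨
      (maskSet 13062145 ∩ x).card = 4 ∨ x = maskSet 13062145 := by
  obtain ⟨k, hk, rfl⟩ := mem_golaySets_iff_enc.1 (mem_octads_iff'.1 hx).1
  have h8 := (mem_octads_iff'.1 hx).2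
  rw [card_maskSet] at h8
  rw [← maskSet_and, card_maskSet]
  have h : allLT 4096 (fun k => !(Nat.beq (popc (enc k)) 8) ||
      (Nat.beq (popc (13062145 &&& enc k)) 0 || (Nat.beq (popc (13062145 &&& enc k)) 2 ||
        (Nat.beq (popc (13062145 &&& enc k)) 4 || Nat.beq (enc k) 13062145)))) = true := by
    decide +kernel
  have h1 := allLT_iff.1 h k hk
  simp only [h8, Nat.beq_refl, Bool.not_true, Bool.false_or, Bool.or_eq_true, Nat.beq_eq] at h1
  exact h1.imp_right fun h => h.imp_right fun h => h.imp_right fun h => by rw [h]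

theorem mem_of_orth {c : GolayPt → ZMod 2} (h : ∀ w ∈ golayCode, ∑ p, w p * c p = 0) :
    c ∈ golayCode := by
  let W : Submodule (ZMod 2) (GolayPt → ZMod 2) :=
    { carrier := {c | ∀ w ∈ golayCode, ∑ p, w p * c p = 0}
      add_mem' := fun {a b} ha hb w hw => by
        simp only [Pi.add_apply, mul_add, Finset.sum_add_distrib, ha w hw, hb w hw, add_zero]
      zero_mem' := fun w _ => by simp
      smul_mem' := fun a c hc w hw => by
        simp only [Pi.smul_apply, smul_eq_mul, mul_left_comm _ a, ← Finset.mul_sum, hc w hw,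
          mul_zero] }
  have hW : ∀ σ ∈ M24, ∀ w ∈ W, (fun p => w (σ.symm p)) ∈ W := by
    intro σ hσ c hc w hw
    have := hc _ (comp_symm_mem_golayCode (M24.inv_mem hσ) hw)
    rw [← Equiv.sum_comp σ]
    simpa [Equiv.Perm.inv_def] using this
  by_contra hn
  have h1 := GSub.even_le hW (fun hle => hn (hle h))
    (w := Pi.single (some 0) 1 + Pi.single (some 1) 1) (by decide)
  have := h1 _ (maskWord_enc_mem 1)
  revert this
  decide +kernel

variable {V : Type*} [AddCommGroup V] [Finite V] [DistribMulAction M24 V] [Module (ZMod 2) V]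

omit [Finite V] [Module (ZMod 2) V] in
/-- The octad vectors and their sextet relation. -/
theorem octs {u : V} {o : Finset GolayPt} (ho : o ∈ octads)
    (he : stabilizer M24 u = stabilizer M24 o)
    (hi : ∀ v : V, v ≠ 0 → (stabilizer M24 v).index = 759 ∨ (stabilizer M24 v).index = 1288) :
    ∃ f : Finset GolayPt → V, (∀ (g : M24) x, f (g • x) = g • f x) ∧ (∀ x ∈ octads, f x ≠ 0) ∧
      ∀ x ∈ octads, ∀ y ∈ octads, symmDiff x y ∈ octads → (x ∩ y).card = 4 →
        (x ∩ symmDiff x y).card = 4 → (y ∩ symmDiff x y).card = 4 →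
        f x + f y + f (symmDiff x y) = 0 := by
  obtain ⟨f, h1, h2, -⟩ := ex_equiv u o he.ge
  have hu : u ≠ 0 := by
    rintro rfl
    have h3 := card_stab_octad ho
    rw [← he, show stabilizer M24 (0 : V) = ⊤ from eq_top_iff.2 fun k _ => smul_zero k,
      Subgroup.card_top, card_M24'] at h3
    omega
  refine ⟨f, h2, fun x hx h => ?_, fun x hx y hy hz a1 a2 a3 => ?_⟩
  · obtain ⟨g, rfl⟩ := trans_octads ho hx
    rw [h1] at h
    exact hu ((smul_eq_zero_iff_eq g).1 h)
  · have hd := dvd_card_three hx hy hz a1 a2 a3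
    have nxy : x ≠ y := fun e => by
      rw [← e, Finset.inter_self, card_oct hx] at a1; omega
    have nxz : x ≠ symmDiff x y := fun e => by
      rw [← e, Finset.inter_self, card_oct hx] at a2; omega
    have nyz : y ≠ symmDiff x y := fun e => by
      rw [← e, Finset.inter_self, card_oct hy] at a3; omega
    generalize symmDiff x y = z at *
    have e : f x + f y + f z = ∑ t ∈ ({x, y, z} : Finset (Finset GolayPt)), f t := by
      rw [Finset.sum_insert (by simp [nxy, nxz]), Finset.sum_pair nyz, add_assoc]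
    rw [e]
    by_contra hn
    have hle : stabilizer M24 ({x, y, z} : Finset (Finset GolayPt)) ≤
        stabilizer M24 (∑ t ∈ ({x, y, z} : Finset (Finset GolayPt)), f t) := by
      intro g hg
      have hg' : ({x, y, z} : Finset (Finset GolayPt)).image (g • ·) = {x, y, z} := hg
      rw [mem_stabilizer_iff, Finset.smul_sum]
      conv_rhs => rw [← hg', Finset.sum_image fun _ _ _ _ h => smul_left_cancel g h]
      exact Finset.sum_congr rfl fun x _ => (h2 g x).symm
    have h3 := hd.trans (Subgroup.card_dvd_of_le hle)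
    have h4 := (Subgroup.card_mul_index (stabilizer M24
      (∑ t ∈ ({x, y, z} : Finset (Finset GolayPt)), f t))).trans card_M24'
    rcases hi _ hn with h | h <;> rw [h] at h4 <;> omega

omit [Module (ZMod 2) V] in
/-- In the octad case no nonzero functional is invariant under an octad group. -/
theorem no_fun (hc : Nat.card V = 2048) (hf : ∀ g : M24, (∀ v : V, g • v = v) → g = 1)
    {u : V} {o : Finset GolayPt} (ho : o ∈ octads) (he : stabilizer M24 u = stabilizer M24 o)
    (hi : ∀ v : V, v ≠ 0 → (stabilizer M24 v).index = 759 ∨ (stabilizer M24 v).index = 1288)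
    (φ : V →+ ZMod 2) (hφ : ∀ g : M24, g • maskSet 13062145 = maskSet 13062145 →
      ∀ v, φ (g • v) = φ v) (v : V) : φ v = 0 := by
  obtain ⟨f, h1, h2, h3⟩ := octs ho he hi
  have hm : ∀ m, (isGolay m && Nat.beq (popc m) 8) = true → maskSet m ∈ octads := fun m h => by
    rw [Bool.and_eq_true, Nat.beq_eq] at h
    exact mem_octads_iff.2 ⟨m, h.1, h.2, rfl⟩
  have ho0 := hm 13062145 (by decide +kernel)
  have hcl : ∀ x ∈ octads, ∀ y ∈ octads, (maskSet 13062145 ∩ x).card = (maskSet 13062145 ∩ y).card →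
      φ (f x) = φ (f y) := by
    intro x hx y hy h
    obtain ⟨g, hg, g1, g2⟩ := Cfsg.Agent.S1556.result _ x y ho0 hx hy h
    rw [← hφ ⟨g, hg⟩ g1, ← h1]
    exact congrArg (fun t => φ (f t)) g2
  have hrel : ∀ a b, (isGolay a && Nat.beq (popc a) 8) = true →
      (isGolay b && Nat.beq (popc b) 8) = true →
      (isGolay (a ^^^ b) && Nat.beq (popc (a ^^^ b)) 8) = true → popc (a &&& b) = 4 →
      popc (a &&& (a ^^^ b)) = 4 → popc (b &&& (a ^^^ b)) = 4 →
      φ (f (maskSet a)) + φ (f (maskSet b)) + φ (f (maskSet (a ^^^ b))) = 0 := by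
    intro a b ha hb hab a1 a2 a3
    rw [← map_add, ← map_add, maskSet_xor, h3 _ (hm a ha) _ (hm b hb) (maskSet_xor a b ▸ hm _ hab)
      (by rw [← maskSet_and, card_maskSet, a1])
      (by rw [← maskSet_xor, ← maskSet_and, card_maskSet, a2])
      (by rw [← maskSet_xor, ← maskSet_and, card_maskSet, a3]), map_zero]
  have hk : ∀ a b, (isGolay a && Nat.beq (popc a) 8) = true →
      (isGolay b && Nat.beq (popc b) 8) = true →
      (isGolay (a ^^^ b) && Nat.beq (popc (a ^^^ b)) 8) = true → popc (a &&& b) = 4 →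
      popc (a &&& (a ^^^ b)) = 4 → popc (b &&& (a ^^^ b)) = 4 →
      popc (13062145 &&& b) = popc (13062145 &&& (a ^^^ b)) → φ (f (maskSet a)) = 0 := by
    intro a b ha hb hab a1 a2 a3 a4
    have := hrel a b ha hb hab a1 a2 a3
    rwa [← hcl _ (hm b hb) _ (hm _ hab) (by
      rw [← maskSet_and, ← maskSet_and, card_maskSet, card_maskSet, a4]), add_assoc,
      ZModModule.add_self, add_zero] at this
  have hall : ∀ x ∈ octads, φ (f x) = 0 := by
    intro x hx
    rcases inter_cases hx with h | h | h | rfl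
    · rw [hcl x hx _ (hm 1613974 (by decide +kernel))
        (by rw [h, ← maskSet_and, card_maskSet]; decide +kernel)]
      apply hk _ 2654580 <;> decide +kernel
    · rw [hcl x hx _ (hm 12222476 (by decide +kernel))
        (by rw [h, ← maskSet_and, card_maskSet]; decide +kernel)]
      apply hk _ 2826278 <;> decide +kernel
    · rw [hcl x hx _ (hm 4845570 (by decide +kernel))
        (by rw [h, ← maskSet_and, card_maskSet]; decide +kernel)]
      apply hk _ 13938692 <;> decide +kernel
    · apply hk _ 4845570 <;> decide +kernel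
  let W : AddSubgroup V :=
    { carrier := {v | ∀ g : M24, φ (g • v) = 0}
      add_mem' := fun {a b} ha hb g => by rw [smul_add, map_add, ha, hb, add_zero]
      zero_mem' := fun g => by rw [smul_zero, map_zero]
      neg_mem' := fun {a} ha g => by rw [smul_neg, map_neg, ha, neg_zero] }
  rcases irr hc hf W (fun g x hx k => by rw [← mul_smul]; exact hx _) with h | h
  · have : f o ∈ W := fun g => by rw [← h1]; exact hall _ (smul_mem_octads' g ho)
    rw [h] at this
    exact absurd this (h2 o ho)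
  · have : v ∈ W := h ▸ AddSubgroup.mem_top v
    simpa using this 1

omit [Finite V] in
theorem ex_dual : ∃ _ : DistribMulAction M24 (Module.Dual (ZMod 2) V),
    ∀ (g : M24) (φ : Module.Dual (ZMod 2) V) (v : V), (g • φ) v = φ (g⁻¹ • v) := by
  let l : M24 → V →ₗ[ZMod 2] V := fun g => (DistribSMul.toAddMonoidHom V g).toZModLinearMap 2
  exact ⟨{ smul := fun g φ => φ ∘ₗ l g⁻¹
           one_smul := fun φ => LinearMap.ext fun v => congrArg φ (by
             change (1 : M24)⁻¹ • v = v; rw [inv_one, one_smul])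
           mul_smul := fun g k φ => LinearMap.ext fun v => congrArg φ (by
             change (g * k)⁻¹ • v = k⁻¹ • g⁻¹ • v; rw [mul_inv_rev, mul_smul])
           smul_zero := fun g => rfl
           smul_add := fun g φ ψ => rfl }, fun _ _ _ => rfl⟩

/-- **The faithful `M24`-modules of order `2^11`**: the Golay code modulo the all-ones word, or the
even words modulo the Golay code. -/
theorem modid (hc : Nat.card V = 2048) (hf : ∀ g : M24, (∀ v : V, g • v = v) → g = 1) :
    (∃ θ : (GolayPt → ZMod 2) →ₗ[ZMod 2] V, (∀ v, ∃ w ∈ golayCode, θ w = v) ∧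
      (∀ w ∈ golayCode, θ w = 0 ↔ w = 0 ∨ w = 1) ∧
      ∀ (g : M24), ∀ w ∈ golayCode,
        θ (fun p => w ((g : Equiv.Perm GolayPt).symm p)) = g • θ w) ∨
    (∃ θ : (GolayPt → ZMod 2) →ₗ[ZMod 2] V, (∀ v, ∃ w, ∑ p, w p = 0 ∧ θ w = v) ∧
      (∀ w, ∑ p, w p = 0 → (θ w = 0 ↔ w ∈ golayCode)) ∧
      ∀ (g : M24) (w : GolayPt → ZMod 2), ∑ p, w p = 0 →
        θ (fun p => w ((g : Equiv.Perm GolayPt).symm p)) = g • θ w) := by
  rcases dich hc hf with ⟨⟨u, s, hs, he⟩, hi⟩ | ⟨⟨u, o, ho, he⟩, hi⟩
  · exact Or.inr (cocode hc hf hs he hi)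
  left
  obtain ⟨inst, hD⟩ := ex_dual (V := V)
  have hfin : Module.Finite (ZMod 2) V := Module.Finite.of_finite
  have eD := (Module.finBasis (ZMod 2) V).toDualEquiv
  have hDf : Finite (Module.Dual (ZMod 2) V) := Finite.of_equiv V eD.toEquiv
  have hcD : Nat.card (Module.Dual (ZMod 2) V) = 2048 := (Nat.card_congr eD.toEquiv).symm.trans hc
  have hsep : ∀ v : V, (∀ φ : Module.Dual (ZMod 2) V, φ v = 0) → v = 0 := fun v h =>
    (Module.forall_dual_apply_eq_zero_iff (ZMod 2) v).1 h
  have hfD : ∀ g : M24, (∀ φ : Module.Dual (ZMod 2) V, g • φ = φ) → g = 1 := by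
    intro g h
    rw [← inv_eq_one]
    refine hf _ fun v => sub_eq_zero.1 (hsep _ fun φ => ?_)
    rw [map_sub, ← hD, h, sub_self]
  rcases dich hcD hfD with ⟨⟨φ, s, hs, he'⟩, hi'⟩ | ⟨⟨φ, o', ho', he'⟩, hi'⟩
  swap
  · exfalso
    obtain ⟨F, F1, F2, -⟩ := octs ho' he' hi'
    have ho0 : maskSet 13062145 ∈ octads :=
      mem_octads_iff.2 ⟨_, by decide +kernel, by decide +kernel, rfl⟩
    refine F2 _ ho0 (LinearMap.ext fun v => no_fun hc hf ho he hi
      (F (maskSet 13062145)).toAddMonoidHom (fun g hg v => ?_) v)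
    have := F1 g (maskSet 13062145)
    rw [hg] at this
    change F _ (g • v) = F _ v
    conv_lhs => rw [this, hD, inv_smul_smul]
  obtain ⟨τ, t1, t2, t3⟩ := cocode hcD hfD hs he' hi'
  let c : V →ₗ[ZMod 2] GolayPt → ZMod 2 := LinearMap.pi fun p => τ (Pi.single p 1)
  have hcτ : ∀ w v, τ w v = ∑ p, w p * c v p := fun w v => by
    conv_lhs => rw [pi_eq_sum_univ' w]
    simp [c, map_sum, LinearMap.sum_apply]
  have hev : ∀ w ∈ golayCode, ∑ p, w p = 0 := fun w hw => by
    simpa using Cfsg.Agent.S0362.result w _ hw GSub.one_mem_code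
  have hcC : ∀ v, c v ∈ golayCode := fun v => mem_of_orth fun w hw => by
    rw [← hcτ, (t2 w (hev w hw)).2 hw, LinearMap.zero_apply]
  have hconst : ∀ d : GolayPt → ZMod 2,
      (∀ w : GolayPt → ZMod 2, ∑ p, w p = 0 → ∑ p, w p * d p = 0) →
      d = d none • (1 : GolayPt → ZMod 2) := by
    intro d h
    funext q
    have := h (Pi.single none 1 + Pi.single q 1) (by
      simp only [Pi.add_apply, Finset.sum_add_distrib, Finset.sum_pi_single', Finset.mem_univ,
        if_true]
      decide)
    simp only [Pi.add_apply, add_mul, Finset.sum_add_distrib, Pi.single_apply, ite_mul, one_mul,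
      zero_mul, Finset.sum_ite_eq', Finset.mem_univ, if_true] at this
    simp only [Pi.smul_apply, Pi.one_apply, smul_eq_mul, mul_one]
    revert this
    generalize d none = a
    generalize d q = b
    revert a b
    decide
  have hone : (1 : GolayPt → ZMod 2) ∈ golayCode := GSub.one_mem_code
  let Ψ : (V × ZMod 2) →ₗ[ZMod 2] golayCode :=
    (c.coprod (LinearMap.toSpanSingleton (ZMod 2) _ 1)).codRestrict golayCode fun x =>
      golayCode.add_mem (hcC x.1) (golayCode.smul_mem x.2 hone)
  have hΨ : ∀ x, (Ψ x : GolayPt → ZMod 2) = c x.1 + x.2 • 1 := fun x => rfl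
  have hinj : Function.Injective Ψ := by
    rw [injective_iff_map_eq_zero]
    rintro ⟨v, a⟩ h
    have h1 : c v + a • (1 : GolayPt → ZMod 2) = 0 := congrArg Subtype.val h
    have h2 : v = 0 := hsep v fun φ => by
      obtain ⟨w, hw, rfl⟩ := t1 φ
      rw [hcτ, eq_neg_of_add_eq_zero_left h1]
      simp [← Finset.sum_mul, hw]
    subst h2
    rw [map_zero, zero_add] at h1
    have h3 : a = 0 := by simpa using congrFun h1 none
    rw [h3]
    rfl
  have hbij : Function.Bijective Ψ := by
    rw [Nat.bijective_iff_injective_and_card]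
    refine ⟨hinj, ?_⟩
    rw [Nat.card_prod, hc, Nat.card_zmod, Module.natCard_eq_pow_finrank (K := ZMod 2),
      Cfsg.Agent.S0358.result, Nat.card_zmod]
    norm_num
  let e := LinearEquiv.ofBijective Ψ hbij
  obtain ⟨π, hπ⟩ := golayCode.subtype.exists_leftInverse_of_injective golayCode.ker_subtype
  let θ : (GolayPt → ZMod 2) →ₗ[ZMod 2] V :=
    LinearMap.fst (ZMod 2) V (ZMod 2) ∘ₗ e.symm.toLinearMap ∘ₗ π
  have hθ : ∀ v (a : ZMod 2), θ (c v + a • 1) = v := by
    intro v a
    have h1 : π (c v + a • 1) = e (v, a) := LinearMap.congr_fun hπ (Ψ (v, a))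
    change (e.symm (π _)).1 = v
    rw [h1, e.symm_apply_apply]
  have hsurj : ∀ w ∈ golayCode, ∃ (v : V) (a : ZMod 2), w = c v + a • 1 := fun w hw => by
    obtain ⟨x, hx⟩ := hbij.2 ⟨w, hw⟩
    exact ⟨x.1, x.2, (congrArg Subtype.val hx).symm⟩
  refine ⟨θ, fun v => ⟨c v, hcC v, by simpa using hθ v 0⟩, fun w hw => ⟨fun h => ?_, ?_⟩,
    fun g w hw => ?_⟩
  · obtain ⟨v, a, rfl⟩ := hsurj w hw
    rw [hθ] at h
    rw [h, map_zero, zero_add]
    have : a = 0 ∨ a = 1 := (by decide : ∀ a : ZMod 2, a = 0 ∨ a = 1) a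
    rcases this with rfl | rfl
    · exact Or.inl (zero_smul _ _)
    · exact Or.inr (one_smul _ _)
  · rintro (rfl | rfl)
    · exact map_zero θ
    · simpa using hθ 0 1
  · obtain ⟨v, a, rfl⟩ := hsurj w hw
    have h1 := hconst ((fun p => c v ((g : Equiv.Perm GolayPt).symm p)) - c (g • v)) (by
      intro w hw
      have h2 := t3 g⁻¹ w hw
      have h3 := LinearMap.congr_fun h2 v
      rw [hD, inv_inv, hcτ, hcτ] at h3
      simp only [Pi.sub_apply, mul_sub, Finset.sum_sub_distrib]
      rw [← h3, ← Equiv.sum_comp (g : Equiv.Perm GolayPt), sub_eq_zero]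
      simp [Equiv.Perm.inv_def])
    rw [hθ]
    obtain ⟨b, hb⟩ : ∃ b : ZMod 2, (fun p => c v ((g : Equiv.Perm GolayPt).symm p)) - c (g • v) =
      b • (1 : GolayPt → ZMod 2) := ⟨_, h1⟩
    rw [← hθ (g • v) (b + a)]
    congr 1
    rw [add_smul, ← add_assoc, ← hb, add_sub_cancel]
    rfl

end Cfsg.Lib.R11.Mod
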