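import Cfsg.Agent.R11.ModC
import Cfsg.Agent.SporChar.HexDefs
import Cfsg.Prelude.Def_Spor_Mathieu
import Cfsg.Prelude.Def_Transfer

/-! Coordinates for a self-centralizing `2^11` with `N(V)/V ≅ M24`: Golay code or even cocode. -/

set_option autoImplicit false

namespace Cfsg.Lib.R11

open Subgroup Cfsg.Lib.Spor
open scoped Pointwise

/-- `V` is the Golay code modulo the all-ones word and `N_G(V)` induces `M₂₄` on it. -/
structure Cod {G : Type*} [Group G] (V : Subgroup G) (v : Finset GolayPt → G)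
    (ρ : G → Equiv.Perm GolayPt) : Prop where
  mul : ∀ A B, v (symmDiff A B) = v A * v B
  mem : ∀ g, g ∈ V ↔ ∃ A ∈ golaySets, v A = g
  eq_one : ∀ A ∈ golaySets, (v A = 1 ↔ A = ∅ ∨ A = Finset.univ)
  ρ_mem : ∀ n, ρ n ∈ M24
  ρ_mul : ∀ a ∈ normalizer (V : Set G), ∀ b ∈ normalizer (V : Set G), ρ (a * b) = ρ a * ρ b
  ρ_eq_one : ∀ n ∈ normalizer (V : Set G), ρ n = 1 ↔ n ∈ V
  ρ_surj : ∀ σ ∈ M24, ∃ n ∈ normalizer (V : Set G), ρ n = σ
  conj : ∀ n ∈ normalizer (V : Set G), ∀ A ∈ golaySets, n * v A * n⁻¹ = v (ρ n • A)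

theorem Mod.sum_eq_zero_iff (w : GolayPt → ZMod 2) : ∑ p, w p = 0 ↔ Even (support₂ w).card := by
  have : ∑ p, w p = ((support₂ w).card : ZMod 2) := by
    rw [Finset.card_eq_sum_ones, Nat.cast_sum, support₂, Finset.sum_filter]
    refine Finset.sum_congr rfl fun p _ => ?_
    generalize w p = a
    revert a
    decide
  rw [this, ZMod.natCast_eq_zero_iff_even]

theorem Mod.ex_chi : ∃ χ : Finset GolayPt → GolayPt → ZMod 2, ∀ A, support₂ (χ A) = A :=
  ⟨fun A => maskWord (setMask A), fun A => by rw [support_maskWord, maskSet_setMask]⟩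

/-- **Module identification.** -/
theorem frame {G : Type*} [Group G] [Finite G] (V : Subgroup G) (hV : IsElementaryAbelian 2 V)
    (hcard : Nat.card V = 2 ^ 11) (hC : centralizer (V : Set G) = V)
    (hM : Spor.IsoM24 (↥(normalizer (V : Set G)) ⧸ V.subgroupOf (normalizer (V : Set G)))) :
    ∃ (v : Finset GolayPt → G) (ρ : G → Equiv.Perm GolayPt), Cod V v ρ ∨ SporChar.Coc V v ρ := by
  classical
  obtain ⟨e⟩ := hM
  have hcomm := hV.1
  let π : normalizer (V : Set G) →* M24 := e.toMonoidHom.comp (QuotientGroup.mk' _)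
  have hπs : Function.Surjective π := e.surjective.comp (QuotientGroup.mk'_surjective _)
  have hπk : ∀ n, π n = 1 ↔ (n : G) ∈ V := fun n => by
    change e _ = 1 ↔ _
    rw [map_eq_one_iff e e.injective, QuotientGroup.mk'_apply, QuotientGroup.eq_one_iff,
      mem_subgroupOf]
  have hker : V.normalizerMonoidHom.ker = V.subgroupOf (normalizer (V : Set G)) := by
    rw [normalizerMonoidHom_ker, hC]
  let α : M24 →* MulAut V :=
    (QuotientGroup.lift _ V.normalizerMonoidHom hker.ge).comp e.symm.toMonoidHom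
  have hα : ∀ n (x : V), ((α (π n) x : V) : G) = n * x * (n : G)⁻¹ := fun n x => by
    change ((QuotientGroup.lift _ V.normalizerMonoidHom hker.ge (e.symm (e _)) x : V) : G) = _
    rw [e.symm_apply_apply]
    rfl
  let _ : CommGroup V := { (inferInstance : Group V) with mul_comm := fun a b => mul_comm' a b }
  let _ : Module (ZMod 2) (Additive V) := AddCommGroup.zmodModule fun x =>
    congrArg Additive.ofMul (show x.toMul ^ 2 = 1 from Subtype.ext (hV.2 _ x.toMul.2))
  let _ : DistribMulAction M24 (Additive V) :=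
    { smul := fun σ x => Additive.ofMul (α σ x.toMul)
      one_smul := fun x => congrArg Additive.ofMul (by rw [map_one]; rfl)
      mul_smul := fun a b x => congrArg Additive.ofMul (by rw [map_mul]; rfl)
      smul_zero := fun a => congrArg Additive.ofMul (map_one (α a))
      smul_add := fun a x y => congrArg Additive.ofMul (map_mul (α a) _ _) }
  have hsm : ∀ n (x : Additive V), (((π n • x).toMul : V) : G) = n * x.toMul * (n : G)⁻¹ :=
    fun n x => hα n x.toMul
  have hf : ∀ g : M24, (∀ x : Additive V, g • x = x) → g = 1 := by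
    intro g hg
    obtain ⟨n, rfl⟩ := hπs g
    rw [hπk]
    refine hC.le (mem_centralizer_iff.2 fun x hx => ?_)
    have := hsm n (Additive.ofMul ⟨x, hx⟩)
    rw [hg] at this
    exact (eq_mul_inv_iff_mul_eq.1 this)
  obtain ⟨χ, hχ⟩ := Mod.ex_chi
  have hχa : ∀ A B, χ (symmDiff A B) = χ A + χ B := fun A B =>
    support₂_injective (by rw [GSub.support_add, hχ, hχ, hχ])
  have hχs : ∀ (σ : Equiv.Perm GolayPt) A, χ (σ • A) = fun p => χ A (σ.symm p) := fun σ A =>
    support₂_injective (by rw [support₂_comp_symm, hχ, hχ])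
  have hχw : ∀ w, χ (support₂ w) = w := fun w => support₂_injective (hχ _)
  have hχg : ∀ A, χ A ∈ golayCode ↔ A ∈ golaySets := fun A => by
    rw [← support_mem_golaySets_iff, hχ]
  have hχe : ∀ A, ∑ p, χ A p = 0 ↔ Even A.card := fun A => by rw [Mod.sum_eq_zero_iff, hχ]
  let ρ : G → Equiv.Perm GolayPt := fun g =>
    if h : g ∈ normalizer (V : Set G) then (π ⟨g, h⟩ : Equiv.Perm GolayPt) else 1
  have hρ : ∀ n (h : n ∈ normalizer (V : Set G)), ρ n = π ⟨n, h⟩ := fun n h => dif_pos h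
  have r1 : ∀ n, ρ n ∈ M24 := fun n => by
    by_cases h : n ∈ normalizer (V : Set G)
    · rw [hρ n h]; exact (π _).2
    · rw [show ρ n = 1 from dif_neg h]; exact one_mem _
  have r2 : ∀ a ∈ normalizer (V : Set G), ∀ b ∈ normalizer (V : Set G), ρ (a * b) = ρ a * ρ b :=
    fun a ha b hb => by
      rw [hρ a ha, hρ b hb, hρ _ (mul_mem ha hb), ← coe_mul, ← map_mul]
      rfl
  have r3 : ∀ n ∈ normalizer (V : Set G), ρ n = 1 ↔ n ∈ V := fun n h => by
    rw [hρ n h, OneMemClass.coe_eq_one, hπk]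
  have r4 : ∀ σ ∈ M24, ∃ n ∈ normalizer (V : Set G), ρ n = σ := fun σ hσ => by
    obtain ⟨n, hn⟩ := hπs ⟨σ, hσ⟩
    exact ⟨n, n.2, by rw [hρ n n.2, hn]⟩
  have hone : ∀ x : Additive V, ((x.toMul : V) : G) = 1 ↔ x = 0 := fun x => OneMemClass.coe_eq_one
  rcases Mod.modid (V := Additive V) hcard hf with ⟨θ, t1, t2, t3⟩ | ⟨θ, t1, t2, t3⟩
  · refine ⟨fun A => ((θ (χ A)).toMul : V), ρ, Or.inl ⟨fun A B => ?_, fun g => ⟨fun hg => ?_, ?_⟩,
      fun A hA => ?_, r1, r2, r3, r4, fun n hn A hA => ?_⟩⟩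
    · rw [hχa, map_add]; rfl
    · obtain ⟨w, hw, h⟩ := t1 (Additive.ofMul ⟨g, hg⟩)
      exact ⟨support₂ w, support_mem_golaySets_iff.2 hw, by simp only [hχw, h]; rfl⟩
    · rintro ⟨A, -, rfl⟩
      exact Subtype.prop _
    · rw [hone, t2 _ ((hχg A).2 hA), ← support₂_injective.eq_iff, ← support₂_injective.eq_iff, hχ,
        GSub.support_zero]
      exact or_congr_right (by rw [show support₂ (1 : GolayPt → ZMod 2) = _ from GSub.support_one])
    · rw [hχs, hρ n hn, t3 _ _ ((hχg A).2 hA), hsm]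
  · refine ⟨fun A => ((θ (χ A)).toMul : V), ρ, Or.inr ⟨fun A B => ?_, fun g => ⟨fun hg => ?_, ?_⟩,
      fun A hA => ?_, r1, r2, r3, r4, fun n hn A hA => ?_⟩⟩
    · rw [hχa, map_add]; rfl
    · obtain ⟨w, hw, h⟩ := t1 (Additive.ofMul ⟨g, hg⟩)
      exact ⟨support₂ w, (Mod.sum_eq_zero_iff w).1 hw, by simp only [hχw, h]; rfl⟩
    · rintro ⟨A, -, rfl⟩
      exact Subtype.prop _
    · rw [hone, t2 _ ((hχe A).2 hA), hχg]
    · rw [hχs, hρ n hn, t3 _ _ ((hχe A).2 hA), hsm]

end Cfsg.Lib.R11
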